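import Mathlib

/-!
# Linear algebra for an element of primitive prime order over the field of two elements
-/

set_option autoImplicit false
set_option linter.unusedSectionVars false

namespace Cfsg.Agent.Lib.RankOneOdd.Frame1

open Module

universe u

/-- The vector space. -/
abbrev VV (n : ℕ) : Type := Fin n → ZMod 2

/-- The matrices. -/
abbrev MM (n : ℕ) : Type := Matrix (Fin n) (Fin n) (ZMod 2)

variable {n p : ℕ} [hp : Fact p.Prime]

theorem mulVec_pow_apply (M : MM n) (k : ℕ) (v : VV n) (f : VV n → VV n) (hf : f = M.mulVec) :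
    f^[k] v = (M ^ k).mulVec v := by
  subst hf
  induction k generalizing v with
  | zero => simp
  | succ k ih =>
    rw [Function.iterate_succ_apply', ih, pow_succ', Matrix.mulVec_mulVec]

/-- Fixed point count on an invariant subspace. -/
theorem pow_finrank_modEq (M : MM n) (hM : M ^ p = 1) (U : Submodule (ZMod 2) (VV n))
    (hU : ∀ v ∈ U, M.mulVec v ∈ U) :
    2 ^ finrank (ZMod 2) U ≡ 2 ^ finrank (ZMod 2) (U ⊓ LinearMap.ker (M.mulVecLin - 1) : Submodule (ZMod 2) (VV n))
      [MOD p] := by
  classical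
  let f : Function.End U := fun v => ⟨M.mulVec v, hU v v.2⟩
  have hf1 : ∀ (k : ℕ) (v : U), (((f ^ k) v : U) : VV n) = (M ^ k).mulVec (v : VV n) := by
    intro k v
    induction k generalizing v with
    | zero =>
      simp only [pow_zero, Matrix.one_mulVec]
      rfl
    | succ k ih =>
      rw [pow_succ]
      change ((f ^ k) (f v) : VV n) = _
      rw [ih, pow_succ, Matrix.mulVec_mulVec]
  have hfp : f ^ p ^ 1 = 1 := by
    rw [pow_one]
    funext v
    apply Subtype.ext
    rw [hf1, hM, Matrix.one_mulVec]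
    rfl
  letI : Fintype U := Fintype.ofFinite _
  have h1 := Equiv.Perm.card_fixedPoints_modEq hfp
  have h2 : Fintype.card U = 2 ^ finrank (ZMod 2) U := by
    rw [Module.card_eq_pow_finrank (K := ZMod 2), ZMod.card]
  let F : Submodule (ZMod 2) (VV n) := U ⊓ LinearMap.ker (M.mulVecLin - 1)
  have hF : ∀ v : VV n, v ∈ F ↔ v ∈ U ∧ M.mulVec v = v := by
    intro v
    simp only [F, Submodule.mem_inf, LinearMap.mem_ker, LinearMap.sub_apply, Matrix.mulVecLin_apply,
      Module.End.one_apply, sub_eq_zero]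
  letI : Fintype F := Fintype.ofFinite _
  have h3 : Fintype.card F = 2 ^ finrank (ZMod 2) F := by
    rw [Module.card_eq_pow_finrank (K := ZMod 2), ZMod.card]
  have h4 : ∀ inst : Fintype (Function.fixedPoints (f : U → U)), @Fintype.card _ inst = 2 ^ finrank (ZMod 2) F := by
    intro inst
    rw [← h3]
    exact Fintype.card_congr ⟨fun v => ⟨(v.1 : VV n), (hF _).2 ⟨v.1.2, congrArg Subtype.val v.2⟩⟩,
      fun v => ⟨⟨(v : VV n), ((hF _).1 v.2).1⟩, Subtype.ext ((hF _).1 v.2).2⟩, fun v => rfl, fun v => rfl⟩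
  rw [h2] at h1
  convert h1 using 1
  exact (h4 _).symm

/-- A power of two congruent to one. -/
theorem dvd_of_modEq (hord : orderOf (2 : ZMod p) = n) {d : ℕ} (h : 2 ^ d ≡ 1 [MOD p]) : n ∣ d := by
  rw [← hord]
  apply orderOf_dvd_of_pow_eq_one
  have h1 := (ZMod.natCast_eq_natCast_iff _ _ _).2 h
  push_cast at h1
  exact h1

theorem two_pow_modEq_one (hord : orderOf (2 : ZMod p) = n) : 2 ^ n ≡ 1 [MOD p] := by
  have h1 : (2 : ZMod p) ^ n = 1 := by
    rw [← hord]
    exact pow_orderOf_eq_one _
  apply (ZMod.natCast_eq_natCast_iff _ _ _).1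
  push_cast
  exact h1

theorem finrank_top' : finrank (ZMod 2) (VV n) = n := by simp

/-- An element of order `p` has no fixed vector. -/
theorem fpf_of_ne_one (hord : orderOf (2 : ZMod p) = n) (M : MM n) (hM : M ^ p = 1) (hne : M ≠ 1) (v : VV n)
    (hv : M.mulVec v = v) : v = 0 := by
  have h1 := pow_finrank_modEq M hM ⊤ (fun _ _ => Submodule.mem_top)
  rw [finrank_top, finrank_top', top_inf_eq] at h1
  set F := LinearMap.ker (M.mulVecLin - 1) with hF
  have h2 : 2 ^ finrank (ZMod 2) F ≡ 1 [MOD p] := h1.symm.trans (two_pow_modEq_one hord)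
  have h3 := dvd_of_modEq hord h2
  have h4 : finrank (ZMod 2) F ≤ n := by
    have := Submodule.finrank_le F
    rwa [finrank_top'] at this
  have hmem : ∀ w : VV n, w ∈ F ↔ M.mulVec w = w := by
    intro w
    simp only [hF, LinearMap.mem_ker, LinearMap.sub_apply, Matrix.mulVecLin_apply, Module.End.one_apply, sub_eq_zero]
  by_cases h5 : finrank (ZMod 2) F = 0
  · have h6 : F = ⊥ := Submodule.finrank_eq_zero.1 h5
    have h7 : v ∈ F := (hmem v).2 hv
    rw [h6] at h7
    simpa using h7
  · exfalso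
    have h6 : finrank (ZMod 2) F = n := le_antisymm h4 (Nat.le_of_dvd (Nat.pos_of_ne_zero h5) h3)
    have h7 : F = ⊤ := Submodule.eq_top_of_finrank_eq (by rw [h6, finrank_top'])
    apply hne
    ext i j
    have h8 : M.mulVec (Pi.single j 1) = Pi.single j 1 := (hmem _).1 (by rw [h7]; exact Submodule.mem_top)
    have h9 := congrFun h8 i
    rw [Matrix.mulVec_single_one] at h9
    simpa [Matrix.one_apply, Pi.single_apply] using h9

/-- Irreducibility. -/
theorem eq_bot_or_top (hord : orderOf (2 : ZMod p) = n) (M : MM n) (hM : M ^ p = 1)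
    (hfpf : ∀ v : VV n, M.mulVec v = v → v = 0) (U : Submodule (ZMod 2) (VV n))
    (hU : ∀ v ∈ U, M.mulVec v ∈ U) : U = ⊥ ∨ U = ⊤ := by
  have h1 := pow_finrank_modEq M hM U hU
  have h2 : (U ⊓ LinearMap.ker (M.mulVecLin - 1) : Submodule (ZMod 2) (VV n)) = ⊥ := by
    rw [Submodule.eq_bot_iff]
    intro v hv
    rw [Submodule.mem_inf, LinearMap.mem_ker] at hv
    simp only [LinearMap.sub_apply, Matrix.mulVecLin_apply, Module.End.one_apply, sub_eq_zero] at hv
    exact hfpf v hv.2
  rw [h2, finrank_bot, pow_zero] at h1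
  have h3 := dvd_of_modEq hord h1
  have h4 : finrank (ZMod 2) U ≤ n := by
    have := Submodule.finrank_le U
    rwa [finrank_top'] at this
  by_cases h5 : finrank (ZMod 2) U = 0
  · exact Or.inl (Submodule.finrank_eq_zero.1 h5)
  · right
    have h6 : finrank (ZMod 2) U = n := le_antisymm h4 (Nat.le_of_dvd (Nat.pos_of_ne_zero h5) h3)
    exact Submodule.eq_top_of_finrank_eq (by rw [h6, finrank_top'])

/-- A nonzero element of the commutant is injective. -/
theorem injective_of_comm (hord : orderOf (2 : ZMod p) = n) (M : MM n) (hM : M ^ p = 1)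
    (hfpf : ∀ v : VV n, M.mulVec v = v → v = 0) (a : MM n) (ha : a * M = M * a) (h0 : a ≠ 0) :
    Function.Injective a.mulVec := by
  have h1 := eq_bot_or_top hord M hM hfpf (LinearMap.ker a.mulVecLin) (by
    intro v hv
    rw [LinearMap.mem_ker, Matrix.mulVecLin_apply] at hv ⊢
    rw [Matrix.mulVec_mulVec, ha, ← Matrix.mulVec_mulVec, hv, Matrix.mulVec_zero])
  rcases h1 with h1 | h1
  · have h2 := LinearMap.ker_eq_bot.1 h1
    intro x y hxy
    exact h2 hxy
  · exfalso
    apply h0
    ext i j
    have h2 : (Pi.single j 1 : VV n) ∈ LinearMap.ker a.mulVecLin := by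
      rw [h1]
      exact Submodule.mem_top
    rw [LinearMap.mem_ker, Matrix.mulVecLin_apply, Matrix.mulVec_single_one] at h2
    exact congrFun h2 i

/-- The commutant. -/
abbrev EE (M : MM n) : Subring (MM n) := Subring.centralizer ({M} : Set (MM n))

theorem mem_EE {M a : MM n} : a ∈ EE M ↔ a * M = M * a := by
  rw [Subring.mem_centralizer_iff]
  simp only [Set.mem_singleton_iff, forall_eq]
  exact eq_comm

theorem isDomain_EE (hord : orderOf (2 : ZMod p) = n) (hn : 0 < n) (M : MM n) (hM : M ^ p = 1)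
    (hfpf : ∀ v : VV n, M.mulVec v = v → v = 0) : IsDomain (EE M) := by
  haveI : Nonempty (Fin n) := ⟨⟨0, hn⟩⟩
  haveI : NoZeroDivisors (EE M) := by
    refine ⟨fun {a b} hab => ?_⟩
    by_cases h0 : a = 0
    · exact Or.inl h0
    · right
      have ha : (a : MM n) ≠ 0 := fun h => h0 (Subtype.ext h)
      have h1 := injective_of_comm hord M hM hfpf (a : MM n) (mem_EE.1 a.2) ha
      have h2 : (a : MM n) * (b : MM n) = 0 := congrArg Subtype.val hab
      apply Subtype.ext
      ext i j
      have h3 : (a : MM n).mulVec ((b : MM n).mulVec (Pi.single j 1)) = (a : MM n).mulVec 0 := by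
        rw [Matrix.mulVec_mulVec, h2, Matrix.zero_mulVec, Matrix.mulVec_zero]
      have h4 := h1 h3
      rw [Matrix.mulVec_single_one] at h4
      exact congrFun h4 i
  exact NoZeroDivisors.to_isDomain _

theorem comm_of_mem_EE (hord : orderOf (2 : ZMod p) = n) (hn : 0 < n) (M : MM n) (hM : M ^ p = 1)
    (hfpf : ∀ v : VV n, M.mulVec v = v → v = 0) (a b : MM n) (ha : a * M = M * a) (hb : b * M = M * b) :
    a * b = b * a := by
  haveI := isDomain_EE hord hn M hM hfpf
  have h1 := Finite.isDomain_to_isField (EE M)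
  have h2 := h1.mul_comm ⟨a, mem_EE.2 ha⟩ ⟨b, mem_EE.2 hb⟩
  exact congrArg Subtype.val h2

/-- A finite group in the unit group of the commutant is cyclic. -/
theorem isCyclic_of_hom (hord : orderOf (2 : ZMod p) = n) (hn : 0 < n) (M : MM n) (hM : M ^ p = 1)
    (hfpf : ∀ v : VV n, M.mulVec v = v → v = 0) {C : Type u} [Group C] [Finite C] (f : C →* MM n)
    (hf : Function.Injective f) (hC : ∀ c, f c * M = M * f c) : IsCyclic C := by
  haveI := isDomain_EE hord hn M hM hfpf
  have h1 := Finite.isDomain_to_isField (EE M)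
  letI : Field (EE M) := h1.toField
  let g : C →* (EE M) :=
    { toFun := fun c => ⟨f c, mem_EE.2 (hC c)⟩
      map_one' := Subtype.ext f.map_one
      map_mul' := fun a b => Subtype.ext (f.map_mul a b) }
  exact isCyclic_of_subgroup_isDomain g (fun a b h => hf (congrArg Subtype.val h))

end Cfsg.Agent.Lib.RankOneOdd.Frame1
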