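import Mathlib
import Cfsg.Agent.Lib.RankOneOdd.Frame1

/-!
# The abstract doubly transitive linear frame: basic facts
-/

set_option autoImplicit false
set_option linter.unusedSectionVars false

namespace Cfsg.Agent.Lib.RankOneOdd.AA0

open Cfsg.Agent.Lib.RankOneOdd.Frame1

universe u

variable {X : Type u} [Group X] [Finite X] {n : ℕ}

/-- The data of the linear frame. -/
structure LF (ρ : X →* MM n) (τ : X ≃* X) (z₀ : VV n) : Prop where
  inj : Function.Injective ρ
  odd : Odd (Nat.card X)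
  invol : ∀ x, τ (τ x) = x
  ne : z₀ ≠ 0
  fix : ∀ x, τ x = x ↔ (ρ x).mulVec z₀ = z₀
  trans : ∀ z, z ≠ 0 → ∃ k, τ k = k⁻¹ ∧ (ρ k).mulVec z₀ = z

/-- The inverted elements. -/
def KS (τ : X ≃* X) : Set X := {k | τ k = k⁻¹}

/-- The fixed elements. -/
def VS (τ : X ≃* X) : Subgroup X where
  carrier := {v | τ v = v}
  one_mem' := map_one τ
  mul_mem' := by
    intro a b ha hb
    change τ (a * b) = a * b
    rw [map_mul, show τ a = a from ha, show τ b = b from hb]
  inv_mem' := by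
    intro a ha
    change τ a⁻¹ = a⁻¹
    rw [map_inv, show τ a = a from ha]

variable {ρ : X →* MM n} {τ : X ≃* X} {z₀ : VV n}

theorem mem_KS {k : X} : k ∈ KS τ ↔ τ k = k⁻¹ := Iff.rfl

theorem mem_VS {v : X} : v ∈ VS τ ↔ τ v = v := Iff.rfl

theorem one_mem_KS : (1 : X) ∈ KS τ := by simp [KS]

theorem pow_mem_KS {k : X} (hk : k ∈ KS τ) (m : ℕ) : k ^ m ∈ KS τ := by
  rw [mem_KS] at hk ⊢
  rw [map_pow, hk, inv_pow]

theorem zpow_mem_KS {k : X} (hk : k ∈ KS τ) (m : ℤ) : k ^ m ∈ KS τ := by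
  rw [mem_KS] at hk ⊢
  rw [map_zpow, hk, inv_zpow]

theorem inv_mem_KS {k : X} (hk : k ∈ KS τ) : k⁻¹ ∈ KS τ := by
  rw [mem_KS] at hk ⊢
  rw [map_inv, hk]

theorem odd_orderOf (h : LF ρ τ z₀) (x : X) : Odd (orderOf x) :=
  Odd.of_dvd_nat h.odd (orderOf_dvd_natCard x)

/-- An element is a power of its square. -/
theorem exists_pow_sq (h : LF ρ τ z₀) (x : X) : ∃ m : ℕ, (x ^ 2) ^ m = x := by
  obtain ⟨s, hs⟩ := odd_orderOf h x
  refine ⟨s + 1, ?_⟩
  rw [← pow_mul]
  have h1 : 2 * (s + 1) = orderOf x + 1 := by omega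
  rw [h1, pow_succ, pow_orderOf_eq_one, one_mul]

theorem sq_inj (h : LF ρ τ z₀) {x y : X} (hxy : x ^ 2 = y ^ 2) : x = y :=
  (powCoprime (Nat.coprime_two_right.2 h.odd)).injective hxy

theorem sq_eq_one (h : LF ρ τ z₀) {x : X} (hx : x * x = 1) : x = 1 := by
  apply sq_inj h
  rw [pow_two, hx, one_pow]

theorem mulVec_mul (x y : X) (v : VV n) : (ρ (x * y)).mulVec v = (ρ x).mulVec ((ρ y).mulVec v) := by
  rw [map_mul, Matrix.mulVec_mulVec]

theorem mulVec_one' (v : VV n) : (ρ 1).mulVec v = v := by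
  rw [map_one, Matrix.one_mulVec]

theorem mulVec_inv (x : X) (v : VV n) : (ρ x⁻¹).mulVec ((ρ x).mulVec v) = v := by
  rw [← mulVec_mul, inv_mul_cancel, mulVec_one']

theorem mulVec_inv' (x : X) (v : VV n) : (ρ x).mulVec ((ρ x⁻¹).mulVec v) = v := by
  rw [← mulVec_mul, mul_inv_cancel, mulVec_one']

theorem mulVec_ne_zero (x : X) {v : VV n} (hv : v ≠ 0) : (ρ x).mulVec v ≠ 0 := by
  intro h0
  apply hv
  rw [← mulVec_inv (ρ := ρ) x v, h0, Matrix.mulVec_zero]

/-- Inverted elements are determined by their image of `z₀`. -/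
theorem KS_unique (h : LF ρ τ z₀) {k k' : X} (hk : k ∈ KS τ) (hk' : k' ∈ KS τ)
    (e : (ρ k).mulVec z₀ = (ρ k').mulVec z₀) : k = k' := by
  have h1 : τ (k⁻¹ * k') = k⁻¹ * k' := by
    rw [h.fix, mulVec_mul, ← e, mulVec_inv]
  rw [map_mul, map_inv, mem_KS.1 hk, mem_KS.1 hk', inv_inv] at h1
  apply sq_inj h
  have h2 : k * k'⁻¹ * k' = k⁻¹ * k' * k' := by rw [h1]
  rw [inv_mul_cancel_right] at h2
  have h3 : k * k = k * (k⁻¹ * k' * k') := by rw [← h2]
  rw [mul_assoc k⁻¹, mul_inv_cancel_left] at h3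
  rw [pow_two, pow_two]
  exact h3

theorem card_nonzero : Nat.card {z : VV n // z ≠ 0} = 2 ^ n - 1 := by
  classical
  have h1 : Nat.card (VV n) = 2 ^ n := by
    rw [Nat.card_eq_fintype_card]
    simp [ZMod.card]
  have h2 : Nat.card {z : VV n // z ≠ 0} + 1 = Nat.card (VV n) := by
    rw [Nat.card_eq_fintype_card, Nat.card_eq_fintype_card, Fintype.card_subtype_compl]
    have h3 : Fintype.card {z : VV n // z = 0} = 1 := by simp
    have h4 : 0 < Fintype.card (VV n) := Fintype.card_pos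
    rw [h3]
    omega
  omega

/-- The inverted elements correspond to the nonzero vectors. -/
theorem card_KS (h : LF ρ τ z₀) : Nat.card (KS τ) = 2 ^ n - 1 := by
  rw [← card_nonzero]
  refine Nat.card_congr (Equiv.ofBijective
    (fun k : KS τ => (⟨(ρ k).mulVec z₀, mulVec_ne_zero _ h.ne⟩ : {z : VV n // z ≠ 0})) ⟨?_, ?_⟩)
  · intro k k' e
    exact Subtype.ext (KS_unique h k.2 k'.2 (congrArg Subtype.val e))
  · rintro ⟨z, hz⟩
    obtain ⟨k, hk, e⟩ := h.trans z hz
    exact ⟨⟨k, hk⟩, Subtype.ext e⟩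

/-- Factorisation. -/
theorem exists_factor (h : LF ρ τ z₀) (x : X) : ∃ k ∈ KS τ, k⁻¹ * x ∈ VS τ := by
  obtain ⟨k, hk, e⟩ := h.trans _ (mulVec_ne_zero (ρ := ρ) x h.ne)
  refine ⟨k, hk, ?_⟩
  rw [mem_VS, h.fix, mulVec_mul, ← e, mulVec_inv]

theorem card_eq (h : LF ρ τ z₀) : Nat.card X = Nat.card (KS τ) * Nat.card (VS τ) := by
  rw [← Nat.card_prod]
  refine Nat.card_congr (Equiv.ofBijective (fun x : X => (⟨Classical.choose (exists_factor h x),
    (Classical.choose_spec (exists_factor h x)).1⟩,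
    ⟨(Classical.choose (exists_factor h x))⁻¹ * x, (Classical.choose_spec (exists_factor h x)).2⟩) :
      X → KS τ × VS τ) ⟨?_, ?_⟩)
  · intro x y e
    have h1 := congrArg (fun p : KS τ × VS τ => ((p.1 : X) * (p.2 : X))) e
    simpa using h1
  · rintro ⟨⟨k, hk⟩, ⟨v, hv⟩⟩
    refine ⟨k * v, ?_⟩
    have hs := Classical.choose_spec (exists_factor h (k * v))
    set k' := Classical.choose (exists_factor h (k * v)) with hk'
    have e1 : (ρ (k * v)).mulVec z₀ = (ρ k).mulVec z₀ := by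
      rw [mulVec_mul, (h.fix v).1 hv]
    have e2 : (ρ (k * v)).mulVec z₀ = (ρ k').mulVec z₀ := by
      have h2 : (ρ (k'⁻¹ * (k * v))).mulVec z₀ = z₀ := (h.fix _).1 hs.2
      rw [mulVec_mul] at h2
      have h3 := congrArg (ρ k').mulVec h2
      rwa [mulVec_inv'] at h3
    have e3 : k' = k := KS_unique h hs.1 hk (e2.symm.trans e1)
    refine Prod.ext (Subtype.ext e3) (Subtype.ext ?_)
    change k'⁻¹ * (k * v) = v
    rw [e3, inv_mul_cancel_left]

/-- A `τ`-invariant Sylow subgroup. -/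
theorem exists_invariant_sylow (h : LF ρ τ z₀) (r : ℕ) [Fact r.Prime] :
    ∃ P : Sylow r X, ∀ x ∈ (P : Subgroup X), τ x ∈ (P : Subgroup X) := by
  classical
  have hτ2 : τ * τ = 1 := by
    ext x
    exact h.invol x
  let f : Function.End (Sylow r X) := fun P => τ • P
  have hf : f ^ 2 ^ 1 = 1 := by
    funext P
    change τ • (τ • P) = P
    rw [smul_smul, hτ2, one_smul]
  haveI : Fact (Nat.Prime 2) := ⟨Nat.prime_two⟩
  letI : Fintype (Sylow r X) := Fintype.ofFinite _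
  have h1 := Equiv.Perm.card_fixedPoints_modEq hf
  have hodd : Odd (Fintype.card (Sylow r X)) := by
    obtain ⟨P⟩ : Nonempty (Sylow r X) := inferInstance
    have h2 := P.card_dvd_index
    rw [Nat.card_eq_fintype_card] at h2
    exact Odd.of_dvd_nat (Odd.of_dvd_nat h.odd (Subgroup.index_dvd_card _)) h2
  have hne : (Function.fixedPoints (f : Sylow r X → Sylow r X)).Nonempty := by
    by_contra hc
    rw [Set.not_nonempty_iff_eq_empty] at hc
    have h3 : ∀ inst : Fintype (Function.fixedPoints (f : Sylow r X → Sylow r X)), @Fintype.card _ inst = 0 := by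
      intro inst
      rw [Fintype.card_eq_zero_iff]
      exact ⟨fun x => (Set.eq_empty_iff_forall_notMem.1 hc x.1) x.2⟩
    have h4 : Fintype.card (Sylow r X) ≡ 0 [MOD 2] := by
      have h5 := h1
      rwa [h3] at h5
    have h6 := (Nat.modEq_zero_iff_dvd.1 h4)
    rw [← even_iff_two_dvd] at h6
    exact (Nat.not_even_iff_odd.2 hodd) h6
  obtain ⟨P, hP⟩ := hne
  refine ⟨P, fun x hx => ?_⟩
  have h7 : τ • P = P := hP
  rw [← h7, Sylow.pointwise_smul_def]
  exact ⟨x, hx, rfl⟩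

/-- Each prime divisor of `|KS|` is the order of an inverted element. -/
theorem exists_KS_of_dvd (h : LF ρ τ z₀) {r : ℕ} (hr : r.Prime) (hd : r ∣ 2 ^ n - 1) :
    ∃ k ∈ KS τ, orderOf k = r := by
  haveI : Fact r.Prime := ⟨hr⟩
  obtain ⟨P, hP⟩ := exists_invariant_sylow h r
  have hc := card_eq h
  rw [card_KS h] at hc
  have hex : ∃ x ∈ (P : Subgroup X), τ x ≠ x := by
    by_contra hno
    push Not at hno
    have hle : (P : Subgroup X) ≤ VS τ := fun x hx => hno x hx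
    have h1 : Nat.card (P : Subgroup X) ∣ Nat.card (VS τ) := Subgroup.card_dvd_of_le hle
    have h2 : Nat.card (P : Subgroup X) * r ∣ Nat.card X := by
      rw [hc, mul_comm]
      exact Nat.mul_dvd_mul hd h1
    rw [P.card_eq_multiplicity, ← pow_succ] at h2
    have h3 := (Nat.Prime.pow_dvd_iff_le_factorization hr Nat.card_pos.ne').1 h2
    omega
  obtain ⟨x, hx, hne⟩ := hex
  set y := x⁻¹ * τ x with hy
  have hyP : y ∈ (P : Subgroup X) := mul_mem (inv_mem hx) (hP x hx)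
  have hyK : y ∈ KS τ := by
    rw [mem_KS, hy, map_mul, map_inv, h.invol, mul_inv_rev, inv_inv]
  have hy1 : y ≠ 1 := by
    intro h1
    apply hne
    rw [hy, inv_mul_eq_one] at h1
    exact h1.symm
  obtain ⟨j, hj⟩ := IsPGroup.iff_orderOf.1 P.2 ⟨y, hyP⟩
  have hj' : orderOf y = r ^ j := by
    rw [← hj]
    exact (Subgroup.orderOf_mk y hyP).symm
  have hj0 : j ≠ 0 := by
    rintro rfl
    rw [pow_zero, orderOf_eq_one_iff] at hj'
    exact hy1 hj'
  refine ⟨y ^ (orderOf y / r), pow_mem_KS hyK _, orderOf_pow_orderOf_div (orderOf_pos y).ne' ?_⟩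
  rw [hj']
  exact dvd_pow_self r hj0

end Cfsg.Agent.Lib.RankOneOdd.AA0
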