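import Mathlib

/-!
# A combinatorial lemma on integer vectors at mutual distance two
-/

set_option autoImplicit false

namespace Cfsg.Agent.Lib.RankOneOdd.Sunflower

variable {K : Type*} [DecidableEq K]

/-- The coordinate vector. -/
def dl (a k : K) : ℤ := if k = a then 1 else 0

@[simp] theorem dl_self (a : K) : dl a a = 1 := by simp [dl]

theorem dl_ne {a k : K} (h : k ≠ a) : dl a k = 0 := by simp [dl, h]

theorem dl_nonneg (a k : K) : 0 ≤ dl a k := by
  unfold dl
  split_ifs <;> norm_num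

theorem dl_le_one (a k : K) : dl a k ≤ 1 := by
  unfold dl
  split_ifs <;> norm_num

/-- Vectors differing by `e_a - e_b`. -/
def Diff2 (v w : K → ℤ) : Prop := ∃ a b, a ≠ b ∧ ∀ k, v k - w k = dl a k - dl b k

/-- A vector of norm two orthogonal to a positive vector. -/
theorem norm2_form [Fintype K] (d w : K → ℤ) (hw : ∀ k, 0 < w k) (hn : ∑ k, d k * d k = 2)
    (hs : ∑ k, d k * w k = 0) : ∃ a b, a ≠ b ∧ ∀ k, d k = dl a k - dl b k := by
  classical
  have hne : ∃ k, d k ≠ 0 := by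
    by_contra hall
    push Not at hall
    rw [Finset.sum_eq_zero (fun k _ => by rw [hall k, mul_zero])] at hn
    norm_num at hn
  obtain ⟨k₀, hk₀⟩ := hne
  have ha : ∃ a, 0 < d a := by
    by_contra hall
    push Not at hall
    have h1 : ∑ k, d k * w k < 0 := by
      apply Finset.sum_neg'
      · intro k _
        exact mul_nonpos_of_nonpos_of_nonneg (hall k) (hw k).le
      · exact ⟨k₀, Finset.mem_univ _, mul_neg_of_neg_of_pos (lt_of_le_of_ne (hall k₀) hk₀) (hw k₀)⟩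
    omega
  have hb : ∃ b, d b < 0 := by
    by_contra hall
    push Not at hall
    have h1 : 0 < ∑ k, d k * w k := by
      apply Finset.sum_pos'
      · intro k _
        exact mul_nonneg (hall k) (hw k).le
      · exact ⟨k₀, Finset.mem_univ _, mul_pos (lt_of_le_of_ne (hall k₀) (Ne.symm hk₀)) (hw k₀)⟩
    omega
  obtain ⟨a, ha⟩ := ha
  obtain ⟨b, hb⟩ := hb
  have hab : a ≠ b := by
    rintro rfl
    omega
  refine ⟨a, b, hab, ?_⟩
  have h1 : ∑ k, d k * d k = d a * d a + (d b * d b + ∑ k ∈ (Finset.univ.erase a).erase b, d k * d k) := by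
    rw [← Finset.add_sum_erase _ _ (Finset.mem_univ a),
      ← Finset.add_sum_erase _ _ (Finset.mem_erase.2 ⟨hab.symm, Finset.mem_univ b⟩)]
  have h2 : 0 ≤ ∑ k ∈ (Finset.univ.erase a).erase b, d k * d k :=
    Finset.sum_nonneg fun k _ => mul_self_nonneg _
  rw [hn] at h1
  have h3 : d a = 1 := by nlinarith
  have h4 : d b = -1 := by nlinarith
  have h5 : ∑ k ∈ (Finset.univ.erase a).erase b, d k * d k = 0 := by
    rw [h3, h4] at h1
    linarith
  have h6 := (Finset.sum_eq_zero_iff_of_nonneg fun k _ => mul_self_nonneg (d k)).1 h5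
  intro k
  by_cases hka : k = a
  · subst hka
    rw [dl_self, dl_ne hab, h3]
    norm_num
  · by_cases hkb : k = b
    · subst hkb
      rw [dl_self, dl_ne hka, h4]
      norm_num
    · rw [dl_ne hka, dl_ne hkb]
      have h7 := h6 k (Finset.mem_erase.2 ⟨hkb, Finset.mem_erase.2 ⟨hka, Finset.mem_univ k⟩⟩)
      simpa using h7

/-- The classification of a further vector relative to a fixed pair. -/
theorem classify {u v w : K → ℤ} {a b : K} (hab : a ≠ b) (h1 : ∀ k, v k - u k = dl a k - dl b k)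
    (h2 : w = u ∨ Diff2 w u) (h3 : w = v ∨ Diff2 w v) :
    w = u ∨ w = v ∨ (∃ n, n ≠ a ∧ n ≠ b ∧ ∀ k, w k - u k = dl a k - dl n k) ∨
      (∃ q, q ≠ a ∧ q ≠ b ∧ ∀ k, w k - u k = dl q k - dl b k) := by
  rcases h2 with h2 | ⟨p, n, hpn, h2⟩
  · exact Or.inl h2
  rcases h3 with h3 | ⟨x, y, hxy, h3⟩
  · exact Or.inr (Or.inl h3)
  refine Or.inr (Or.inr ?_)
  have h4 : ∀ k, dl p k - dl n k - (dl a k - dl b k) = dl x k - dl y k := by
    intro k
    rw [← h2 k, ← h1 k, ← h3 k]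
    ring
  by_cases hpa : p = a
  · subst hpa
    left
    refine ⟨n, hpn.symm, ?_, h2⟩
    rintro rfl
    -- then `w - u = v - u` and so `w - v = 0`
    have h5 := h4 x
    rw [sub_self, dl_self, dl_ne hxy] at h5
    norm_num at h5
  by_cases hnb : n = b
  · subst hnb
    right
    exact ⟨p, hpa, hpn, h2⟩
  exfalso
  -- the remaining case is impossible
  by_cases hpb : p = b
  · subst hpb
    have h5 := h4 p
    rw [dl_self, dl_ne hpn, dl_ne hpa] at h5
    have h6 := dl_le_one x p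
    have h7 := dl_nonneg y p
    omega
  have h5 := h4 p
  rw [dl_self, dl_ne hpn, dl_ne hpa, dl_ne hpb] at h5
  have h6 := h4 b
  rw [dl_self, dl_ne (Ne.symm hpb), dl_ne (Ne.symm hnb), dl_ne hab.symm] at h6
  have h7 : x = p := by
    by_contra hne
    rw [dl_ne (Ne.symm hne)] at h5
    have := dl_nonneg y p
    omega
  have h8 : x = b := by
    by_contra hne
    rw [dl_ne (Ne.symm hne)] at h6
    have := dl_nonneg y b
    omega
  exact hpb (h7.symm.trans h8)

/-- **The sunflower lemma.** -/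
theorem sunflower {ι : Type*} [Nonempty K] (I : Finset ι) (v : ι → K → ℤ)
    (h : ∀ i ∈ I, ∀ j ∈ I, v i = v j ∨ Diff2 (v i) (v j)) :
    ∃ (M : K → ℤ) (s : ℤ), (s = 1 ∨ s = -1) ∧ ∀ i ∈ I, ∃ k, ∀ ψ, v i ψ = M ψ + s * dl k ψ := by
  classical
  by_cases hI : I.Nonempty
  swap
  · rw [Finset.not_nonempty_iff_eq_empty] at hI
    subst hI
    exact ⟨0, 1, Or.inl rfl, fun i hi => absurd hi (Finset.notMem_empty i)⟩
  obtain ⟨i₀, hi₀⟩ := hI
  by_cases hall : ∀ i ∈ I, v i = v i₀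
  · obtain ⟨k₀⟩ := ‹Nonempty K›
    refine ⟨fun ψ => v i₀ ψ - dl k₀ ψ, 1, Or.inl rfl, fun i hi => ⟨k₀, fun ψ => ?_⟩⟩
    rw [hall i hi]
    ring
  push Not at hall
  obtain ⟨i₁, hi₁, hne⟩ := hall
  obtain ⟨a, b, hab, h01⟩ := (h i₁ hi₁ i₀ hi₀).resolve_left hne
  have hcl : ∀ i ∈ I, v i = v i₀ ∨ v i = v i₁ ∨
      (∃ n, n ≠ a ∧ n ≠ b ∧ ∀ k, v i k - v i₀ k = dl a k - dl n k) ∨
      (∃ q, q ≠ a ∧ q ≠ b ∧ ∀ k, v i k - v i₀ k = dl q k - dl b k) := fun i hi =>
    classify hab h01 (h i hi i₀ hi₀) (h i hi i₁ hi₁)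
  by_cases hC : ∃ i ∈ I, ∃ n, n ≠ a ∧ n ≠ b ∧ ∀ k, v i k - v i₀ k = dl a k - dl n k
  · obtain ⟨i, hi, n, hna, hnb, hn⟩ := hC
    refine ⟨fun ψ => v i₀ ψ + dl a ψ, -1, Or.inr rfl, fun j hj => ?_⟩
    rcases hcl j hj with e | e | ⟨n', _, _, e⟩ | ⟨q, hqa, hqb, e⟩
    · exact ⟨a, fun ψ => by rw [e]; ring⟩
    · refine ⟨b, fun ψ => ?_⟩
      rw [e]
      have := h01 ψ
      linarith
    · refine ⟨n', fun ψ => ?_⟩
      have := e ψ
      linarith
    · exfalso
      have h5 : ∀ k, v i k - v j k = dl a k + dl b k - dl n k - dl q k := by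
        intro k
        have h6 := hn k
        have h7 := e k
        linarith
      rcases h i hi j hj with e' | ⟨x, y, _, e'⟩
      · have h6 := h5 a
        rw [e', sub_self, dl_self, dl_ne hab, dl_ne hna.symm, dl_ne hqa.symm] at h6
        norm_num at h6
      · have h6 := h5 a
        rw [e', dl_self, dl_ne hab, dl_ne hna.symm, dl_ne hqa.symm] at h6
        have h7 := h5 b
        rw [e', dl_self, dl_ne hab.symm, dl_ne hnb.symm, dl_ne hqb.symm] at h7
        have h8 : x = a := by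
          by_contra hne'
          rw [dl_ne (Ne.symm hne')] at h6
          have := dl_nonneg y a
          omega
        have h9 : x = b := by
          by_contra hne'
          rw [dl_ne (Ne.symm hne')] at h7
          have := dl_nonneg y b
          omega
        exact hab (h8.symm.trans h9)
  · push Not at hC
    refine ⟨fun ψ => v i₀ ψ - dl b ψ, 1, Or.inl rfl, fun j hj => ?_⟩
    rcases hcl j hj with e | e | ⟨n', hna, hnb, e⟩ | ⟨q, _, _, e⟩
    · exact ⟨b, fun ψ => by rw [e]; ring⟩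
    · refine ⟨a, fun ψ => ?_⟩
      rw [e]
      have := h01 ψ
      linarith
    · obtain ⟨k, hk⟩ := hC j hj n' hna hnb
      exact absurd (e k) hk
    · refine ⟨q, fun ψ => ?_⟩
      have := e ψ
      linarith

theorem sum_mul_dl [Fintype K] (g : K → ℤ) (k : K) : ∑ ψ, g ψ * dl k ψ = g k := by
  rw [Finset.sum_eq_single k]
  · rw [dl_self, mul_one]
  · intro ψ _ hψ
    rw [dl_ne hψ, mul_zero]
  · intro h
    exact absurd (Finset.mem_univ k) h

theorem sum_dl_mul_dl [Fintype K] (k : K) : ∑ ψ, dl k ψ * dl k ψ = 1 := by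
  rw [sum_mul_dl (fun ψ => dl k ψ) k, dl_self]

/-- A trivial bound for multiples. -/
theorem dvd_bound {p x : ℤ} (hp : 0 < p) (h : p ∣ x) : x = 0 ∨ p ≤ x ∨ x ≤ -p := by
  rcases lt_trichotomy x 0 with hx | hx | hx
  · right; right
    have := Int.le_of_dvd (by omega : 0 < -x) ((dvd_neg).2 h)
    omega
  · exact Or.inl hx
  · right; left
    exact Int.le_of_dvd hx h

/-- The first arithmetic lemma. -/
theorem arith_one {c e h p : ℤ} (hc : 2 ≤ c) (he : 3 ≤ e) (hp : p = c * e + 1)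
    (hb : c * (h * h) + 1 ≤ e + 2 * h)
    (hd : p ∣ h + e - 1 ∨ p ∣ h + e + 1 ∨ p ∣ h + e - e ∨ p ∣ h + e + e) :
    h = 0 ∨ (c = 2 ∧ h = 1) := by
  have hp0 : 0 < p := by nlinarith
  have hpe : 2 * e + 1 ≤ p := by nlinarith
  have hh2 : 0 ≤ h * h := mul_self_nonneg h
  have hb' : 2 * (h * h) + 1 ≤ e + 2 * h := by nlinarith
  have hlt : h < e := by nlinarith
  have hgt : -e < h := by nlinarith
  rcases hd with hd | hd | hd | hd
  · rcases dvd_bound hp0 hd with h1 | h1 | h1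
    · exfalso
      have : h = 1 - e := by linarith
      subst this
      nlinarith
    · omega
    · omega
  · rcases dvd_bound hp0 hd with h1 | h1 | h1 <;> omega
  · rcases dvd_bound hp0 hd with h1 | h1 | h1
    · left; omega
    · omega
    · omega
  · rcases dvd_bound hp0 hd with h1 | h1 | h1
    · omega
    · have hc2 : c = 2 := by
        by_contra hne
        have : 3 ≤ c := by omega
        nlinarith
      subst hc2
      right
      refine ⟨rfl, ?_⟩
      have h2 : p ∣ h + e + e - p := dvd_sub hd dvd_rfl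
      rcases dvd_bound hp0 h2 with h3 | h3 | h3 <;> omega
    · omega

theorem arith_two {p e r : ℤ} (he : 3 ≤ e) (hp : 2 * e + 1 ≤ p) (hr : 1 ≤ r) (hr2 : r * r ≤ e - 1)
    (hd : p ∣ r - 1 ∨ p ∣ r + 1 ∨ p ∣ r - e ∨ p ∣ r + e) : r = 1 := by
  have hp0 : 0 < p := by omega
  have hre : r < e := by nlinarith
  rcases hd with hd | hd | hd | hd
  · rcases dvd_bound hp0 hd with h1 | h1 | h1 <;> omega
  · rcases dvd_bound hp0 hd with h1 | h1 | h1 <;> omega
  · rcases dvd_bound hp0 hd with h1 | h1 | h1 <;> omega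
  · rcases dvd_bound hp0 hd with h1 | h1 | h1 <;> omega

theorem arith_three {p d e : ℤ} (he : 3 ≤ e) (hp : 2 * e + 1 ≤ p) (hpo : Odd p) (hdo : Odd d)
    (hd : p ∣ d - 1) (hd1 : 1 < d) : 3 * e + 2 ≤ d := by
  obtain ⟨t, ht⟩ := hd
  have hp0 : 0 < p := by omega
  have ht0 : 0 < t := by
    by_contra hle
    have : t ≤ 0 := by omega
    nlinarith
  have ht2 : 2 ≤ t := by
    by_contra hlt
    have : t = 1 := by omega
    subst this
    obtain ⟨a, ha⟩ := hpo
    obtain ⟨b, hb⟩ := hdo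
    omega
  nlinarith

theorem arith_four {p d e : ℤ} (he : 3 ≤ e) (hp : 2 * e + 1 ≤ p) (hpo : Odd p) (hdo : Odd d) (heo : Odd e)
    (hd : p ∣ d + e) (hd0 : 0 < d) : 3 * e + 2 ≤ d := by
  obtain ⟨t, ht⟩ := hd
  have hp0 : 0 < p := by omega
  have ht0 : 0 < t := by
    by_contra hle
    have : t ≤ 0 := by omega
    nlinarith
  have ht2 : 2 ≤ t := by
    by_contra hlt
    have : t = 1 := by omega
    subst this
    obtain ⟨a, ha⟩ := hpo
    obtain ⟨b, hb⟩ := hdo
    obtain ⟨c, hc⟩ := heo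
    omega
  nlinarith

theorem arith_five {p d e : ℤ} (he : 3 ≤ e) (hp : 2 * e + 1 ≤ p) (hdo : Odd d) (heo : Odd e)
    (hd : p ∣ d - (1 + e)) (hd0 : 0 < d) : 3 * e + 2 ≤ d := by
  have hp0 : 0 < p := by omega
  obtain ⟨b, hb⟩ := hdo
  obtain ⟨c, hc⟩ := heo
  rcases dvd_bound hp0 hd with h1 | h1 | h1 <;> omega

theorem arith_final {e m W : ℤ} (he : 3 ≤ e) (h1 : 2 * m ≤ e - 1) (h2 : e - 1 - m ≤ W)
    (h3 : (3 * e + 2) * W ≤ e * e - 1) : False := by
  have h4 : e - 1 ≤ 2 * W := by linarith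
  have h5 : (3 * e + 2) * (e - 1) ≤ (3 * e + 2) * (2 * W) :=
    mul_le_mul_of_nonneg_left h4 (by omega)
  nlinarith

end Cfsg.Agent.Lib.RankOneOdd.Sunflower
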