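import Mathlib
import Cfsg.Agent.Lib.Char.Linear
import Cfsg.Agent.Lib.Char.Complete

/-!
# Weights of characters on an abelian subgroup

For a homomorphism `ι : A →* T` from a finite abelian group, the multiplicities of the linear
characters of `A` in the restrictions of the irreducible characters of `T`.
-/

set_option autoImplicit false

namespace Cfsg.Agent.Lib.RankOneOdd.Weights

open Cfsg Module
open Cfsg.Agent.Lib.Char.Basic Cfsg.Agent.Lib.Char.Ortho Cfsg.Agent.Lib.Char.Complete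
open Cfsg.Agent.Lib.Char.Linear
open scoped ComplexConjugate

universe u v

variable {T : Type u} [Group T] [Fintype T] {A : Type v} [CommGroup A] [Fintype A]

/-- A linear character as a function. -/
def nuF (ν : A →* ℂˣ) : A → ℂ := fun a => (ν a : ℂ)

omit [Fintype A] in
theorem nuF_irr (ν : A →* ℂˣ) : IsIrrCharacter A (nuF ν) := isIrrCharacter_of_hom ν

omit [Fintype A] in
theorem nuF_injective : Function.Injective (nuF (A := A)) := by
  intro ν ν' h
  ext a
  exact congrFun h a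

omit [Fintype A] in
@[simp] theorem nuF_apply (ν : A →* ℂˣ) (a : A) : nuF ν a = (ν a : ℂ) := rfl

omit [Fintype A] in
theorem nuF_mul (ν ν' : A →* ℂˣ) (a : A) : nuF (ν * ν') a = nuF ν a * nuF ν' a := by
  simp [nuF]

omit [Fintype A] in
theorem nuF_one (a : A) : nuF (1 : A →* ℂˣ) a = 1 := by
  simp [nuF]

theorem nuF_conj (ν : A →* ℂˣ) (a : A) : conj (nuF ν a) = nuF ν⁻¹ a := by
  have h := char_inv_eq_conj (isCharacter_of_isIrrCharacter (nuF_irr ν)) a
  rw [← h]
  simp [nuF]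

theorem inner_nuF (ν ν' : A →* ℂˣ) [Decidable (ν = ν')] :
    classInner (nuF ν) (nuF ν') = if ν = ν' then 1 else 0 := by
  classical
  rw [classInner_irr (nuF_irr ν) (nuF_irr ν')]
  by_cases h : ν = ν'
  · simp [h]
  · rw [if_neg h, if_neg (fun h' => h (nuF_injective h'))]

section Dual

variable [Fintype (A →* ℂˣ)]

theorem card_dual : Fintype.card (A →* ℂˣ) = Fintype.card A := by
  have := CommGroup.card_monoidHom_of_hasEnoughRootsOfUnity A ℂ
  rw [Nat.card_eq_fintype_card, Nat.card_eq_fintype_card] at this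
  exact this

open Classical in
theorem sum_dual (x : A) : ∑ ν : A →* ℂˣ, nuF ν x = if x = 1 then (Fintype.card A : ℂ) else 0 := by
  by_cases hx : x = 1
  · rw [if_pos hx, hx]
    simp only [nuF, map_one, Units.val_one, Finset.sum_const, Finset.card_univ, card_dual,
      nsmul_eq_mul, mul_one]
  · rw [if_neg hx]
    obtain ⟨ν₀, hν₀⟩ := CommGroup.exists_apply_ne_one_of_hasEnoughRootsOfUnity A ℂ hx
    have h1 : ∑ ν : A →* ℂˣ, nuF ν x = ∑ ν : A →* ℂˣ, nuF (ν₀ * ν) x :=
      (Equiv.sum_comp (Equiv.mulLeft ν₀) (fun ν => nuF ν x)).symm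
    have h2 : ∑ ν : A →* ℂˣ, nuF (ν₀ * ν) x = nuF ν₀ x * ∑ ν : A →* ℂˣ, nuF ν x := by
      rw [Finset.mul_sum]
      exact Finset.sum_congr rfl fun ν _ => nuF_mul _ _ _
    have h3 : (nuF ν₀ x) ≠ 1 := by
      intro h
      apply hν₀
      exact Units.ext h
    have h4 : (1 - nuF ν₀ x) * ∑ ν : A →* ℂˣ, nuF ν x = 0 := by
      rw [sub_mul, one_mul, ← h2, ← h1, sub_self]
    rcases mul_eq_zero.mp h4 with h5 | h5
    · exact absurd (sub_eq_zero.mp h5).symm h3
    · exact h5

theorem fun_eq_sum_dual (f : A → ℂ) (a : A) :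
    f a = ∑ ν : A →* ℂˣ, classInner f (nuF ν) * nuF ν a := by
  classical
  have hA : (Nat.card A : ℂ) ≠ 0 := Nat.cast_ne_zero.mpr Nat.card_pos.ne'
  have h1 : ∀ ν : A →* ℂˣ, classInner f (nuF ν) * nuF ν a =
      (Nat.card A : ℂ)⁻¹ * ∑ b : A, f b * nuF ν (a * b⁻¹) := by
    intro ν
    rw [classInner_def, mul_assoc, Finset.sum_mul]
    congr 1
    refine Finset.sum_congr rfl fun b _ => ?_
    rw [nuF_conj, mul_assoc]
    congr 1
    simp only [nuF, map_mul, map_inv, MonoidHom.inv_apply, Units.val_mul, Units.val_inv_eq_inv_val]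
    ring
  simp_rw [h1]
  rw [← Finset.mul_sum, Finset.sum_comm]
  have h2 : ∀ b : A, ∑ ν : A →* ℂˣ, f b * nuF ν (a * b⁻¹) =
      if b = a then f a * (Fintype.card A : ℂ) else 0 := by
    intro b
    rw [← Finset.mul_sum, sum_dual]
    by_cases hb : b = a
    · subst hb
      simp
    · have : a * b⁻¹ ≠ 1 := fun h => hb (mul_inv_eq_one.mp h).symm
      rw [if_neg this, if_neg hb, mul_zero]
  simp_rw [h2]
  rw [Finset.sum_ite_eq' Finset.univ a, if_pos (Finset.mem_univ _), Nat.card_eq_fintype_card]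
  rw [Nat.card_eq_fintype_card] at hA
  field_simp

end Dual

variable (ι : A →* T)

omit [Fintype T] in
/-- The multiplicity of `ν` in the restriction of a character. -/
theorem exists_mult {χ : T → ℂ} (hχ : IsCharacter T χ) (ν : A →* ℂˣ) :
    ∃ n : ℕ, classInner (fun a => χ (ι a)) (nuF ν) = n :=
  exists_nat_classInner (isCharacter_comp ι hχ) (isCharacter_of_isIrrCharacter (nuF_irr ν))

/-- The multiplicity of `ν` in the restriction of an irreducible character. -/
noncomputable def mn (ψ : IrrCharacter T) (ν : A →* ℂˣ) : ℕ :=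
  Classical.choose (exists_mult ι (isCharacter_of_isIrrCharacter ψ.2) ν)

theorem mn_spec (ψ : IrrCharacter T) (ν : A →* ℂˣ) :
    classInner (fun a => (ψ : T → ℂ) (ι a)) (nuF ν) = (mn ι ψ ν : ℂ) :=
  Classical.choose_spec (exists_mult ι (isCharacter_of_isIrrCharacter ψ.2) ν)

/-- Integer version. -/
noncomputable def mm (ψ : IrrCharacter T) (ν : A →* ℂˣ) : ℤ := (mn ι ψ ν : ℤ)

theorem mm_nonneg (ψ : IrrCharacter T) (ν : A →* ℂˣ) : 0 ≤ mm ι ψ ν := Int.natCast_nonneg _

theorem mm_spec (ψ : IrrCharacter T) (ν : A →* ℂˣ) :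
    classInner (fun a => (ψ : T → ℂ) (ι a)) (nuF ν) = (mm ι ψ ν : ℂ) := by
  rw [mn_spec, mm]
  simp

theorem mm_conj_spec (ψ : IrrCharacter T) (ν : A →* ℂˣ) :
    (Nat.card A : ℂ)⁻¹ * ∑ a : A, conj ((ψ : T → ℂ) (ι a)) * nuF ν a = (mm ι ψ ν : ℂ) := by
  have h := congrArg conj (mm_spec ι ψ ν)
  rw [classInner_def, map_mul, map_sum] at h
  simp only [map_mul, Complex.conj_conj, map_inv₀, Complex.conj_natCast, map_intCast] at h
  exact h

section Expansion

variable [Fintype (A →* ℂˣ)]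

theorem val_eq_sum (ψ : IrrCharacter T) (a : A) :
    (ψ : T → ℂ) (ι a) = ∑ ν : A →* ℂˣ, (mm ι ψ ν : ℂ) * nuF ν a := by
  have h := fun_eq_sum_dual (fun a => (ψ : T → ℂ) (ι a)) a
  simp_rw [mm_spec] at h
  exact h

theorem deg_eq_sum (ψ : IrrCharacter T) :
    (ψ : T → ℂ) 1 = ∑ ν : A →* ℂˣ, (mm ι ψ ν : ℂ) := by
  have h := val_eq_sum ι ψ 1
  rw [map_one] at h
  rw [h]
  refine Finset.sum_congr rfl fun ν _ => ?_
  simp [nuF]

end Expansion

end Cfsg.Agent.Lib.RankOneOdd.Weights
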