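import Mathlib
import Cfsg.Agent.Lib.RankOneOdd.Weights

/-!
# The master identity for a trivial intersection frame
-/

set_option autoImplicit false

namespace Cfsg.Agent.Lib.RankOneOdd.Master

open Cfsg Module
open Cfsg.Agent.Lib.Char.Basic Cfsg.Agent.Lib.Char.Ortho Cfsg.Agent.Lib.Char.Complete
open Cfsg.Agent.Lib.Char.Linear Cfsg.Agent.Lib.RankOneOdd.Weights
open scoped ComplexConjugate

universe u v

variable {T : Type u} [Group T] [Fintype T] {A : Type v} [CommGroup A] [Fintype A]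

/-- A frame: `A` embeds in `T`, the elements of order divisible by `p` have centralizer `A`, their
fusion is controlled by the group `Γ` of automorphisms of `A`, which acts freely on them. -/
structure TIFrame (ι : A →* T) (Γ : Subgroup (MulAut A)) (p : ℕ) : Prop where
  inj : Function.Injective ι
  cent : ∀ a, p ∣ orderOf a → Nat.card (Subgroup.centralizer ({ι a} : Set T)) = Nat.card A
  fus : ∀ a b, p ∣ orderOf a → (IsConj (ι a) (ι b) ↔ ∃ γ ∈ Γ, γ a = b)
  free : ∀ γ ∈ Γ, ∀ a, p ∣ orderOf a → γ a = a → γ = 1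
  fusAll : ∀ γ ∈ Γ, ∀ a, IsConj (ι a) (ι (γ a))

/-- The twist of a linear character by an automorphism. -/
def tw (ν : A →* ℂˣ) (γ : MulAut A) : A →* ℂˣ := ν.comp γ.toMonoidHom

omit [Fintype A] in
@[simp] theorem tw_apply (ν : A →* ℂˣ) (γ : MulAut A) (a : A) : tw ν γ a = ν (γ a) := rfl

open Classical in
/-- The number of elements of `Γ` carrying `ν` to `ν'`. -/
noncomputable def AA (Γ : Subgroup (MulAut A)) [Fintype Γ] (ν ν' : A →* ℂˣ) : ℤ :=
  ∑ γ : Γ, if tw ν (γ : MulAut A) = ν' then 1 else 0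

variable {ι : A →* T} {Γ : Subgroup (MulAut A)} {p : ℕ}

theorem orderOf_iota (hF : TIFrame ι Γ p) (a : A) : orderOf (ι a) = orderOf a :=
  orderOf_injective ι hF.inj a

open Classical in
/-- The sum over a `T`-class in `A` of a function. -/
theorem sum_conj_eq [Fintype Γ] (hF : TIFrame ι Γ p) {b : A} (hb : p ∣ orderOf b) (f : A → ℂ) :
    (∑ a : A, if IsConj (ι b) (ι a) then f a else 0) = ∑ γ : Γ, f ((γ : MulAut A) b) := by
  classical
  have h1 : (∑ a : A, if IsConj (ι b) (ι a) then f a else 0) =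
      ∑ a ∈ Finset.univ.filter (fun a => IsConj (ι b) (ι a)), f a := by
    rw [Finset.sum_filter]
  rw [h1]
  symm
  refine Finset.sum_bij (fun (γ : Γ) _ => (γ : MulAut A) b) ?_ ?_ ?_ ?_
  · intro γ _
    simp only [Finset.mem_filter, Finset.mem_univ, true_and]
    exact (hF.fus b _ hb).2 ⟨γ, γ.2, rfl⟩
  · intro γ _ γ' _ h
    have h2 : ((γ' : MulAut A)⁻¹ * (γ : MulAut A)) b = b := by
      change (γ' : MulAut A)⁻¹ ((γ : MulAut A) b) = b
      rw [h]
      exact MulAut.inv_apply_self _ _ _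
    have h3 := hF.free _ (mul_mem (inv_mem γ'.2) γ.2) b hb h2
    have h4 : (γ : MulAut A) = γ' := by
      rw [inv_mul_eq_one] at h3
      exact h3.symm
    exact Subtype.ext h4
  · intro a ha
    simp only [Finset.mem_filter, Finset.mem_univ, true_and] at ha
    obtain ⟨γ, hγ, rfl⟩ := (hF.fus b a hb).1 ha
    exact ⟨⟨γ, hγ⟩, Finset.mem_univ _, rfl⟩
  · intro γ _
    rfl

/-- **The master identity.** -/
theorem master [Fintype (IrrCharacter T)] [Fintype Γ] (hF : TIFrame ι Γ p) (ν ν₃ ν₄ : A →* ℂˣ)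
    (h34 : ∀ b, ¬ p ∣ orderOf b → ν₃ b = ν₄ b) :
    ∑ ψ : IrrCharacter T, mm ι ψ ν * (mm ι ψ ν₃ - mm ι ψ ν₄) = AA Γ ν ν₃ - AA Γ ν ν₄ := by
  classical
  have hA : (Nat.card A : ℂ) ≠ 0 := Nat.cast_ne_zero.mpr Nat.card_pos.ne'
  -- work in ℂ
  have key : ((∑ ψ : IrrCharacter T, mm ι ψ ν * (mm ι ψ ν₃ - mm ι ψ ν₄) : ℤ) : ℂ) =
      ((AA Γ ν ν₃ - AA Γ ν ν₄ : ℤ) : ℂ) := by
    set f' : A → ℂ := fun b => nuF ν₃ b - nuF ν₄ b with hf'
    have hf0 : ∀ b, ¬ p ∣ orderOf b → f' b = 0 := by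
      intro b hb
      simp only [hf', nuF, h34 b hb, sub_self]
    have h1 : ∀ ψ : IrrCharacter T, ((mm ι ψ ν₃ - mm ι ψ ν₄ : ℤ) : ℂ) =
        (Nat.card A : ℂ)⁻¹ * ∑ b : A, (ψ : T → ℂ) (ι b) * conj (f' b) := by
      intro ψ
      push_cast
      rw [← mm_spec, ← mm_spec, classInner_def, classInner_def, ← mul_sub, ← Finset.sum_sub_distrib]
      congr 1
      refine Finset.sum_congr rfl fun b _ => ?_
      simp only [hf', map_sub]
      ring
    have h2 : ∀ ψ : IrrCharacter T, ((mm ι ψ ν : ℤ) : ℂ) =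
        (Nat.card A : ℂ)⁻¹ * ∑ a : A, conj ((ψ : T → ℂ) (ι a)) * nuF ν a :=
      fun ψ => (mm_conj_spec ι ψ ν).symm
    have h3 : ∀ b : A, ∑ ψ : IrrCharacter T, ∑ a : A,
        (conj ((ψ : T → ℂ) (ι a)) * nuF ν a) * ((ψ : T → ℂ) (ι b) * conj (f' b)) =
        conj (f' b) * (Nat.card A : ℂ) * ∑ γ : Γ, nuF ν ((γ : MulAut A) b) := by
      intro b
      by_cases hb : p ∣ orderOf b
      · rw [Finset.sum_comm]
        have h4 : ∀ a : A, ∑ ψ : IrrCharacter T,
            (conj ((ψ : T → ℂ) (ι a)) * nuF ν a) * ((ψ : T → ℂ) (ι b) * conj (f' b)) =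
            conj (f' b) * (Nat.card A : ℂ) *
              (if IsConj (ι b) (ι a) then nuF ν a else 0) := by
          intro a
          have h5 := sum_irr_mul_conj (G := T) (ι b) (ι a)
          have h6 : ∑ ψ : IrrCharacter T,
              (conj ((ψ : T → ℂ) (ι a)) * nuF ν a) * ((ψ : T → ℂ) (ι b) * conj (f' b)) =
              nuF ν a * conj (f' b) * ∑ ψ : IrrCharacter T,
                (ψ : T → ℂ) (ι b) * conj ((ψ : T → ℂ) (ι a)) := by
            rw [Finset.mul_sum]
            refine Finset.sum_congr rfl fun ψ _ => ?_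
            ring
          rw [h6, h5]
          by_cases hc : IsConj (ι b) (ι a)
          · rw [if_pos hc, if_pos hc]
            have hoa : p ∣ orderOf a := by
              obtain ⟨c, hc'⟩ := isConj_iff.mp hc
              have e1 : orderOf (ι a) = orderOf (ι b) := by
                rw [← hc']
                exact orderOf_injective (MulAut.conj c).toMonoidHom (MulAut.conj c).injective (ι b)
              rw [← orderOf_iota hF a, e1, orderOf_iota hF b]
              exact hb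
            rw [hF.cent a hoa]
            ring
          · rw [if_neg hc, if_neg hc]
            ring
        rw [Finset.sum_congr rfl fun a _ => h4 a, ← Finset.mul_sum, sum_conj_eq hF hb]
      · simp only [hf0 b hb, map_zero, mul_zero, zero_mul, Finset.sum_const_zero]
    -- assemble
    have h7 : ((∑ ψ : IrrCharacter T, mm ι ψ ν * (mm ι ψ ν₃ - mm ι ψ ν₄) : ℤ) : ℂ) =
        (Nat.card A : ℂ)⁻¹ * (Nat.card A : ℂ)⁻¹ * ∑ b : A, ∑ ψ : IrrCharacter T, ∑ a : A,
          (conj ((ψ : T → ℂ) (ι a)) * nuF ν a) * ((ψ : T → ℂ) (ι b) * conj (f' b)) := by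
      rw [Int.cast_sum, Finset.sum_comm, Finset.mul_sum]
      refine Finset.sum_congr rfl fun ψ _ => ?_
      rw [Int.cast_mul, h1, h2, mul_mul_mul_comm, Finset.sum_mul_sum, Finset.sum_comm]
    rw [h7, Finset.sum_congr rfl fun b _ => h3 b]
    -- the sum over γ
    have h8 : ∀ γ : Γ, (Nat.card A : ℂ)⁻¹ * ∑ b : A, conj (f' b) * nuF ν ((γ : MulAut A) b) =
        (if tw ν (γ : MulAut A) = ν₃ then 1 else 0) - (if tw ν (γ : MulAut A) = ν₄ then 1 else 0) := by
      intro γ
      have h9 := inner_nuF (tw ν (γ : MulAut A)) ν₃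
      have h10 := inner_nuF (tw ν (γ : MulAut A)) ν₄
      rw [← h9, ← h10, classInner_def, classInner_def, ← mul_sub, ← Finset.sum_sub_distrib]
      congr 1
      refine Finset.sum_congr rfl fun b _ => ?_
      simp only [hf', map_sub, nuF, tw_apply]
      ring
    have h11 : ∑ b : A, conj (f' b) * (Nat.card A : ℂ) * ∑ γ : Γ, nuF ν ((γ : MulAut A) b) =
        (Nat.card A : ℂ) * ∑ γ : Γ, ∑ b : A, conj (f' b) * nuF ν ((γ : MulAut A) b) := by
      calc ∑ b : A, conj (f' b) * (Nat.card A : ℂ) * ∑ γ : Γ, nuF ν ((γ : MulAut A) b)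
          = ∑ b : A, ∑ γ : Γ, (Nat.card A : ℂ) * (conj (f' b) * nuF ν ((γ : MulAut A) b)) := by
            refine Finset.sum_congr rfl fun b _ => ?_
            rw [Finset.mul_sum]
            refine Finset.sum_congr rfl fun γ _ => ?_
            ring
        _ = ∑ γ : Γ, ∑ b : A, (Nat.card A : ℂ) * (conj (f' b) * nuF ν ((γ : MulAut A) b)) :=
            Finset.sum_comm
        _ = _ := by
            rw [Finset.mul_sum]
            refine Finset.sum_congr rfl fun γ _ => ?_
            rw [Finset.mul_sum]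
    rw [h11]
    have h12 : (Nat.card A : ℂ)⁻¹ * (Nat.card A : ℂ)⁻¹ *
        ((Nat.card A : ℂ) * ∑ γ : Γ, ∑ b : A, conj (f' b) * nuF ν ((γ : MulAut A) b)) =
        ∑ γ : Γ, (Nat.card A : ℂ)⁻¹ * ∑ b : A, conj (f' b) * nuF ν ((γ : MulAut A) b) := by
      rw [← Finset.mul_sum]
      field_simp
    rw [h12, Finset.sum_congr rfl fun γ _ => h8 γ, AA, AA]
    push_cast
    rw [Finset.sum_sub_distrib]
  exact_mod_cast key

end Cfsg.Agent.Lib.RankOneOdd.Master
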