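import Mathlib
import Cfsg.Agent.Lib.RankOneOdd.Master

/-!
# Families of linear characters in a trivial intersection frame
-/

set_option autoImplicit false

namespace Cfsg.Agent.Lib.RankOneOdd.Family

open Cfsg Module
open Cfsg.Agent.Lib.Char.Basic Cfsg.Agent.Lib.Char.Ortho Cfsg.Agent.Lib.Char.Complete
open Cfsg.Agent.Lib.Char.Linear Cfsg.Agent.Lib.RankOneOdd.Weights Cfsg.Agent.Lib.RankOneOdd.Master
open scoped ComplexConjugate

universe u v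

variable {T : Type u} [Group T] [Fintype T] {A : Type v} [CommGroup A] [Fintype A]
variable {ι : A →* T} {Γ : Subgroup (MulAut A)} {p : ℕ}

/-- The subgroups of `p`-elements and of `p`-regular elements. -/
structure PB (p : ℕ) (Pa Ba : Subgroup A) : Prop where
  prime : p.Prime
  memP : ∀ a, a ∈ Pa ↔ ∃ k : ℕ, orderOf a = p ^ k
  memB : ∀ a, a ∈ Ba ↔ ¬ p ∣ orderOf a

/-- Nontrivial on the `p`-part. -/
def NT (Pa : Subgroup A) (ν : A →* ℂˣ) : Prop := ∃ u ∈ Pa, ν u ≠ 1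

/-- Same restriction to the `p`-regular part. -/
def SF (Ba : Subgroup A) (ν ν' : A →* ℂˣ) : Prop := ∀ b ∈ Ba, ν b = ν' b

/-- Twisted by an element of `Γ`. -/
def Cj (Γ : Subgroup (MulAut A)) (ν ν' : A →* ℂˣ) : Prop := ∃ γ ∈ Γ, tw ν γ = ν'

omit [Fintype A] in
theorem tw_mul (ν : A →* ℂˣ) (γ γ' : MulAut A) : tw (tw ν γ) γ' = tw ν (γ * γ') := by
  ext a
  rfl

omit [Fintype A] in
theorem tw_one (ν : A →* ℂˣ) : tw ν 1 = ν := by
  ext a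
  rfl

omit [Fintype A] in
theorem Cj.refl (ν : A →* ℂˣ) : Cj Γ ν ν := ⟨1, one_mem _, tw_one ν⟩

omit [Fintype A] in
theorem Cj.symm {ν ν' : A →* ℂˣ} (h : Cj Γ ν ν') : Cj Γ ν' ν := by
  obtain ⟨γ, hγ, rfl⟩ := h
  refine ⟨γ⁻¹, inv_mem hγ, ?_⟩
  rw [tw_mul, mul_inv_cancel, tw_one]

omit [Fintype A] in
theorem Cj.trans {ν ν' ν'' : A →* ℂˣ} (h : Cj Γ ν ν') (h' : Cj Γ ν' ν'') : Cj Γ ν ν'' := by
  obtain ⟨γ, hγ, rfl⟩ := h
  obtain ⟨γ', hγ', rfl⟩ := h'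
  exact ⟨γ * γ', mul_mem hγ hγ', tw_mul _ _ _⟩

omit [Fintype A] in
theorem orderOf_aut (γ : MulAut A) (a : A) : orderOf (γ a) = orderOf a :=
  orderOf_injective γ.toMonoidHom γ.injective a

variable {Pa Ba : Subgroup A}

omit [Fintype A] in
theorem aut_memP (h : PB p Pa Ba) (γ : MulAut A) {a : A} (ha : a ∈ Pa) : γ a ∈ Pa := by
  rw [h.memP] at ha ⊢
  rwa [orderOf_aut]

omit [Fintype A] in
theorem aut_memB (h : PB p Pa Ba) (γ : MulAut A) {a : A} (ha : a ∈ Ba) : γ a ∈ Ba := by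
  rw [h.memB] at ha ⊢
  rwa [orderOf_aut]

omit [Fintype A] in
theorem NT_tw (h : PB p Pa Ba) {ν : A →* ℂˣ} (hν : NT Pa ν) (γ : MulAut A) : NT Pa (tw ν γ) := by
  obtain ⟨u, hu, hνu⟩ := hν
  refine ⟨γ⁻¹ u, aut_memP h _ hu, ?_⟩
  rw [tw_apply, MulAut.apply_inv_self]
  exact hνu

omit [Fintype A] in
theorem SF_tw (h : PB p Pa Ba) {ν ν' : A →* ℂˣ} (hν : SF Ba ν ν') (γ : MulAut A) :
    SF Ba (tw ν γ) (tw ν' γ) := fun b hb => hν _ (aut_memB h γ hb)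

/-- `Γ` is free on the characters nontrivial on the `p`-part. -/
theorem tw_free' (hF : TIFrame ι Γ p) (h : PB p Pa Ba) {γ : MulAut A} (hγ : γ ∈ Γ) {ν : A →* ℂˣ}
    (hν : NT Pa ν) (ht : ∀ u ∈ Pa, tw ν γ u = ν u) : γ = 1 := by
  by_contra hne
  obtain ⟨u, hu, hνu⟩ := hν
  have hp := h.prime
  -- `x ↦ γ x * x⁻¹` is injective on `Pa`
  let φ : Pa → Pa := fun x => ⟨γ x * (x : A)⁻¹, mul_mem (aut_memP h γ x.2) (inv_mem x.2)⟩
  have hφ : Function.Injective φ := by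
    intro x y hxy
    have h1 : γ x * (x : A)⁻¹ = γ y * (y : A)⁻¹ := congrArg Subtype.val hxy
    have h2 : γ ((x : A) * (y : A)⁻¹) = (x : A) * (y : A)⁻¹ := by
      rw [map_mul, map_inv]
      rw [mul_inv_eq_iff_eq_mul] at h1
      rw [h1]
      simp only [mul_assoc, mul_comm, mul_left_comm, inv_mul_cancel_left, mul_inv_cancel_left,
        mul_inv_cancel, mul_one]
    have hz : (x : A) * (y : A)⁻¹ ∈ Pa := mul_mem x.2 (inv_mem y.2)
    by_contra hxy'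
    have hne' : (x : A) * (y : A)⁻¹ ≠ 1 := by
      intro h3
      exact hxy' (Subtype.ext (mul_inv_eq_one.mp h3))
    obtain ⟨k, hk⟩ := (h.memP _).1 hz
    have hk0 : k ≠ 0 := by
      rintro rfl
      rw [pow_zero, orderOf_eq_one_iff] at hk
      exact hne' hk
    have hdvd : p ∣ orderOf ((x : A) * (y : A)⁻¹) := by
      rw [hk]
      exact dvd_pow_self p hk0
    exact hne (hF.free γ hγ _ hdvd h2)
  have hsurj : Function.Surjective φ := Finite.injective_iff_surjective.mp hφ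
  obtain ⟨v, hv⟩ := hsurj ⟨u, hu⟩
  have h1 : u = γ v * (v : A)⁻¹ := (congrArg Subtype.val hv).symm
  apply hνu
  rw [h1, map_mul, map_inv]
  have h2 : ν (γ v) = ν v := ht v v.2
  rw [h2, mul_inv_cancel]

theorem tw_free (hF : TIFrame ι Γ p) (h : PB p Pa Ba) {γ : MulAut A} (hγ : γ ∈ Γ) {ν : A →* ℂˣ}
    (hν : NT Pa ν) (ht : tw ν γ = ν) : γ = 1 :=
  tw_free' hF h hγ hν (fun u _ => by rw [ht])

section AA

variable [Fintype Γ]

open Classical in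
theorem AA_eq (hF : TIFrame ι Γ p) (h : PB p Pa Ba) {ν : A →* ℂˣ} (hν : NT Pa ν) (ν' : A →* ℂˣ) :
    AA Γ ν ν' = if Cj Γ ν ν' then 1 else 0 := by
  by_cases hc : Cj Γ ν ν'
  · rw [if_pos hc]
    obtain ⟨γ, hγ, hγν⟩ := hc
    rw [AA, Finset.sum_eq_single (⟨γ, hγ⟩ : Γ)]
    · rw [if_pos hγν]
    · intro γ' _ hne
      rw [if_neg]
      intro h2
      apply hne
      have h3 : tw ν ((γ' : MulAut A) * γ⁻¹) = ν := by
        rw [← tw_mul, h2, ← hγν, tw_mul, mul_inv_cancel, tw_one]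
      have h4 := tw_free hF h (mul_mem γ'.2 (inv_mem hγ)) hν h3
      rw [mul_inv_eq_one] at h4
      exact Subtype.ext h4
    · intro h5
      exact absurd (Finset.mem_univ _) h5
  · rw [if_neg hc, AA]
    refine Finset.sum_eq_zero fun γ _ => ?_
    rw [if_neg]
    intro h2
    exact hc ⟨γ, γ.2, h2⟩

omit [Fintype T] in
theorem tw_one_left (γ : MulAut A) : tw (1 : A →* ℂˣ) γ = 1 := by
  ext a
  rfl

theorem AA_one_one : AA Γ (1 : A →* ℂˣ) 1 = Fintype.card Γ := by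
  classical
  rw [AA]
  simp [tw_one_left]

theorem AA_one_ne {ν' : A →* ℂˣ} (h : ν' ≠ 1) : AA Γ (1 : A →* ℂˣ) ν' = 0 := by
  classical
  rw [AA]
  refine Finset.sum_eq_zero fun γ _ => ?_
  rw [if_neg]
  intro h2
  rw [tw_one_left] at h2
  exact h h2.symm

end AA

section Master

variable [Fintype (IrrCharacter T)] [Fintype Γ]

theorem sum_mm_sq_of_not_cj (hF : TIFrame ι Γ p) (h : PB p Pa Ba) {ν ν' : A →* ℂˣ} (hs : SF Ba ν ν')
    (hν : NT Pa ν) (hν' : NT Pa ν') (hc : ¬ Cj Γ ν ν') :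
    ∑ ψ : IrrCharacter T, (mm ι ψ ν - mm ι ψ ν') * (mm ι ψ ν - mm ι ψ ν') = 2 := by
  classical
  have h34 : ∀ b, ¬ p ∣ orderOf b → ν b = ν' b := fun b hb => hs b ((h.memB b).2 hb)
  have h1 := master hF ν ν ν' h34
  have h2 := master hF ν' ν ν' h34
  rw [AA_eq hF h hν, AA_eq hF h hν, if_pos (Cj.refl ν), if_neg hc] at h1
  rw [AA_eq hF h hν', AA_eq hF h hν', if_pos (Cj.refl ν'), if_neg (fun h' => hc h'.symm)] at h2
  have h3 : ∑ ψ : IrrCharacter T, (mm ι ψ ν - mm ι ψ ν') * (mm ι ψ ν - mm ι ψ ν') =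
      ∑ ψ : IrrCharacter T, mm ι ψ ν * (mm ι ψ ν - mm ι ψ ν') -
        ∑ ψ : IrrCharacter T, mm ι ψ ν' * (mm ι ψ ν - mm ι ψ ν') := by
    rw [← Finset.sum_sub_distrib]
    exact Finset.sum_congr rfl fun ψ _ => by ring
  rw [h3, h1, h2]
  norm_num

theorem sum_mm_sq_one (hF : TIFrame ι Γ p) (h : PB p Pa Ba) {ν : A →* ℂˣ} (hs : SF Ba 1 ν)
    (hν : NT Pa ν) :
    ∑ ψ : IrrCharacter T, (mm ι ψ 1 - mm ι ψ ν) * (mm ι ψ 1 - mm ι ψ ν) = 1 + Fintype.card Γ := by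
  classical
  have h34 : ∀ b, ¬ p ∣ orderOf b → (1 : A →* ℂˣ) b = ν b := fun b hb => hs b ((h.memB b).2 hb)
  have hne : ν ≠ 1 := by
    rintro rfl
    obtain ⟨u, _, hu⟩ := hν
    exact hu rfl
  have hnc : ¬ Cj Γ ν 1 := by
    rintro ⟨γ, _, hγ⟩
    obtain ⟨u, _, hu⟩ := hν
    apply hu
    have := congrArg (fun μ : A →* ℂˣ => μ (γ⁻¹ u)) hγ
    simpa using this
  have h1 := master hF 1 1 ν h34
  have h2 := master hF ν 1 ν h34
  rw [AA_one_one, AA_one_ne hne] at h1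
  rw [AA_eq hF h hν, AA_eq hF h hν, if_pos (Cj.refl ν), if_neg hnc] at h2
  have h3 : ∑ ψ : IrrCharacter T, (mm ι ψ 1 - mm ι ψ ν) * (mm ι ψ 1 - mm ι ψ ν) =
      ∑ ψ : IrrCharacter T, mm ι ψ 1 * (mm ι ψ 1 - mm ι ψ ν) -
        ∑ ψ : IrrCharacter T, mm ι ψ ν * (mm ι ψ 1 - mm ι ψ ν) := by
    rw [← Finset.sum_sub_distrib]
    exact Finset.sum_congr rfl fun ψ _ => by ring
  rw [h3, h1, h2]
  ring

/-- The cross term. -/
theorem sum_mm_cross (hF : TIFrame ι Γ p) (h : PB p Pa Ba) {ν₁ ν₁' ν₂ ν₂' : A →* ℂˣ}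
    (hs : SF Ba ν₂ ν₂') (h1 : NT Pa ν₁) (h1' : NT Pa ν₁')
    (c1 : ¬ Cj Γ ν₁ ν₂) (c2 : ¬ Cj Γ ν₁ ν₂') (c3 : ¬ Cj Γ ν₁' ν₂) (c4 : ¬ Cj Γ ν₁' ν₂') :
    ∑ ψ : IrrCharacter T, (mm ι ψ ν₁ - mm ι ψ ν₁') * (mm ι ψ ν₂ - mm ι ψ ν₂') = 0 := by
  classical
  have h34 : ∀ b, ¬ p ∣ orderOf b → ν₂ b = ν₂' b := fun b hb => hs b ((h.memB b).2 hb)
  have e1 := master hF ν₁ ν₂ ν₂' h34
  have e2 := master hF ν₁' ν₂ ν₂' h34
  rw [AA_eq hF h h1, AA_eq hF h h1, if_neg c1, if_neg c2] at e1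
  rw [AA_eq hF h h1', AA_eq hF h h1', if_neg c3, if_neg c4] at e2
  have h3 : ∑ ψ : IrrCharacter T, (mm ι ψ ν₁ - mm ι ψ ν₁') * (mm ι ψ ν₂ - mm ι ψ ν₂') =
      ∑ ψ : IrrCharacter T, mm ι ψ ν₁ * (mm ι ψ ν₂ - mm ι ψ ν₂') -
        ∑ ψ : IrrCharacter T, mm ι ψ ν₁' * (mm ι ψ ν₂ - mm ι ψ ν₂') := by
    rw [← Finset.sum_sub_distrib]
    exact Finset.sum_congr rfl fun ψ _ => by ring
  rw [h3, e1, e2]
  norm_num

end Master

/-- Invariance of multiplicities under `Γ`. -/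
theorem mm_tw (hF : TIFrame ι Γ p) (ψ : IrrCharacter T) (ν : A →* ℂˣ) {γ : MulAut A} (hγ : γ ∈ Γ) :
    mm ι ψ (tw ν γ) = mm ι ψ ν := by
  have h1 : ((mm ι ψ (tw ν γ) : ℤ) : ℂ) = (mm ι ψ ν : ℂ) := by
    rw [← mm_spec, ← mm_spec, classInner_def, classInner_def]
    congr 1
    have hc : ∀ a, (ψ : T → ℂ) (ι a) = (ψ : T → ℂ) (ι (γ a)) := fun a =>
      isClassFunction_iff_isConj.mp (isClassFunction_of_isIrrCharacter ψ.2) _ _ (hF.fusAll γ hγ a)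
    have h2 : ∑ a : A, (ψ : T → ℂ) (ι a) * conj (nuF (tw ν γ) a) =
        ∑ a : A, (ψ : T → ℂ) (ι (γ a)) * conj (nuF ν (γ a)) :=
      Finset.sum_congr rfl fun a _ => by rw [← hc a]; rfl
    rw [h2]
    exact Equiv.sum_comp γ.toEquiv (fun a => (ψ : T → ℂ) (ι a) * conj (nuF ν a))
  exact_mod_cast h1

/-- The weighted degree sum does not depend on `ν`. -/
theorem sum_mm_deg [Fintype (IrrCharacter T)] (hF : TIFrame ι Γ p) (ν : A →* ℂˣ) :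
    ∑ ψ : IrrCharacter T, (mm ι ψ ν : ℂ) * (ψ : T → ℂ) 1 = (Nat.card T : ℂ) / (Nat.card A : ℂ) := by
  classical
  have hA : (Nat.card A : ℂ) ≠ 0 := Nat.cast_ne_zero.mpr Nat.card_pos.ne'
  have h1 : ∀ ψ : IrrCharacter T, (mm ι ψ ν : ℂ) * (ψ : T → ℂ) 1 =
      (Nat.card A : ℂ)⁻¹ * ∑ a : A, nuF ν a * ((ψ : T → ℂ) 1 * conj ((ψ : T → ℂ) (ι a))) := by
    intro ψ
    rw [← mm_conj_spec, mul_assoc, Finset.sum_mul]
    congr 1
    refine Finset.sum_congr rfl fun a _ => ?_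
    ring
  simp_rw [h1]
  rw [← Finset.mul_sum, Finset.sum_comm]
  have h2 : ∀ a : A, ∑ ψ : IrrCharacter T, nuF ν a * ((ψ : T → ℂ) 1 * conj ((ψ : T → ℂ) (ι a))) =
      if a = 1 then (Nat.card T : ℂ) else 0 := by
    intro a
    rw [← Finset.mul_sum, sum_irr_mul_conj]
    by_cases ha : a = 1
    · subst ha
      rw [if_pos (by rw [map_one]), if_pos rfl, map_one]
      have hc : Subgroup.centralizer ({1} : Set T) = ⊤ := by
        rw [Subgroup.centralizer_eq_top_iff_subset]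
        simp
      rw [hc]
      simp [nuF]
    · have : ¬ IsConj (1 : T) (ι a) := by
        intro hc
        rw [isConj_one_right] at hc
        exact ha (hF.inj (by rw [hc, map_one]))
      rw [if_neg this, if_neg ha, mul_zero]
  simp_rw [h2]
  rw [Finset.sum_ite_eq' Finset.univ (1 : A), if_pos (Finset.mem_univ _)]
  field_simp

/-- Hence the differences are orthogonal to the degree vector. -/
theorem sum_mm_sub_deg [Fintype (IrrCharacter T)] (hF : TIFrame ι Γ p) (ν ν' : A →* ℂˣ)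
    (d : IrrCharacter T → ℤ) (hd : ∀ ψ : IrrCharacter T, (d ψ : ℂ) = (ψ : T → ℂ) 1) :
    ∑ ψ : IrrCharacter T, (mm ι ψ ν - mm ι ψ ν') * d ψ = 0 := by
  have h1 : ((∑ ψ : IrrCharacter T, (mm ι ψ ν - mm ι ψ ν') * d ψ : ℤ) : ℂ) = 0 := by
    push_cast
    simp_rw [hd, sub_mul]
    rw [Finset.sum_sub_distrib, sum_mm_deg hF, sum_mm_deg hF, sub_self]
  exact_mod_cast h1

end Cfsg.Agent.Lib.RankOneOdd.Family
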