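import Mathlib
import Cfsg.Agent.Lib.RankOneOdd.Family
import Cfsg.Agent.Lib.Char.Degree

/-!
# Structure of the irreducible characters with few weights
-/

set_option autoImplicit false
set_option linter.unusedSectionVars false

namespace Cfsg.Agent.Lib.RankOneOdd.Struct

open Cfsg Module
open Cfsg.Agent.Lib.Char.Basic Cfsg.Agent.Lib.Char.Ortho Cfsg.Agent.Lib.Char.Complete
open Cfsg.Agent.Lib.Char.Linear Cfsg.Agent.Lib.RankOneOdd.Weights Cfsg.Agent.Lib.RankOneOdd.Master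
open Cfsg.Agent.Lib.RankOneOdd.Family
open scoped ComplexConjugate

universe u v

variable {T : Type u} [Group T] [Fintype T] {A : Type v} [CommGroup A] [Fintype A]
variable {ι : A →* T} {Γ : Subgroup (MulAut A)} {p : ℕ} {Pa Ba : Subgroup A}

/-- Decomposition of an element of `A`. -/
theorem exists_decomp (h : PB p Pa Ba) (a : A) : ∃ u ∈ Pa, ∃ v ∈ Ba, u * v = a := by
  have hp := h.prime
  have hn : orderOf a ≠ 0 := (orderOf_pos a).ne'
  obtain ⟨k, m, hm, hkm⟩ := Nat.exists_eq_pow_mul_and_not_dvd hn p hp.ne_one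
  have hcop : Nat.Coprime (p ^ k) m := Nat.Coprime.pow_left k ((Nat.Prime.coprime_iff_not_dvd hp).2 hm)
  have hc : IsCoprime ((p ^ k : ℕ) : ℤ) (m : ℤ) := Nat.isCoprime_iff_coprime.2 hcop
  obtain ⟨x, y, hxy⟩ := hc
  refine ⟨a ^ (y * m), ?_, a ^ (x * (p ^ k : ℕ)), ?_, ?_⟩
  · rw [h.memP]
    have h1 : (a ^ (y * (m : ℤ))) ^ (p ^ k) = 1 := by
      rw [← zpow_natCast, ← zpow_mul]
      have : y * (m : ℤ) * ((p ^ k : ℕ) : ℤ) = y * (orderOf a : ℤ) := by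
        rw [hkm]
        push_cast
        ring
      rw [this, zpow_mul']
      simp
    have h2 := orderOf_dvd_of_pow_eq_one h1
    obtain ⟨j, _, hj⟩ := (Nat.dvd_prime_pow hp).1 h2
    exact ⟨j, hj⟩
  · rw [h.memB]
    have h1 : (a ^ (x * ((p ^ k : ℕ) : ℤ))) ^ m = 1 := by
      rw [← zpow_natCast, ← zpow_mul]
      have : x * ((p ^ k : ℕ) : ℤ) * (m : ℤ) = x * (orderOf a : ℤ) := by
        rw [hkm]
        push_cast
        ring
      rw [this, zpow_mul']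
      simp
    intro h3
    exact hm (h3.trans (orderOf_dvd_of_pow_eq_one h1))
  · rw [← zpow_add]
    have : y * (m : ℤ) + x * ((p ^ k : ℕ) : ℤ) = 1 := by linarith
    rw [this, zpow_one]

theorem inf_bot (h : PB p Pa Ba) : Pa ⊓ Ba = ⊥ := by
  rw [eq_bot_iff]
  rintro a ⟨h1, h2⟩
  obtain ⟨k, hk⟩ := (h.memP a).1 h1
  have h3 := (h.memB a).1 h2
  have hk0 : k = 0 := by
    by_contra hne
    rw [hk] at h3
    exact h3 (dvd_pow_self p hne)
  rw [hk0, pow_zero, orderOf_eq_one_iff] at hk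
  exact hk

theorem card_mul (h : PB p Pa Ba) : Nat.card Pa * Nat.card Ba = Nat.card A := by
  have h1 : Subgroup.IsComplement' Pa Ba := by
    apply Subgroup.isComplement'_of_disjoint_and_mul_eq_univ
    · rw [disjoint_iff]
      exact inf_bot h
    · ext a
      simp only [Set.mem_mul, Set.mem_univ, iff_true]
      obtain ⟨u, hu, v, hv, e⟩ := exists_decomp h a
      exact ⟨u, hu, v, hv, e⟩
  exact h1.card_mul

/-- Two linear characters agreeing on both parts coincide. -/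
theorem hom_ext_PB (h : PB p Pa Ba) {μ μ' : A →* ℂˣ} (h1 : ∀ u ∈ Pa, μ u = μ' u) (h2 : ∀ v ∈ Ba, μ v = μ' v) :
    μ = μ' := by
  ext a
  obtain ⟨u, hu, v, hv, rfl⟩ := exists_decomp h a
  rw [map_mul, map_mul, h1 u hu, h2 v hv]

/-- The pair of restrictions is onto. -/
theorem exists_of_restr (h : PB p Pa Ba) (l : Pa →* ℂˣ) (β : Ba →* ℂˣ) :
    ∃ μ : A →* ℂˣ, (∀ u : Pa, μ u = l u) ∧ (∀ v : Ba, μ v = β v) := by
  classical
  let r : (A →* ℂˣ) → (Pa →* ℂˣ) × (Ba →* ℂˣ) := fun μ => (μ.comp Pa.subtype, μ.comp Ba.subtype)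
  have hinj : Function.Injective r := by
    intro μ μ' hr
    have h1 := congrArg Prod.fst hr
    have h2 := congrArg Prod.snd hr
    apply hom_ext_PB h
    · intro u hu
      exact congrArg (fun f : Pa →* ℂˣ => f ⟨u, hu⟩) h1
    · intro v hv
      exact congrArg (fun f : Ba →* ℂˣ => f ⟨v, hv⟩) h2
  have hcard : Nat.card (A →* ℂˣ) = Nat.card ((Pa →* ℂˣ) × (Ba →* ℂˣ)) := by
    rw [Nat.card_prod, CommGroup.card_monoidHom_of_hasEnoughRootsOfUnity,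
      CommGroup.card_monoidHom_of_hasEnoughRootsOfUnity,
      CommGroup.card_monoidHom_of_hasEnoughRootsOfUnity, card_mul h]
  have hbij : Function.Bijective r :=
    (Nat.bijective_iff_injective_and_card r).2 ⟨hinj, hcard⟩
  obtain ⟨μ, hμ⟩ := hbij.2 (l, β)
  refine ⟨μ, fun u => ?_, fun v => ?_⟩
  · have h1 := congrArg Prod.fst hμ
    exact congrArg (fun f : Pa →* ℂˣ => f u) h1
  · have h2 := congrArg Prod.snd hμ
    exact congrArg (fun f : Ba →* ℂˣ => f v) h2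

section Fam

variable [Fintype (A →* ℂˣ)]

open Classical in
/-- The family of `ν`: same `p`-regular part, nontrivial `p`-part. -/
noncomputable def Fam (Pa Ba : Subgroup A) (ν : A →* ℂˣ) : Finset (A →* ℂˣ) :=
  Finset.univ.filter fun ν' => SF Ba ν ν' ∧ NT Pa ν'

theorem mem_Fam {ν ν' : A →* ℂˣ} : ν' ∈ Fam Pa Ba ν ↔ SF Ba ν ν' ∧ NT Pa ν' := by
  simp [Fam]

theorem card_Fam (h : PB p Pa Ba) (ν : A →* ℂˣ) : (Fam Pa Ba ν).card = Nat.card Pa - 1 := by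
  classical
  haveI : Fintype (Pa →* ℂˣ) := Fintype.ofFinite _
  have h1 : Nat.card (Pa →* ℂˣ) = Nat.card Pa :=
    CommGroup.card_monoidHom_of_hasEnoughRootsOfUnity Pa ℂ
  have h2 : (Fam Pa Ba ν).card = ((Finset.univ : Finset (Pa →* ℂˣ)).erase 1).card := by
    refine Finset.card_bij (fun μ _ => μ.comp Pa.subtype) ?_ ?_ ?_
    · intro μ hμ
      rw [mem_Fam] at hμ
      simp only [Finset.mem_erase, Finset.mem_univ, and_true]
      obtain ⟨u, hu, hne⟩ := hμ.2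
      intro h3
      apply hne
      exact congrArg (fun f : Pa →* ℂˣ => f ⟨u, hu⟩) h3
    · intro μ hμ μ' hμ' e
      rw [mem_Fam] at hμ hμ'
      apply hom_ext_PB h
      · intro u hu
        exact congrArg (fun f : Pa →* ℂˣ => f ⟨u, hu⟩) e
      · intro v hv
        rw [← hμ.1 v hv, ← hμ'.1 v hv]
    · intro l hl
      simp only [Finset.mem_erase, Finset.mem_univ, and_true] at hl
      obtain ⟨μ, h3, h4⟩ := exists_of_restr h l (ν.comp Ba.subtype)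
      refine ⟨μ, ?_, ?_⟩
      · rw [mem_Fam]
        refine ⟨fun b hb => (h4 ⟨b, hb⟩).symm, ?_⟩
        by_contra hnt
        apply hl
        ext u
        have : μ u = 1 := by
          by_contra h5
          exact hnt ⟨u, u.2, h5⟩
        rw [← h3 u, this]
        rfl
      · ext u
        simp [h3 u]
  rw [h2, Finset.card_erase_of_mem (Finset.mem_univ _), Finset.card_univ, ← Nat.card_eq_fintype_card, h1]

end Fam

/-- A sign lemma for vectors of norm two. -/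
theorem norm2_sign {K : Type*} [Fintype K] [DecidableEq K] (d w : K → ℤ) (hw : ∀ k, 0 < w k) {θ : K}
    (hd : d θ = 1) (hn : ∑ k, d k * d k = 2) (hs : ∑ k, d k * w k = 0) {ψ : K} (hψ : ψ ≠ θ) :
    d ψ ≤ 0 := by
  by_contra hpos
  push Not at hpos
  have h1 : ∑ k, d k * d k = d θ * d θ + (d ψ * d ψ + ∑ k ∈ (Finset.univ.erase θ).erase ψ, d k * d k) := by
    rw [← Finset.add_sum_erase _ _ (Finset.mem_univ θ),
      ← Finset.add_sum_erase _ _ (Finset.mem_erase.2 ⟨hψ, Finset.mem_univ ψ⟩)]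
  have h2 : 0 ≤ ∑ k ∈ (Finset.univ.erase θ).erase ψ, d k * d k :=
    Finset.sum_nonneg fun k _ => mul_self_nonneg _
  rw [hn, hd] at h1
  have h3 : d ψ * d ψ ≥ 1 := by nlinarith
  have h4 : ∑ k ∈ (Finset.univ.erase θ).erase ψ, d k * d k = 0 := by linarith
  have h5 := (Finset.sum_eq_zero_iff_of_nonneg fun k _ => mul_self_nonneg (d k)).1 h4
  have h6 : d ψ * d ψ = 1 := by linarith
  have h7 : ∑ k, d k * w k = d θ * w θ + (d ψ * w ψ + ∑ k ∈ (Finset.univ.erase θ).erase ψ, d k * w k) := by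
    rw [← Finset.add_sum_erase _ _ (Finset.mem_univ θ),
      ← Finset.add_sum_erase _ _ (Finset.mem_erase.2 ⟨hψ, Finset.mem_univ ψ⟩)]
  have h8 : ∑ k ∈ (Finset.univ.erase θ).erase ψ, d k * w k = 0 := by
    refine Finset.sum_eq_zero fun k hk => ?_
    have := h5 k hk
    have h9 : d k = 0 := by simpa using this
    rw [h9, zero_mul]
  rw [hs, hd, h8] at h7
  have h10 : 0 < d ψ * w ψ := mul_pos hpos (hw ψ)
  have h11 := hw θ
  linarith

section Main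

variable [Fintype (A →* ℂˣ)] [Fintype (IrrCharacter T)] [Fintype Γ]

open Classical in
/-- The weights of an irreducible character. -/
noncomputable def Wt (ι : A →* T) (θ : IrrCharacter T) : Finset (A →* ℂˣ) :=
  Finset.univ.filter fun ν => mm ι θ ν ≠ 0

theorem mem_Wt {θ : IrrCharacter T} {ν : A →* ℂˣ} : ν ∈ Wt ι θ ↔ mm ι θ ν ≠ 0 := by
  simp [Wt]

/-- The degree as an integer. -/
noncomputable def dg (ψ : IrrCharacter T) : ℤ := (charDegree (ψ : T → ℂ) : ℤ)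

theorem dg_pos (ψ : IrrCharacter T) : 0 < dg ψ := by
  have := Cfsg.Agent.Lib.Char.Degree.charDegree_pos ψ.2
  unfold dg
  exact_mod_cast this

theorem dg_spec (ψ : IrrCharacter T) : (dg ψ : ℂ) = (ψ : T → ℂ) 1 := by
  obtain ⟨n, _, hn⟩ := exists_pos_deg_of_isIrr ψ.2
  unfold dg charDegree
  rw [hn]
  simp

/-- The hypotheses on the character `θ`. -/
structure Good (ι : A →* T) (Pa : Subgroup A) (p : ℕ) (θ : IrrCharacter T) : Prop where
  nt : ∀ ν, mm ι θ ν ≠ 0 → NT Pa ν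
  bd : 2 * (Wt ι θ).card ≤ p - 1

variable {θ : IrrCharacter T}

theorem Wt_tw (hF : TIFrame ι Γ p) {ν : A →* ℂˣ} (hν : ν ∈ Wt ι θ) {γ : MulAut A} (hγ : γ ∈ Γ) :
    tw ν γ ∈ Wt ι θ := by
  rw [mem_Wt] at hν ⊢
  rwa [mm_tw hF θ ν hγ]

theorem not_cj_of_zero (hF : TIFrame ι Γ p) {ν ν' : A →* ℂˣ} (h1 : mm ι θ ν ≠ 0) (h2 : mm ι θ ν' = 0) :
    ¬ Cj Γ ν ν' := by
  rintro ⟨γ, hγ, rfl⟩
  rw [mm_tw hF θ ν hγ] at h2
  exact h1 h2

/-- Partners exist. -/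
theorem exists_partner (h : PB p Pa Ba) (hq : p ≤ Nat.card Pa) (hg : Good ι Pa p θ) (hp3 : 3 ≤ p)
    (ν : A →* ℂˣ) : ∃ ν' ∈ Fam Pa Ba ν, mm ι θ ν' = 0 := by
  have h1 : (Wt ι θ).card < (Fam Pa Ba ν).card := by
    rw [card_Fam h]
    have := hg.bd
    omega
  obtain ⟨ν', h2, h3⟩ := Finset.exists_mem_notMem_of_card_lt_card h1
  refine ⟨ν', h2, ?_⟩
  by_contra h4
  exact h3 (mem_Wt.2 h4)

/-- Multiplicity one. -/
theorem mm_eq_one (hF : TIFrame ι Γ p) (h : PB p Pa Ba) (hq : p ≤ Nat.card Pa) (hg : Good ι Pa p θ)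
    (hp3 : 3 ≤ p) {ν : A →* ℂˣ} (hν : mm ι θ ν ≠ 0) : mm ι θ ν = 1 := by
  classical
  obtain ⟨ν', h1, h2⟩ := exists_partner h hq hg hp3 ν
  rw [mem_Fam] at h1
  have h3 := sum_mm_sq_of_not_cj hF h h1.1 (hg.nt ν hν) h1.2 (not_cj_of_zero hF hν h2)
  have h4 : (mm ι θ ν - mm ι θ ν') * (mm ι θ ν - mm ι θ ν') ≤ 2 := by
    rw [← h3]
    exact Finset.single_le_sum (f := fun ψ => (mm ι ψ ν - mm ι ψ ν') * (mm ι ψ ν - mm ι ψ ν'))
      (fun ψ _ => mul_self_nonneg _) (Finset.mem_univ θ)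
  rw [h2, sub_zero] at h4
  have h5 := mm_nonneg ι θ ν
  have h6 : 0 < mm ι θ ν := lt_of_le_of_ne h5 (Ne.symm hν)
  nlinarith

/-- Partners that are not conjugate are impossible. -/
theorem no_nonconj_partners (hF : TIFrame ι Γ p) (h : PB p Pa Ba) (hq : p ≤ Nat.card Pa)
    (hg : Good ι Pa p θ) (hp3 : 3 ≤ p) {ν₁ ν₂ ν₁' ν₂' : A →* ℂˣ} (h1 : mm ι θ ν₁ ≠ 0) (h2 : mm ι θ ν₂ ≠ 0)
    (hc : ¬ Cj Γ ν₁ ν₂) (h1' : ν₁' ∈ Fam Pa Ba ν₁) (h2' : ν₂' ∈ Fam Pa Ba ν₂) (z1 : mm ι θ ν₁' = 0)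
    (z2 : mm ι θ ν₂' = 0) (hc' : ¬ Cj Γ ν₁' ν₂') : False := by
  classical
  rw [mem_Fam] at h1' h2'
  have n1 := hg.nt ν₁ h1
  have n2 := hg.nt ν₂ h2
  have c1 : ¬ Cj Γ ν₁ ν₂' := not_cj_of_zero hF h1 z2
  have c3 : ¬ Cj Γ ν₁' ν₂ := fun hh => not_cj_of_zero hF h2 z1 hh.symm
  have e := sum_mm_cross (T := T) (ι := ι) hF h h2'.1 n1 h1'.2 hc c1 c3 hc'
  have s1 := sum_mm_sq_of_not_cj hF h h1'.1 n1 h1'.2 (not_cj_of_zero hF h1 z1)
  have s2 := sum_mm_sq_of_not_cj hF h h2'.1 n2 h2'.2 (not_cj_of_zero hF h2 z2)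
  have t1 := sum_mm_sub_deg (T := T) (ι := ι) hF ν₁ ν₁' dg dg_spec
  have t2 := sum_mm_sub_deg (T := T) (ι := ι) hF ν₂ ν₂' dg dg_spec
  have o1 : mm ι θ ν₁ = 1 := mm_eq_one hF h hq hg hp3 h1
  have o2 : mm ι θ ν₂ = 1 := mm_eq_one hF h hq hg hp3 h2
  have d1 : ∀ ψ, ψ ≠ θ → mm ι ψ ν₁ - mm ι ψ ν₁' ≤ 0 := fun ψ hψ =>
    norm2_sign (fun ψ => mm ι ψ ν₁ - mm ι ψ ν₁') dg dg_pos (θ := θ) (by simp [o1, z1]) s1 t1 hψ
  have d2 : ∀ ψ, ψ ≠ θ → mm ι ψ ν₂ - mm ι ψ ν₂' ≤ 0 := fun ψ hψ =>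
    norm2_sign (fun ψ => mm ι ψ ν₂ - mm ι ψ ν₂') dg dg_pos (θ := θ) (by simp [o2, z2]) s2 t2 hψ
  rw [← Finset.add_sum_erase _ _ (Finset.mem_univ θ), o1, o2, z1, z2] at e
  have h5 : 0 ≤ ∑ ψ ∈ Finset.univ.erase θ, (mm ι ψ ν₁ - mm ι ψ ν₁') * (mm ι ψ ν₂ - mm ι ψ ν₂') := by
    refine Finset.sum_nonneg fun ψ hψ => ?_
    have hψ' := (Finset.mem_erase.1 hψ).1
    exact mul_nonneg_of_nonpos_of_nonpos (d1 ψ hψ') (d2 ψ hψ')
  linarith

open Classical in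
/-- The class of `μ` inside the family of `ν` has a fixed size. -/
theorem card_class (hF : TIFrame ι Γ p) (h : PB p Pa Ba) {ν μ : A →* ℂˣ} (hμ : μ ∈ Fam Pa Ba ν) :
    ((Fam Pa Ba ν).filter (Cj Γ μ)).card =
      (Finset.univ.filter fun γ : Γ => SF Ba ν (tw ν (γ : MulAut A))).card := by
  rw [mem_Fam] at hμ
  symm
  refine Finset.card_bij (fun γ _ => tw μ (γ : MulAut A)) ?_ ?_ ?_
  · intro γ hγ
    simp only [Finset.mem_filter, Finset.mem_univ, true_and] at hγ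
    simp only [Finset.mem_filter, mem_Fam]
    refine ⟨⟨?_, NT_tw h hμ.2 _⟩, ⟨γ, γ.2, rfl⟩⟩
    intro b hb
    rw [hγ b hb]
    exact SF_tw h hμ.1 _ b hb
  · intro γ _ γ' _ e
    have h3 : tw μ ((γ : MulAut A) * (γ' : MulAut A)⁻¹) = μ := by
      rw [← tw_mul, e, tw_mul, mul_inv_cancel, tw_one]
    have h4 := tw_free hF h (mul_mem γ.2 (inv_mem γ'.2)) hμ.2 h3
    rw [mul_inv_eq_one] at h4
    exact Subtype.ext h4
  · intro μ' hμ'
    simp only [Finset.mem_filter, mem_Fam] at hμ'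
    obtain ⟨⟨h5, _⟩, γ, hγ, rfl⟩ := hμ'
    refine ⟨⟨γ, hγ⟩, ?_, rfl⟩
    simp only [Finset.mem_filter, Finset.mem_univ, true_and]
    intro b hb
    rw [h5 b hb]
    exact (SF_tw h hμ.1 _ b hb).symm

/-- Any two weights are conjugate. -/
theorem cj_of_weights (hF : TIFrame ι Γ p) (h : PB p Pa Ba) (hq : p ≤ Nat.card Pa)
    (hg : Good ι Pa p θ) (hp3 : 3 ≤ p) {ν₁ ν₂ : A →* ℂˣ} (h1 : mm ι θ ν₁ ≠ 0) (h2 : mm ι θ ν₂ ≠ 0) :
    Cj Γ ν₁ ν₂ := by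
  classical
  by_contra hc
  obtain ⟨ν₁', h1', z1⟩ := exists_partner h hq hg hp3 ν₁
  obtain ⟨ν₂', h2', z2⟩ := exists_partner h hq hg hp3 ν₂
  have hcc : Cj Γ ν₁' ν₂' := by
    by_contra hcc
    exact no_nonconj_partners hF h hq hg hp3 h1 h2 hc h1' h2' z1 z2 hcc
  obtain ⟨γ₀, hγ₀, e₀⟩ := hcc
  have h1'' := mem_Fam.1 h1'
  have h2'' := mem_Fam.1 h2'
  -- all partners of `ν₁` are conjugate to `ν₁'`
  have hall : ∀ μ ∈ Fam Pa Ba ν₁, mm ι θ μ = 0 → Cj Γ ν₁' μ := by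
    intro μ hμ zμ
    have : Cj Γ μ ν₂' := by
      by_contra hcc
      exact no_nonconj_partners hF h hq hg hp3 h1 h2 hc hμ h2' zμ z2 hcc
    exact Cj.trans (⟨γ₀, hγ₀, e₀⟩ : Cj Γ ν₁' ν₂') this.symm
  -- the third weight
  set ν₃ := tw ν₂ γ₀⁻¹ with hν₃
  have h3 : mm ι θ ν₃ ≠ 0 := by
    rw [hν₃, mm_tw hF θ ν₂ (inv_mem hγ₀)]
    exact h2
  have hs3 : SF Ba ν₃ ν₁' := by
    have := SF_tw h h2''.1 γ₀⁻¹
    rw [← e₀, tw_mul, mul_inv_cancel, tw_one] at this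
    exact this
  have h3' : ν₃ ∈ Fam Pa Ba ν₁ := by
    rw [mem_Fam]
    refine ⟨fun b hb => ?_, hg.nt ν₃ h3⟩
    rw [h1''.1 b hb, hs3 b hb]
  have h1m : ν₁ ∈ Fam Pa Ba ν₁ := mem_Fam.2 ⟨fun _ _ => rfl, hg.nt ν₁ h1⟩
  have hc3 : ¬ Cj Γ ν₁ ν₃ := by
    intro hh
    apply hc
    exact hh.trans ⟨γ₀, hγ₀, by rw [hν₃, tw_mul, inv_mul_cancel, tw_one]⟩
  -- counting
  set F := Fam Pa Ba ν₁ with hF'
  set c := (Finset.univ.filter fun γ : Γ => SF Ba ν₁ (tw ν₁ (γ : MulAut A))).card with hc'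
  have c1 : (F.filter (Cj Γ ν₁)).card = c := card_class hF h h1m
  have c3 : (F.filter (Cj Γ ν₃)).card = c := card_class hF h h3'
  have cp : (F.filter (Cj Γ ν₁')).card = c := card_class hF h h1'
  have hdisj : Disjoint (F.filter (Cj Γ ν₁)) (F.filter (Cj Γ ν₃)) := by
    rw [Finset.disjoint_left]
    intro μ hμ1 hμ3
    simp only [Finset.mem_filter] at hμ1 hμ3
    exact hc3 (hμ1.2.trans hμ3.2.symm)
  have hsub : (F.filter (Cj Γ ν₁)) ∪ (F.filter (Cj Γ ν₃)) ⊆ F.filter (fun μ => mm ι θ μ ≠ 0) := by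
    intro μ hμ
    rw [Finset.mem_union] at hμ
    simp only [Finset.mem_filter] at hμ ⊢
    rcases hμ with ⟨hF1, γ, hγ, rfl⟩ | ⟨hF1, γ, hγ, rfl⟩
    · exact ⟨hF1, by rw [mm_tw hF θ _ hγ]; exact h1⟩
    · exact ⟨hF1, by rw [mm_tw hF θ _ hγ]; exact h3⟩
  have h2c : 2 * c ≤ (F.filter (fun μ => mm ι θ μ ≠ 0)).card := by
    have := Finset.card_le_card hsub
    rw [Finset.card_union_of_disjoint hdisj, c1, c3] at this
    omega
  have hzero : (F.filter (fun μ => ¬ mm ι θ μ ≠ 0)).card ≤ c := by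
    rw [← cp]
    apply Finset.card_le_card
    intro μ hμ
    simp only [Finset.mem_filter, not_not] at hμ ⊢
    exact ⟨hμ.1, hall μ hμ.1 hμ.2⟩
  have hsplit := Finset.card_filter_add_card_filter_not (s := F) (fun μ => mm ι θ μ ≠ 0)
  have hFc : F.card = Nat.card Pa - 1 := card_Fam h ν₁
  have hW : (F.filter (fun μ => mm ι θ μ ≠ 0)).card ≤ (Wt ι θ).card := by
    apply Finset.card_le_card
    intro μ hμ
    simp only [Finset.mem_filter] at hμ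
    exact mem_Wt.2 hμ.2
  have hbd := hg.bd
  omega

/-- The degree of `θ` is the number of its weights. -/
theorem dg_eq_card (hF : TIFrame ι Γ p) (h : PB p Pa Ba) (hq : p ≤ Nat.card Pa) (hg : Good ι Pa p θ)
    (hp3 : 3 ≤ p) : dg θ = (Wt ι θ).card := by
  classical
  have h1 : ((dg θ : ℤ) : ℂ) = ((∑ ν : A →* ℂˣ, mm ι θ ν : ℤ) : ℂ) := by
    rw [dg_spec, deg_eq_sum ι θ]
    push_cast
    rfl
  have h2 : dg θ = ∑ ν : A →* ℂˣ, mm ι θ ν := by exact_mod_cast h1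
  have h4 : ∑ ν : A →* ℂˣ, mm ι θ ν = ∑ ν ∈ Wt ι θ, mm ι θ ν := by
    symm
    apply Finset.sum_subset (Finset.subset_univ _)
    intro ν _ hν
    by_contra h5
    exact hν (mem_Wt.2 h5)
  have h5 : ∑ ν ∈ Wt ι θ, mm ι θ ν = (Wt ι θ).card := by
    rw [Finset.sum_congr rfl (fun ν hν => mm_eq_one hF h hq hg hp3 (mem_Wt.1 hν))]
    simp
  rw [h2, h4, h5]

/-- The degree of `θ` is the order of `Γ`. -/
theorem dg_eq (hF : TIFrame ι Γ p) (h : PB p Pa Ba) (hq : p ≤ Nat.card Pa) (hg : Good ι Pa p θ)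
    (hp3 : 3 ≤ p) : dg θ = Fintype.card Γ := by
  classical
  have h1 : ((dg θ : ℤ) : ℂ) = ((∑ ν : A →* ℂˣ, mm ι θ ν : ℤ) : ℂ) := by
    rw [dg_spec, deg_eq_sum ι θ]
    push_cast
    rfl
  have h2 : dg θ = ∑ ν : A →* ℂˣ, mm ι θ ν := by exact_mod_cast h1
  have h3 : ∃ ν, mm ι θ ν ≠ 0 := by
    by_contra hall
    push Not at hall
    rw [Finset.sum_eq_zero (fun ν _ => hall ν)] at h2
    exact (dg_pos θ).ne' h2
  obtain ⟨ν₀, h0⟩ := h3
  have h4 : ∑ ν : A →* ℂˣ, mm ι θ ν = ∑ ν ∈ Wt ι θ, mm ι θ ν := by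
    symm
    apply Finset.sum_subset (Finset.subset_univ _)
    intro ν _ hν
    by_contra h5
    exact hν (mem_Wt.2 h5)
  have h5 : ∑ ν ∈ Wt ι θ, mm ι θ ν = (Wt ι θ).card := by
    rw [Finset.sum_congr rfl (fun ν hν => mm_eq_one hF h hq hg hp3 (mem_Wt.1 hν))]
    simp
  have h6 : (Wt ι θ).card = Fintype.card Γ := by
    rw [← Finset.card_univ]
    symm
    refine Finset.card_bij (fun γ _ => tw ν₀ (γ : MulAut A)) ?_ ?_ ?_
    · intro γ _
      exact Wt_tw hF (mem_Wt.2 h0) γ.2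
    · intro γ _ γ' _ e
      have h3 : tw ν₀ ((γ : MulAut A) * (γ' : MulAut A)⁻¹) = ν₀ := by
        rw [← tw_mul, e, tw_mul, mul_inv_cancel, tw_one]
      have h4 := tw_free hF h (mul_mem γ.2 (inv_mem γ'.2)) (hg.nt ν₀ h0) h3
      rw [mul_inv_eq_one] at h4
      exact Subtype.ext h4
    · intro μ hμ
      obtain ⟨γ, hγ, rfl⟩ := cj_of_weights hF h hq hg hp3 h0 (mem_Wt.1 hμ)
      exact ⟨⟨γ, hγ⟩, Finset.mem_univ _, rfl⟩
  rw [h2, h4, h5, h6]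

end Main

end Cfsg.Agent.Lib.RankOneOdd.Struct
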