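import Mathlib
import Cfsg.Agent.Lib.RankOneOdd.Struct

/-!
# The character `θ θ̄` and the case of a large Sylow subgroup
-/

set_option autoImplicit false
set_option linter.unusedSectionVars false

namespace Cfsg.Agent.Lib.RankOneOdd.XChar

open Cfsg Module
open Cfsg.Agent.Lib.Char.Basic Cfsg.Agent.Lib.Char.Ortho Cfsg.Agent.Lib.Char.Complete
open Cfsg.Agent.Lib.Char.Linear Cfsg.Agent.Lib.RankOneOdd.Weights Cfsg.Agent.Lib.RankOneOdd.Master
open Cfsg.Agent.Lib.RankOneOdd.Family Cfsg.Agent.Lib.RankOneOdd.Struct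
open scoped ComplexConjugate

universe u v

variable {T : Type u} [Group T] [Fintype T] {A : Type v} [CommGroup A] [Fintype A]
variable {ι : A →* T} {Γ : Subgroup (MulAut A)} {p : ℕ} {Pa Ba : Subgroup A}

/-- The principal character. -/
noncomputable def oneT (T : Type u) [Group T] : IrrCharacter T :=
  ⟨fun _ => 1, by simpa using isIrrCharacter_of_hom (1 : T →* ℂˣ)⟩

@[simp] theorem oneT_apply (g : T) : (oneT T : T → ℂ) g = 1 := rfl

/-- The function `θ θ̄`. -/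
noncomputable def Xf (θ : IrrCharacter T) : T → ℂ := fun g => (θ : T → ℂ) g * conj ((θ : T → ℂ) g)

theorem isChar_conj (θ : IrrCharacter T) : IsCharacter T (fun g => conj ((θ : T → ℂ) g)) := by
  have h := isCharacter_inv (isCharacter_of_isIrrCharacter θ.2)
  have h2 : (fun g => conj ((θ : T → ℂ) g)) = fun g => (θ : T → ℂ) g⁻¹ := by
    funext g
    exact (char_inv_eq_conj (isCharacter_of_isIrrCharacter θ.2) g).symm
  rw [h2]
  exact h

theorem isChar_Xf (θ : IrrCharacter T) : IsCharacter T (Xf θ) :=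
  isCharacter_mul (isCharacter_of_isIrrCharacter θ.2) (isChar_conj θ)

/-- The multiplicities of `θ θ̄`. -/
noncomputable def xn (θ ψ : IrrCharacter T) : ℕ :=
  Classical.choose (exists_nat_classInner (isChar_Xf θ) (isCharacter_of_isIrrCharacter ψ.2))

theorem xn_spec (θ ψ : IrrCharacter T) : classInner (Xf θ) (ψ : T → ℂ) = (xn θ ψ : ℂ) :=
  Classical.choose_spec (exists_nat_classInner (isChar_Xf θ) (isCharacter_of_isIrrCharacter ψ.2))

/-- Integer version. -/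
noncomputable def xx (θ ψ : IrrCharacter T) : ℤ := (xn θ ψ : ℤ)

theorem xx_nonneg (θ ψ : IrrCharacter T) : 0 ≤ xx θ ψ := Int.natCast_nonneg _

theorem xx_spec (θ ψ : IrrCharacter T) : classInner (Xf θ) (ψ : T → ℂ) = (xx θ ψ : ℂ) := by
  rw [xn_spec, xx]
  simp

theorem xx_one (θ : IrrCharacter T) : xx θ (oneT T) = 1 := by
  have h1 := xx_spec θ (oneT T)
  have h2 : classInner (Xf θ) ((oneT T : IrrCharacter T) : T → ℂ) = classInner (θ : T → ℂ) θ := by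
    rw [classInner_def, classInner_def]
    congr 1
    refine Finset.sum_congr rfl fun g _ => ?_
    simp [Xf]
  rw [h2, classInner_self_of_isIrr θ.2] at h1
  have h3 : (xx θ (oneT T) : ℂ) = ((1 : ℤ) : ℂ) := by
    rw [← h1]
    simp
  exact_mod_cast h3

section Sum

variable [Fintype (IrrCharacter T)]

theorem isClass_Xf (θ : IrrCharacter T) : IsClassFunction T (Xf θ) :=
  isClassFunction_of_isCharacter (isChar_Xf θ)

theorem Xf_eq_sum (θ : IrrCharacter T) (g : T) :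
    Xf θ g = ∑ ψ : IrrCharacter T, (xx θ ψ : ℂ) * (ψ : T → ℂ) g := by
  have h := congrFun (classFunction_eq_sum (isClass_Xf θ)) g
  simp only [Finset.sum_apply, Pi.smul_apply, smul_eq_mul, xx_spec] at h
  exact h

variable (ι)

/-- The multiplicity of `ν` in `θ θ̄`. -/
noncomputable def mX (θ : IrrCharacter T) (ν : A →* ℂˣ) : ℤ := ∑ ψ : IrrCharacter T, xx θ ψ * mm ι ψ ν

theorem mX_nonneg (θ : IrrCharacter T) (ν : A →* ℂˣ) : 0 ≤ mX ι θ ν :=
  Finset.sum_nonneg fun ψ _ => mul_nonneg (xx_nonneg θ ψ) (mm_nonneg ι ψ ν)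

theorem mX_spec (θ : IrrCharacter T) (ν : A →* ℂˣ) :
    (mX ι θ ν : ℂ) = classInner (fun a => Xf θ (ι a)) (nuF ν) := by
  rw [mX, classInner_def]
  simp_rw [Xf_eq_sum θ, Finset.sum_mul]
  rw [Finset.sum_comm, Finset.mul_sum, Int.cast_sum]
  refine Finset.sum_congr rfl fun ψ _ => ?_
  rw [Int.cast_mul, ← mm_spec, classInner_def, mul_left_comm, Finset.mul_sum]
  congr 1
  refine Finset.sum_congr rfl fun a _ => ?_
  ring

variable [Fintype (A →* ℂˣ)]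

/-- The multiplicities of `θ θ̄` in terms of those of `θ`. -/
theorem mX_eq_sum (θ : IrrCharacter T) (μ : A →* ℂˣ) :
    mX ι θ μ = ∑ ν' : A →* ℂˣ, mm ι θ ν' * mm ι θ (ν' * μ) := by
  classical
  have h1 : ∀ a : A, Xf θ (ι a) =
      ∑ ν' : A →* ℂˣ, ∑ ν : A →* ℂˣ, (mm ι θ ν' : ℂ) * (mm ι θ ν : ℂ) * (nuF ν a * nuF ν'⁻¹ a) := by
    intro a
    have e : conj ((θ : T → ℂ) (ι a)) = ∑ ν' : A →* ℂˣ, (mm ι θ ν' : ℂ) * nuF ν'⁻¹ a := by
      rw [val_eq_sum ι θ a, map_sum]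
      refine Finset.sum_congr rfl fun ν' _ => ?_
      rw [map_mul, nuF_conj, map_intCast]
    rw [Xf, e, val_eq_sum ι θ a, Finset.sum_mul_sum, Finset.sum_comm]
    refine Finset.sum_congr rfl fun ν' _ => Finset.sum_congr rfl fun ν _ => ?_
    ring
  have h2 : ((mX ι θ μ : ℤ) : ℂ) = ((∑ ν' : A →* ℂˣ, mm ι θ ν' * mm ι θ (ν' * μ) : ℤ) : ℂ) := by
    rw [mX_spec, classInner_def]
    simp_rw [h1, Finset.sum_mul]
    have h3 : ∀ ν' ν : A →* ℂˣ, ∑ a : A, (mm ι θ ν' : ℂ) * (mm ι θ ν : ℂ) * (nuF ν a * nuF ν'⁻¹ a) * conj (nuF μ a) =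
        (mm ι θ ν' : ℂ) * (mm ι θ ν : ℂ) * (Nat.card A : ℂ) * (if ν = ν' * μ then 1 else 0) := by
      intro ν' ν
      have h4 := inner_nuF ν (ν' * μ)
      rw [← h4, classInner_def]
      have hA : (Nat.card A : ℂ) ≠ 0 := Nat.cast_ne_zero.mpr Nat.card_pos.ne'
      rw [mul_assoc, mul_inv_cancel_left₀ hA, Finset.mul_sum]
      refine Finset.sum_congr rfl fun a _ => ?_
      have h5 : conj (nuF (ν' * μ) a) = nuF ν'⁻¹ a * conj (nuF μ a) := by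
        rw [nuF_mul, map_mul, nuF_conj]
      rw [h5]
      ring
    rw [Finset.sum_comm]
    have h6 : ∀ ν' : A →* ℂˣ, ∑ a : A, ∑ ν : A →* ℂˣ, (mm ι θ ν' : ℂ) * (mm ι θ ν : ℂ) * (nuF ν a * nuF ν'⁻¹ a) * conj (nuF μ a) =
        (mm ι θ ν' : ℂ) * (mm ι θ (ν' * μ) : ℂ) * (Nat.card A : ℂ) := by
      intro ν'
      rw [Finset.sum_comm, Finset.sum_congr rfl fun ν _ => h3 ν' ν]
      simp only [mul_ite, mul_one, mul_zero]
      rw [Finset.sum_ite_eq' Finset.univ (ν' * μ), if_pos (Finset.mem_univ _)]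
    rw [Finset.sum_congr rfl fun ν' _ => h6 ν', ← Finset.sum_mul]
    have hA : (Nat.card A : ℂ) ≠ 0 := Nat.cast_ne_zero.mpr Nat.card_pos.ne'
    push_cast
    field_simp
  exact_mod_cast h2

/-- `θ θ̄` contains `ν` with total multiplicity the square of the degree. -/
theorem sum_mX (θ : IrrCharacter T) : ∑ μ : A →* ℂˣ, mX ι θ μ = dg θ * dg θ := by
  classical
  have h0 : dg θ = ∑ ν : A →* ℂˣ, mm ι θ ν := by
    have h1 : ((dg θ : ℤ) : ℂ) = ((∑ ν : A →* ℂˣ, mm ι θ ν : ℤ) : ℂ) := by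
      rw [dg_spec, deg_eq_sum ι θ]
      push_cast
      rfl
    exact_mod_cast h1
  simp_rw [mX_eq_sum]
  rw [Finset.sum_comm]
  have h2 : ∀ ν' : A →* ℂˣ, ∑ μ : A →* ℂˣ, mm ι θ ν' * mm ι θ (ν' * μ) = mm ι θ ν' * dg θ := by
    intro ν'
    rw [← Finset.mul_sum, h0]
    congr 1
    exact Equiv.sum_comp (Equiv.mulLeft ν') (fun ν => mm ι θ ν)
  rw [Finset.sum_congr rfl fun ν' _ => h2 ν', ← Finset.sum_mul, ← h0]

/-- The degree sum of `θ θ̄`. -/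
theorem sum_xx_dg (θ : IrrCharacter T) : ∑ ψ : IrrCharacter T, xx θ ψ * dg ψ = dg θ * dg θ := by
  have h1 := Xf_eq_sum θ 1
  have h2 : ((∑ ψ : IrrCharacter T, xx θ ψ * dg ψ : ℤ) : ℂ) = ((dg θ * dg θ : ℤ) : ℂ) := by
    push_cast
    simp_rw [dg_spec]
    rw [← h1, Xf, ← dg_spec θ, map_intCast]
  exact_mod_cast h2

/-- The weights of the principal character. -/
theorem mm_oneT (ν : A →* ℂˣ) : mm ι (oneT T) ν = if ν = 1 then 1 else 0 := by
  classical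
  have h1 := mm_spec ι (oneT T) ν
  have h2 : (fun a => ((oneT T : IrrCharacter T) : T → ℂ) (ι a)) = nuF (1 : A →* ℂˣ) := by
    funext a
    simp [nuF]
  rw [h2, inner_nuF] at h1
  have h3 : ((if ν = 1 then 1 else 0 : ℤ) : ℂ) = (mm ι (oneT T) ν : ℂ) := by
    rw [← h1]
    by_cases h : ν = 1
    · simp [h]
    · rw [if_neg h, if_neg (Ne.symm h)]
      simp
  exact_mod_cast h3.symm

end Sum

section Good

variable [Fintype (IrrCharacter T)] [Fintype (A →* ℂˣ)] [Fintype Γ]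
variable {θ : IrrCharacter T}

theorem hom_mul_one (ν : A →* ℂˣ) : ν * 1 = ν := by
  ext a
  simp

theorem dg_oneT : dg (oneT T) = 1 := by
  have h := dg_spec (oneT T)
  rw [oneT_apply] at h
  exact_mod_cast h

theorem mX_one (hF : TIFrame ι Γ p) (h : PB p Pa Ba) (hq : p ≤ Nat.card Pa) (hg : Good ι Pa p θ)
    (hp3 : 3 ≤ p) : mX ι θ 1 = dg θ := by
  classical
  rw [mX_eq_sum]
  have h0 : dg θ = ∑ ν : A →* ℂˣ, mm ι θ ν := by
    have h1 : ((dg θ : ℤ) : ℂ) = ((∑ ν : A →* ℂˣ, mm ι θ ν : ℤ) : ℂ) := by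
      rw [dg_spec, deg_eq_sum ι θ]
      push_cast
      rfl
    exact_mod_cast h1
  rw [h0]
  refine Finset.sum_congr rfl fun ν _ => ?_
  rw [hom_mul_one]
  by_cases hν : mm ι θ ν = 0
  · rw [hν, zero_mul]
  · rw [mm_eq_one hF h hq hg hp3 hν, mul_one]

/-- A `p`-trivial non-principal character is not a weight of `θ θ̄`. -/
theorem mX_eq_zero (hF : TIFrame ι Γ p) (h : PB p Pa Ba) (hq : p ≤ Nat.card Pa) (hg : Good ι Pa p θ)
    (hp3 : 3 ≤ p) {μ : A →* ℂˣ} (hμ : μ ≠ 1) (hP : ¬ NT Pa μ) : mX ι θ μ = 0 := by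
  classical
  rw [mX_eq_sum]
  refine Finset.sum_eq_zero fun ν _ => ?_
  by_contra hne
  have h1 : mm ι θ ν ≠ 0 := fun h0 => hne (by rw [h0, zero_mul])
  have h2 : mm ι θ (ν * μ) ≠ 0 := fun h0 => hne (by rw [h0, mul_zero])
  obtain ⟨γ, hγ, e⟩ := cj_of_weights hF h hq hg hp3 h1 h2
  have h3 : ∀ u ∈ Pa, tw ν γ u = ν u := by
    intro u hu
    rw [e, MonoidHom.mul_apply]
    have : μ u = 1 := by
      by_contra h5
      exact hP ⟨u, hu, h5⟩
    rw [this, mul_one]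
  have h4 := tw_free' hF h hγ (hg.nt ν h1) h3
  rw [h4, tw_one] at e
  apply hμ
  have : ν * 1 = ν * μ := by rw [hom_mul_one]; exact e
  exact (mul_left_cancel this).symm

/-- The total multiplicity of the family of `1` in `θ θ̄`. -/
theorem sum_Fam_mX_le (hF : TIFrame ι Γ p) (h : PB p Pa Ba) (hq : p ≤ Nat.card Pa) (hg : Good ι Pa p θ)
    (hp3 : 3 ≤ p) : ∑ μ ∈ Fam Pa Ba (1 : A →* ℂˣ), mX ι θ μ ≤ dg θ * dg θ - dg θ := by
  classical
  have h1 := sum_mX ι θ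
  rw [← Finset.add_sum_erase _ _ (Finset.mem_univ (1 : A →* ℂˣ)), mX_one hF h hq hg hp3] at h1
  have h2 : Fam Pa Ba (1 : A →* ℂˣ) ⊆ Finset.univ.erase (1 : A →* ℂˣ) := by
    intro μ hμ
    rw [mem_Fam] at hμ
    rw [Finset.mem_erase]
    refine ⟨?_, Finset.mem_univ _⟩
    rintro rfl
    obtain ⟨u, _, hu⟩ := hμ.2
    exact hu rfl
  have h3 := Finset.sum_le_sum_of_subset_of_nonneg (f := fun μ => mX ι θ μ) h2
    (fun μ _ _ => mX_nonneg ι θ μ)
  linarith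

/-- A lower bound for the degree. -/
theorem dg_ge (hF : TIFrame ι Γ p) (h : PB p Pa Ba) (ψ : IrrCharacter T) {ν : A →* ℂˣ} (hν : NT Pa ν)
    (h0 : mm ι ψ ν ≠ 0) (h1 : mm ι ψ 1 ≠ 0) : (Fintype.card Γ : ℤ) + 1 ≤ dg ψ := by
  classical
  have e0 : dg ψ = ∑ ν : A →* ℂˣ, mm ι ψ ν := by
    have h1 : ((dg ψ : ℤ) : ℂ) = ((∑ ν : A →* ℂˣ, mm ι ψ ν : ℤ) : ℂ) := by
      rw [dg_spec, deg_eq_sum ι ψ]
      push_cast
      rfl
    exact_mod_cast h1
  let S : Finset (A →* ℂˣ) := Finset.univ.image (fun γ : Γ => tw ν (γ : MulAut A))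
  have hS : S.card = Fintype.card Γ := by
    rw [Finset.card_image_of_injective, Finset.card_univ]
    intro γ γ' e
    have h3 : tw ν ((γ : MulAut A) * (γ' : MulAut A)⁻¹) = ν := by
      change tw ν (γ : MulAut A) = tw ν (γ' : MulAut A) at e
      rw [← tw_mul, e, tw_mul, mul_inv_cancel, tw_one]
    have h4 := tw_free hF h (mul_mem γ.2 (inv_mem γ'.2)) hν h3
    rw [mul_inv_eq_one] at h4
    exact Subtype.ext h4
  have h1S : (1 : A →* ℂˣ) ∉ S := by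
    intro hh
    simp only [S, Finset.mem_image, Finset.mem_univ, true_and] at hh
    obtain ⟨γ, e⟩ := hh
    have := NT_tw h hν (γ : MulAut A)
    rw [e] at this
    obtain ⟨u, _, hu⟩ := this
    exact hu rfl
  have h2 : ∀ μ ∈ insert (1 : A →* ℂˣ) S, (1 : ℤ) ≤ mm ι ψ μ := by
    intro μ hμ
    rw [Finset.mem_insert] at hμ
    rcases hμ with rfl | hμ
    · exact lt_of_le_of_ne (mm_nonneg ι ψ 1) (Ne.symm h1)
    · simp only [S, Finset.mem_image, Finset.mem_univ, true_and] at hμ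
      obtain ⟨γ, rfl⟩ := hμ
      rw [mm_tw hF ψ ν γ.2]
      exact lt_of_le_of_ne (mm_nonneg ι ψ ν) (Ne.symm h0)
  have h3 : (∑ _μ ∈ insert (1 : A →* ℂˣ) S, (1 : ℤ)) ≤ ∑ μ ∈ insert (1 : A →* ℂˣ) S, mm ι ψ μ :=
    Finset.sum_le_sum h2
  have h4 : ∑ μ ∈ insert (1 : A →* ℂˣ) S, mm ι ψ μ ≤ ∑ μ : A →* ℂˣ, mm ι ψ μ :=
    Finset.sum_le_sum_of_subset_of_nonneg (Finset.subset_univ _) (fun μ _ _ => mm_nonneg ι ψ μ)
  rw [Finset.sum_const, Finset.card_insert_of_notMem h1S, hS] at h3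
  rw [e0]
  simp only [smul_eq_mul, mul_one, nsmul_eq_mul] at h3
  push_cast at h3
  linarith

/-- **The case of a large Sylow subgroup.** -/
theorem caseA (hF : TIFrame ι Γ p) (h : PB p Pa Ba) (hq : p ^ 2 ≤ Nat.card Pa) (hg : Good ι Pa p θ)
    (hp3 : 3 ≤ p) (hodd : ∀ ψ : IrrCharacter T, Odd (dg ψ))
    (hgen : ∀ ψ : IrrCharacter T, ψ ≠ oneT T → ∃ ν, NT Pa ν ∧ mm ι ψ ν ≠ 0)
    (hx : ∀ ψ : IrrCharacter T, mm ι ψ 1 ≠ 0 → xx θ ψ ≤ 1) (hne : dg θ ≠ 1) : False := by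
  classical
  have hq' : p ≤ Nat.card Pa := le_trans (Nat.le_self_pow (by norm_num) p) hq
  have hdg := dg_eq hF h hq' hg hp3
  have hW := dg_eq_card hF h hq' hg hp3
  have hbd := hg.bd
  have hS0 := sum_Fam_mX_le hF h hq' hg hp3
  have hm1 := mX_one hF h hq' hg hp3
  have hsx := sum_xx_dg θ
  have hFc := card_Fam h (1 : A →* ℂˣ)
  set e : ℤ := dg θ with he
  have hepos : 0 < e := dg_pos θ
  have heodd : Odd e := hodd θ
  have he3 : 3 ≤ e := by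
    obtain ⟨k, hk⟩ := heodd
    omega
  -- numerics on `p`
  have hp2e : 2 * e + 1 ≤ (p : ℤ) := by
    have : (2 * (Wt ι θ).card + 1 : ℕ) ≤ p := by omega
    rw [hW]
    exact_mod_cast this
  have hqZ : (p : ℤ) ^ 2 ≤ (Nat.card Pa : ℤ) := by exact_mod_cast hq
  have hq1 : (1 : ℕ) ≤ Nat.card Pa := Nat.card_pos
  -- an orbit with zero multiplicity in `X`
  have hex : ∃ l ∈ Fam Pa Ba (1 : A →* ℂˣ), mX ι θ l = 0 := by
    by_contra hall
    push Not at hall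
    have h1 : (((Fam Pa Ba (1 : A →* ℂˣ)).card : ℕ) : ℤ) ≤ ∑ μ ∈ Fam Pa Ba (1 : A →* ℂˣ), mX ι θ μ := by
      have : ∑ _μ ∈ Fam Pa Ba (1 : A →* ℂˣ), (1 : ℤ) ≤ ∑ μ ∈ Fam Pa Ba (1 : A →* ℂˣ), mX ι θ μ :=
        Finset.sum_le_sum fun μ hμ => lt_of_le_of_ne (mX_nonneg ι θ μ) (Ne.symm (hall μ hμ))
      simpa using this
    rw [hFc] at h1
    have h2 : ((Nat.card Pa - 1 : ℕ) : ℤ) = (Nat.card Pa : ℤ) - 1 := by
      rw [Nat.cast_sub hq1]
      simp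
    rw [h2] at h1
    nlinarith
  obtain ⟨l, hl, hl0⟩ := hex
  have hl' := mem_Fam.1 hl
  have hS := sum_mm_sq_one (T := T) (ι := ι) hF h hl'.1 hl'.2
  have hlne : l ≠ 1 := by
    rintro rfl
    obtain ⟨u, _, hu⟩ := hl'.2
    exact hu rfl
  have hz : ∀ ψ : IrrCharacter T, xx θ ψ ≠ 0 → mm ι ψ l = 0 := by
    intro ψ hψ
    have h1 := (Finset.sum_eq_zero_iff_of_nonneg
      (fun ψ _ => mul_nonneg (xx_nonneg θ ψ) (mm_nonneg ι ψ l))).1 hl0 ψ (Finset.mem_univ _)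
    rcases mul_eq_zero.1 h1 with h2 | h2
    · exact absurd h2 hψ
    · exact h2
  have hQ1 : mm ι (oneT T) (1 : A →* ℂˣ) = 1 := by rw [mm_oneT, if_pos rfl]
  have hl1 : mm ι (oneT T) l = 0 := by rw [mm_oneT, if_neg hlne]
  set Q : IrrCharacter T → ℤ := fun ψ => mm ι ψ 1 with hQ
  let QQ : Finset (IrrCharacter T) := Finset.univ.filter fun ψ => ψ ≠ oneT T ∧ xx θ ψ ≠ 0 ∧ Q ψ ≠ 0
  have hQQ : ∀ ψ ∈ QQ, ψ ≠ oneT T ∧ xx θ ψ = 1 ∧ 1 ≤ Q ψ ∧ mm ι ψ l = 0 := by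
    intro ψ hψ
    simp only [QQ, Finset.mem_filter, Finset.mem_univ, true_and] at hψ
    refine ⟨hψ.1, ?_, lt_of_le_of_ne (mm_nonneg ι ψ 1) (Ne.symm hψ.2.2), hz ψ hψ.2.1⟩
    have h1 := hx ψ hψ.2.2
    have h2 := xx_nonneg θ ψ
    have h3 := hψ.2.1
    omega
  have hQQsub : QQ ⊆ Finset.univ.erase (oneT T) := by
    intro ψ hψ
    exact Finset.mem_erase.2 ⟨(hQQ ψ hψ).1, Finset.mem_univ _⟩
  -- the norm relation
  have h1 : ∑ ψ ∈ QQ, Q ψ * Q ψ ≤ e := by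
    rw [← Finset.add_sum_erase _ _ (Finset.mem_univ (oneT T)), hQ1, hl1] at hS
    have h2 : ∑ ψ ∈ QQ, Q ψ * Q ψ ≤
        ∑ ψ ∈ Finset.univ.erase (oneT T), (mm ι ψ 1 - mm ι ψ l) * (mm ι ψ 1 - mm ι ψ l) := by
      refine le_trans (le_of_eq (Finset.sum_congr rfl fun ψ hψ => ?_))
        (Finset.sum_le_sum_of_subset_of_nonneg hQQsub (fun ψ _ _ => mul_self_nonneg _))
      rw [(hQQ ψ hψ).2.2.2, sub_zero]
    have h3 : e = Fintype.card Γ := hdg
    have h4 : ((1 : ℤ) - 0) * (1 - 0) = 1 := by norm_num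
    rw [h4] at hS
    linarith
  -- the sum relation
  have h2 : ∑ ψ ∈ QQ, Q ψ = e - 1 := by
    have h3 : mX ι θ 1 = ∑ ψ : IrrCharacter T, xx θ ψ * Q ψ := rfl
    rw [← Finset.add_sum_erase _ _ (Finset.mem_univ (oneT T)), xx_one] at h3
    have h4 : Q (oneT T) = 1 := hQ1
    rw [h4] at h3
    have h5 : ∑ ψ ∈ Finset.univ.erase (oneT T), xx θ ψ * Q ψ = ∑ ψ ∈ QQ, xx θ ψ * Q ψ := by
      symm
      apply Finset.sum_subset hQQsub
      intro ψ hψ hψ'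
      have h6 := (Finset.mem_erase.1 hψ).1
      by_contra hne'
      apply hψ'
      simp only [QQ, Finset.mem_filter, Finset.mem_univ, true_and]
      refine ⟨h6, fun h7 => hne' (by rw [h7, zero_mul]), fun h7 => hne' (by rw [h7, mul_zero])⟩
    rw [h5, Finset.sum_congr rfl fun ψ hψ => by rw [(hQQ ψ hψ).2.1, one_mul]] at h3
    linarith
  -- all `Q` are one
  have h3 : ∀ ψ ∈ QQ, Q ψ = 1 := by
    intro ψ hψ
    by_contra hne'
    have h4 := (hQQ ψ hψ).2.2.1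
    have h5 : 2 ≤ Q ψ := by omega
    have h6 : ∑ φ ∈ QQ, (Q φ * Q φ - Q φ) ≤ 1 := by
      rw [Finset.sum_sub_distrib, h2]
      linarith
    have h7 : Q ψ * Q ψ - Q ψ ≤ ∑ φ ∈ QQ, (Q φ * Q φ - Q φ) := by
      refine Finset.single_le_sum (f := fun φ => Q φ * Q φ - Q φ) (fun φ hφ => ?_) hψ
      have := (hQQ φ hφ).2.2.1
      change 0 ≤ Q φ * Q φ - Q φ
      nlinarith
    nlinarith
  have h4 : (QQ.card : ℤ) = e - 1 := by
    rw [← h2, Finset.sum_congr rfl h3]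
    simp
  -- degrees
  have h5 : ∀ ψ ∈ QQ, e + 2 ≤ dg ψ := by
    intro ψ hψ
    obtain ⟨hψ1, _, hψ3, _⟩ := hQQ ψ hψ
    obtain ⟨ν, hν, hν0⟩ := hgen ψ hψ1
    have h6 := dg_ge hF h ψ hν hν0 (by
      change Q ψ ≠ 0
      omega)
    rw [← hdg] at h6
    obtain ⟨k, hk⟩ := hodd ψ
    obtain ⟨j, hj⟩ := heodd
    omega
  have h6 : (e - 1) * (e + 2) ≤ e * e - 1 := by
    have h7 : ∑ ψ ∈ QQ, (e + 2) ≤ ∑ ψ ∈ QQ, dg ψ := Finset.sum_le_sum h5
    rw [Finset.sum_const, nsmul_eq_mul, h4] at h7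
    rw [← Finset.add_sum_erase _ _ (Finset.mem_univ (oneT T)), xx_one, dg_oneT] at hsx
    have h8 : ∑ ψ ∈ QQ, dg ψ ≤ ∑ ψ ∈ Finset.univ.erase (oneT T), xx θ ψ * dg ψ := by
      refine le_trans (le_of_eq (Finset.sum_congr rfl fun ψ hψ => ?_))
        (Finset.sum_le_sum_of_subset_of_nonneg hQQsub
          (fun ψ _ _ => mul_nonneg (xx_nonneg θ ψ) (dg_pos ψ).le))
      rw [(hQQ ψ hψ).2.1, one_mul]
    linarith
  nlinarith

end Good

end Cfsg.Agent.Lib.RankOneOdd.XChar
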