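import Mathlib
import Cfsg.Agent.Lib.RankOneOdd.XChar
import Cfsg.Agent.Lib.RankOneOdd.Sunflower

/-!
# The case of a Sylow subgroup of prime order
-/

set_option autoImplicit false
set_option linter.unusedSectionVars false

namespace Cfsg.Agent.Lib.RankOneOdd.CaseB

open Cfsg Module
open Cfsg.Agent.Lib.Char.Basic Cfsg.Agent.Lib.Char.Ortho Cfsg.Agent.Lib.Char.Complete
open Cfsg.Agent.Lib.Char.Linear Cfsg.Agent.Lib.RankOneOdd.Weights Cfsg.Agent.Lib.RankOneOdd.Master
open Cfsg.Agent.Lib.RankOneOdd.Family Cfsg.Agent.Lib.RankOneOdd.Struct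
open Cfsg.Agent.Lib.RankOneOdd.XChar Cfsg.Agent.Lib.RankOneOdd.Sunflower
open scoped ComplexConjugate

universe u v

variable {T : Type u} [Group T] [Fintype T] {A : Type v} [CommGroup A] [Fintype A]
variable {ι : A →* T} {Γ : Subgroup (MulAut A)} {p : ℕ} {Pa Ba : Subgroup A}
variable [Fintype (IrrCharacter T)] [Fintype (A →* ℂˣ)] [Fintype Γ]
variable {θ : IrrCharacter T}

theorem not_one_of_mem_Fam {l : A →* ℂˣ} (hl : l ∈ Fam Pa Ba (1 : A →* ℂˣ)) : l ≠ 1 := by
  rintro rfl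
  obtain ⟨u, _, hu⟩ := (mem_Fam.1 hl).2
  exact hu rfl

theorem SF_of_mem_Fam {l l' : A →* ℂˣ} (hl : l ∈ Fam Pa Ba (1 : A →* ℂˣ))
    (hl' : l' ∈ Fam Pa Ba (1 : A →* ℂˣ)) : SF Ba l l' := fun b hb => by
  rw [← (mem_Fam.1 hl).1 b hb, (mem_Fam.1 hl').1 b hb]

/-- The vectors of two characters in the family of `1`. -/
theorem vec_dichotomy (hF : TIFrame ι Γ p) (h : PB p Pa Ba) {l l' : A →* ℂˣ}
    (hl : l ∈ Fam Pa Ba (1 : A →* ℂˣ)) (hl' : l' ∈ Fam Pa Ba (1 : A →* ℂˣ)) :
    (fun ψ : IrrCharacter T => mm ι ψ l) = (fun ψ => mm ι ψ l') ∨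
      Diff2 (fun ψ : IrrCharacter T => mm ι ψ l) (fun ψ => mm ι ψ l') := by
  classical
  by_cases hc : Cj Γ l l'
  · left
    obtain ⟨γ, hγ, rfl⟩ := hc
    funext ψ
    rw [mm_tw hF ψ l hγ]
  · right
    have h1 := sum_mm_sq_of_not_cj (T := T) (ι := ι) hF h (SF_of_mem_Fam hl hl') (mem_Fam.1 hl).2
      (mem_Fam.1 hl').2 hc
    have h2 := sum_mm_sub_deg (T := T) (ι := ι) hF l l' dg dg_spec
    obtain ⟨a, b, hab, hd⟩ := norm2_form (fun ψ : IrrCharacter T => mm ι ψ l - mm ι ψ l') dg dg_pos h1 h2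
    exact ⟨a, b, hab, hd⟩

set_option maxHeartbeats 4000000 in
/-- **The case of a Sylow subgroup of prime order**, given the block data. -/
theorem caseB (hF : TIFrame ι Γ p) (h : PB p Pa Ba) (hqe : Nat.card Pa = p) (hg : Good ι Pa p θ)
    (hp3 : 3 ≤ p) (hodd : ∀ ψ : IrrCharacter T, Odd (dg ψ))
    (hgen : ∀ ψ : IrrCharacter T, ψ ≠ oneT T → ∃ ν, NT Pa ν ∧ mm ι ψ ν ≠ 0) (hne : dg θ ≠ 1)
    (Bz : IrrCharacter T → Prop)
    (b1 : ∀ ψ, ¬ Bz ψ → ∀ l ∈ Fam Pa Ba (1 : A →* ℂˣ), mm ι ψ 1 = mm ι ψ l)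
    (b2 : ∀ ψ, Bz ψ → (p : ℤ) ∣ dg ψ - (mm ι ψ 1 + ∑ l ∈ Fam Pa Ba (1 : A →* ℂˣ), mm ι ψ l))
    (b3 : ∀ ψ, Bz ψ → (p : ℤ) ∣ dg ψ - 1 ∨ (p : ℤ) ∣ dg ψ + 1 ∨ (p : ℤ) ∣ dg ψ - dg θ ∨
      (p : ℤ) ∣ dg ψ + dg θ) : False := by
  classical
  have hq' : p ≤ Nat.card Pa := hqe.ge
  have hdg := dg_eq hF h hq' hg hp3
  have hW := dg_eq_card hF h hq' hg hp3
  have hbd := hg.bd
  have hS0 := sum_Fam_mX_le hF h hq' hg hp3
  have hm1 := mX_one hF h hq' hg hp3
  have hsx := sum_xx_dg θ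
  have hLc := card_Fam h (1 : A →* ℂˣ)
  rw [hqe] at hLc
  set L := Fam Pa Ba (1 : A →* ℂˣ) with hL
  set e : ℤ := dg θ with he
  have hepos : 0 < e := dg_pos θ
  have heodd : Odd e := hodd θ
  have he3 : 3 ≤ e := by
    obtain ⟨k, hk⟩ := heodd
    omega
  have hp2e : 2 * e + 1 ≤ (p : ℤ) := by
    have : (2 * (Wt ι θ).card + 1 : ℕ) ≤ p := by omega
    rw [hW]
    exact_mod_cast this
  have hpodd : Odd p := h.prime.eq_two_or_odd'.resolve_left (by omega)
  have hpZ : Odd (p : ℤ) := by exact_mod_cast hpodd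
  haveI : Nonempty (IrrCharacter T) := ⟨oneT T⟩
  -- the sunflower
  obtain ⟨M, s, hs, hk⟩ := sunflower L (fun l (ψ : IrrCharacter T) => mm ι ψ l)
    (fun l hl l' hl' => vec_dichotomy hF h hl hl')
  choose! f hf using hk
  have hss : s * s = 1 := by
    rcases hs with rfl | rfl <;> norm_num
  have hs0 : s ≠ 0 := by
    rcases hs with rfl | rfl <;> norm_num
  have hfL : ∀ l ∈ L, ∀ ψ, mm ι ψ l = M ψ + s * dl (f l) ψ := hf
  -- `f` separates the classes
  have hfCj : ∀ l ∈ L, ∀ l' ∈ L, f l = f l' ↔ Cj Γ l l' := by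
    intro l hl l' hl'
    constructor
    · intro e1
      by_contra hc
      have h1 := sum_mm_sq_of_not_cj (T := T) (ι := ι) hF h (SF_of_mem_Fam hl hl') (mem_Fam.1 hl).2
        (mem_Fam.1 hl').2 hc
      rw [Finset.sum_eq_zero] at h1
      · norm_num at h1
      · intro ψ _
        rw [hfL l hl ψ, hfL l' hl' ψ, e1]
        ring
    · rintro ⟨γ, hγ, rfl⟩
      have h1 := hfL _ hl' (f l)
      rw [mm_tw hF _ l hγ, hfL l hl (f l), dl_self] at h1
      have h2 : s = s * dl (f (tw l γ)) (f l) := by linarith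
      by_contra hne'
      rw [dl_ne hne'] at h2
      rw [mul_zero] at h2
      exact hs0 h2
  -- the fibres
  have hfib : ∀ l₀ ∈ L, (L.filter fun l => f l = f l₀).card = Fintype.card Γ := by
    intro l₀ hl₀
    rw [← Finset.card_univ]
    symm
    have h1 := mem_Fam.1 hl₀
    refine Finset.card_bij (fun (γ : Γ) _ => tw l₀ (γ : MulAut A)) ?_ ?_ ?_
    · intro γ _
      have hmem : tw l₀ (γ : MulAut A) ∈ L := by
        rw [hL, mem_Fam]
        refine ⟨?_, NT_tw h h1.2 _⟩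
        intro b hb
        have := h1.1 _ (aut_memB h (γ : MulAut A) hb)
        simpa using this
      simp only [Finset.mem_filter]
      exact ⟨hmem, ((hfCj _ hl₀ _ hmem).2 ⟨γ, γ.2, rfl⟩).symm⟩
    · intro γ _ γ' _ e1
      have h3 : tw l₀ ((γ : MulAut A) * (γ' : MulAut A)⁻¹) = l₀ := by
        rw [← tw_mul, e1, tw_mul, mul_inv_cancel, tw_one]
      have h4 := tw_free hF h (mul_mem γ.2 (inv_mem γ'.2)) h1.2 h3
      rw [mul_inv_eq_one] at h4
      exact Subtype.ext h4
    · intro l hl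
      simp only [Finset.mem_filter] at hl
      obtain ⟨γ, hγ, rfl⟩ := (hfCj _ hl₀ _ hl.1).1 hl.2.symm
      exact ⟨⟨γ, hγ⟩, Finset.mem_univ _, rfl⟩
  -- the number of classes
  set C := L.image f with hC
  set c : ℤ := (C.card : ℤ) with hcdef
  have hLcc : L.card = C.card * Fintype.card Γ := by
    rw [Finset.card_eq_sum_card_image f L]
    rw [Finset.sum_congr rfl (g := fun _ => Fintype.card Γ)]
    · simp [hC]
    · intro k hk'
      obtain ⟨l₀, hl₀, rfl⟩ := Finset.mem_image.1 hk'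
      exact hfib l₀ hl₀
  have hpc : (p : ℤ) = c * e + 1 := by
    have h1 : ((p - 1 : ℕ) : ℤ) = (p : ℤ) - 1 := by
      rw [Nat.cast_sub (by omega)]
      simp
    have h2 : ((p - 1 : ℕ) : ℤ) = c * e := by
      rw [← hLc, hLcc, hdg]
      push_cast
      rfl
    linarith
  have hc2 : 2 ≤ c := by
    by_contra hlt
    have hlt' : c ≤ 1 := by omega
    nlinarith
  -- two different values of `f`
  have hCc : 1 < C.card := by
    have : (1 : ℤ) < (C.card : ℤ) := by omega
    exact_mod_cast this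
  obtain ⟨k₁, hk₁, k₂, hk₂, hk12⟩ := Finset.one_lt_card.1 hCc
  obtain ⟨l₁, hl₁, rfl⟩ := Finset.mem_image.1 hk₁
  obtain ⟨l₂, hl₂, rfl⟩ := Finset.mem_image.1 hk₂
  -- the principal character
  have hm1L : ∀ l ∈ L, mm ι (oneT T) l = 0 := fun l hl => by
    rw [mm_oneT, if_neg (not_one_of_mem_Fam hl)]
  have hC1 : ∀ l ∈ L, f l ≠ oneT T := by
    intro l hl e1
    have h1 := hfL l hl (oneT T)
    rw [hm1L l hl, e1, dl_self, mul_one] at h1
    obtain ⟨l', hl', hne'⟩ : ∃ l' ∈ L, f l' ≠ oneT T := by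
      by_cases h2 : f l₁ = oneT T
      · exact ⟨l₂, hl₂, fun h3 => hk12 (h2.trans h3.symm)⟩
      · exact ⟨l₁, hl₁, h2⟩
    have h2 := hfL l' hl' (oneT T)
    rw [hm1L l' hl', dl_ne (Ne.symm hne'), mul_zero, add_zero] at h2
    rw [← h2, zero_add] at h1
    exact hs0 h1.symm
  have hM1 : M (oneT T) = 0 := by
    have h2 := hfL l₁ hl₁ (oneT T)
    rw [hm1L l₁ hl₁, dl_ne (Ne.symm (hC1 l₁ hl₁)), mul_zero, add_zero] at h2
    exact h2.symm
  -- the vector `R`
  set R : IrrCharacter T → ℤ := fun ψ => mm ι ψ 1 - M ψ with hR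
  have hQ1 : mm ι (oneT T) (1 : A →* ℂˣ) = 1 := by rw [mm_oneT, if_pos rfl]
  have hR1 : R (oneT T) = 1 := by
    simp only [hR, hQ1, hM1, sub_zero]
  have hRl : ∀ l ∈ L, ∀ ψ, mm ι ψ 1 - mm ι ψ l = R ψ - s * dl (f l) ψ := by
    intro l hl ψ
    rw [hfL l hl ψ]
    simp only [hR]
    ring
  set N : ℤ := ∑ ψ : IrrCharacter T, R ψ * R ψ with hN
  have hNl : ∀ l ∈ L, N - 2 * s * R (f l) + 1 = 1 + e := by
    intro l hl
    have h1 := sum_mm_sq_one (T := T) (ι := ι) hF h (mem_Fam.1 hl).1 (mem_Fam.1 hl).2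
    rw [← hdg] at h1
    have h2 : ∑ ψ : IrrCharacter T, (mm ι ψ 1 - mm ι ψ l) * (mm ι ψ 1 - mm ι ψ l) =
        N - 2 * s * R (f l) + 1 := by
      simp_rw [hRl l hl]
      have h3 : ∀ ψ : IrrCharacter T, (R ψ - s * dl (f l) ψ) * (R ψ - s * dl (f l) ψ) =
          R ψ * R ψ - 2 * s * (R ψ * dl (f l) ψ) + (s * s) * (dl (f l) ψ * dl (f l) ψ) := fun ψ => by ring
      simp_rw [h3]
      rw [Finset.sum_add_distrib, Finset.sum_sub_distrib, ← Finset.mul_sum, ← Finset.mul_sum,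
        sum_mul_dl, sum_dl_mul_dl, hss]
      ring
    rw [← h2, h1]
  set g : ℤ := R (f l₁) with hg'
  have hRC : ∀ l ∈ L, R (f l) = g := by
    intro l hl
    have h1 := hNl l hl
    have h2 := hNl l₁ hl₁
    have h3 : s * (R (f l) - g) = 0 := by
      rw [hg'] 
      linarith
    rcases mul_eq_zero.1 h3 with h4 | h4
    · exact absurd h4 hs0
    · linarith
  set h₀ : ℤ := s * g with hh₀
  have hNe : N = e + 2 * h₀ := by
    have h1 := hNl l₁ hl₁
    rw [← hg'] at h1
    rw [hh₀]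
    linarith
  have hgg : h₀ * h₀ = g * g := by
    rw [hh₀]
    calc s * g * (s * g) = (s * s) * (g * g) := by ring
      _ = g * g := by rw [hss, one_mul]
  -- the norm bound
  have hbound : ∀ ψ₀, ψ₀ ∉ C → ψ₀ ≠ oneT T → 1 + c * (g * g) + R ψ₀ * R ψ₀ ≤ N := by
    intro ψ₀ h1 h2
    have h3 : oneT T ∉ insert ψ₀ C := by
      rw [Finset.mem_insert]
      rintro (h4 | h4)
      · exact h2 h4.symm
      · obtain ⟨l, hl, e1⟩ := Finset.mem_image.1 h4
        exact hC1 l hl e1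
    have h4 : ∑ ψ ∈ insert (oneT T) (insert ψ₀ C), R ψ * R ψ ≤ N :=
      Finset.sum_le_sum_of_subset_of_nonneg (Finset.subset_univ _) fun ψ _ _ => mul_self_nonneg _
    rw [Finset.sum_insert h3, Finset.sum_insert h1, hR1] at h4
    have h5 : ∑ ψ ∈ C, R ψ * R ψ = c * (g * g) := by
      rw [Finset.sum_congr rfl (g := fun _ => g * g)]
      · simp [hcdef]
      · intro k hk'
        obtain ⟨l, hl, rfl⟩ := Finset.mem_image.1 hk'
        rw [hRC l hl]
    rw [h5] at h4
    linarith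
  have hbound0 : 1 + c * (g * g) ≤ N := by
    have h3 : oneT T ∉ C := by
      intro h4
      obtain ⟨l, hl, e1⟩ := Finset.mem_image.1 h4
      exact hC1 l hl e1
    have h4 : ∑ ψ ∈ insert (oneT T) C, R ψ * R ψ ≤ N :=
      Finset.sum_le_sum_of_subset_of_nonneg (Finset.subset_univ _) fun ψ _ _ => mul_self_nonneg _
    rw [Finset.sum_insert h3, hR1] at h4
    have h5 : ∑ ψ ∈ C, R ψ * R ψ = c * (g * g) := by
      rw [Finset.sum_congr rfl (g := fun _ => g * g)]
      · simp [hcdef]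
      · intro k hk'
        obtain ⟨l, hl, rfl⟩ := Finset.mem_image.1 hk'
        rw [hRC l hl]
    rw [h5] at h4
    linarith
  -- the degree congruences
  have hsum : ∀ ψ, mm ι ψ 1 + ∑ l ∈ L, mm ι ψ l =
      R ψ + p * M ψ + s * ((L.filter fun l => f l = ψ).card : ℤ) := by
    intro ψ
    have h1 : ∑ l ∈ L, mm ι ψ l = (L.card : ℤ) * M ψ + s * ((L.filter fun l => f l = ψ).card : ℤ) := by
      rw [Finset.sum_congr rfl fun l hl => hfL l hl ψ, Finset.sum_add_distrib, Finset.sum_const,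
        nsmul_eq_mul, ← Finset.mul_sum]
      congr 2
      rw [Finset.card_filter]
      push_cast
      refine Finset.sum_congr rfl fun l _ => ?_
      unfold dl
      by_cases h2 : ψ = f l
      · rw [if_pos h2, if_pos h2.symm]
      · rw [if_neg h2, if_neg (Ne.symm h2)]
    have h2 : (L.card : ℤ) = (p : ℤ) - 1 := by
      rw [hLc, Nat.cast_sub (by omega)]
      simp
    rw [h1, h2]
    simp only [hR]
    ring
  have hcongC : ∀ l ∈ L, Bz (f l) → (p : ℤ) ∣ dg (f l) - (g + s * e) := by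
    intro l hl hb
    have h1 := b2 _ hb
    rw [hsum, hfib l hl, ← hdg, hRC l hl] at h1
    have h2 : dg (f l) - (g + ↑p * M (f l) + s * e) = dg (f l) - (g + s * e) - ↑p * M (f l) := by ring
    rw [h2] at h1
    exact (dvd_sub_left (dvd_mul_right _ _)).1 h1
  have hcongN : ∀ ψ, ψ ∉ C → Bz ψ → (p : ℤ) ∣ dg ψ - R ψ := by
    intro ψ hψ hb
    have h1 := b2 _ hb
    rw [hsum] at h1
    have h0 : (L.filter fun l => f l = ψ) = ∅ := by
      rw [Finset.filter_eq_empty_iff]
      intro l hl e1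
      exact hψ (Finset.mem_image.2 ⟨l, hl, e1⟩)
    rw [h0] at h1
    simp only [Finset.card_empty, Nat.cast_zero, mul_zero, add_zero] at h1
    have h2 : dg ψ - (R ψ + ↑p * M ψ) = dg ψ - R ψ - ↑p * M ψ := by ring
    rw [h2] at h1
    exact (dvd_sub_left (dvd_mul_right _ _)).1 h1
  have hBzC : ∀ l ∈ L, Bz (f l) := by
    intro l hl
    by_contra hb
    have h1 := b1 _ hb
    obtain ⟨l', hl', hne'⟩ : ∃ l' ∈ L, f l' ≠ f l := by
      by_cases h2 : f l₁ = f l
      · exact ⟨l₂, hl₂, fun h3 => hk12 (h2.trans h3.symm)⟩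
      · exact ⟨l₁, hl₁, h2⟩
    have h2 := h1 l hl
    have h3 := h1 l' hl'
    rw [h2] at h3
    rw [hfL l hl (f l), hfL l' hl' (f l), dl_self, dl_ne (Ne.symm hne')] at h3
    apply hs0
    linarith
  -- the arithmetic of `h₀`
  have hhc : h₀ = 0 ∨ (c = 2 ∧ h₀ = 1) := by
    apply arith_one hc2 he3 hpc
    · have h1 := hbound0
      rw [hNe, ← hgg] at h1
      linarith
    · have h1 := hcongC l₁ hl₁ (hBzC l₁ hl₁)
      have h2 := b3 _ (hBzC l₁ hl₁)
      have h3 : ∀ x : ℤ, (p : ℤ) ∣ dg (f l₁) - x → (p : ℤ) ∣ s * (g + s * e - x) := by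
        intro x hx
        have h4 : g + s * e - x = (dg (f l₁) - x) - (dg (f l₁) - (g + s * e)) := by ring
        rw [h4]
        exact Dvd.dvd.mul_left (dvd_sub hx h1) _
      have h5 : ∀ x : ℤ, s * (g + s * e - x) = h₀ + e - s * x := by
        intro x
        rw [hh₀]
        calc s * (g + s * e - x) = s * g + (s * s) * e - s * x := by ring
          _ = _ := by rw [hss, one_mul]
      rcases h2 with h2 | h2 | h2 | h2
      · have h6 := h3 1 h2
        rw [h5] at h6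
        rcases hs with hs | hs <;> rw [hs] at h6
        · left; simpa using h6
        · right; left; simpa using h6
      · have h6 := h3 (-1) (by simpa using h2)
        rw [h5] at h6
        rcases hs with hs | hs <;> rw [hs] at h6
        · right; left; simpa using h6
        · left
          have e1 : h₀ + e - -1 * -1 = h₀ + e - 1 := by ring
          rwa [e1] at h6
      · have h6 := h3 e h2
        rw [h5] at h6
        rcases hs with hs | hs <;> rw [hs] at h6
        · right; right; left; simpa using h6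
        · right; right; right
          have e1 : h₀ + e - -1 * e = h₀ + e + e := by ring
          rwa [e1] at h6
      · have h6 := h3 (-e) (by simpa using h2)
        rw [h5] at h6
        rcases hs with hs | hs <;> rw [hs] at h6
        · right; right; right
          have e1 : h₀ + e - 1 * -e = h₀ + e + e := by ring
          rwa [e1] at h6
        · right; right; left
          have e1 : h₀ + e - -1 * -e = h₀ + e - e := by ring
          rwa [e1] at h6
  -- the bound for the other characters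
  have hRsq : ∀ ψ, ψ ∉ C → ψ ≠ oneT T → R ψ * R ψ ≤ e - 1 := by
    intro ψ h1 h2
    have h3 := hbound ψ h1 h2
    rw [hNe, ← hgg] at h3
    rcases hhc with h4 | ⟨h4, h5⟩
    · rw [h4] at h3
      nlinarith
    · rw [h4, h5] at h3
      linarith
  -- the averaging
  have hLne : L.Nonempty := ⟨l₁, hl₁⟩
  obtain ⟨l₀, hl₀, hl₀m⟩ : ∃ l₀ ∈ L, (L.card : ℤ) * mX ι θ l₀ ≤ ∑ μ ∈ L, mX ι θ μ := by
    apply Finset.exists_le_of_sum_le hLne
    rw [← Finset.mul_sum, Finset.sum_const, nsmul_eq_mul]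
  have hm2 : 2 * mX ι θ l₀ ≤ e - 1 := by
    have h1 : (L.card : ℤ) = c * e := by
      rw [hLcc, hdg]
      push_cast
      rfl
    rw [h1] at hl₀m
    have h2 : c * e * mX ι θ l₀ ≤ e * (e - 1) := by
      have : e * (e - 1) = e * e - e := by ring
      linarith
    have h3 : c * mX ι θ l₀ ≤ e - 1 := by
      have h4 : e * (c * mX ι θ l₀) ≤ e * (e - 1) := by
        calc e * (c * mX ι θ l₀) = c * e * mX ι θ l₀ := by ring
          _ ≤ _ := h2
      exact le_of_mul_le_mul_left h4 hepos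
    have h4 := mX_nonneg ι θ l₀
    have h5 : 2 * mX ι θ l₀ ≤ c * mX ι θ l₀ := mul_le_mul_of_nonneg_right hc2 h4
    linarith
  -- the key claim
  have hstar : ∀ ψ, ψ ≠ oneT T → 1 ≤ mm ι ψ 1 - mm ι ψ l₀ →
      (mm ι ψ 1 - mm ι ψ l₀ = 1 ∧ 3 * e + 2 ≤ dg ψ) := by
    intro ψ hψ1 hr
    have hdgpos := dg_pos ψ
    have hoddψ := hodd ψ
    have hQpos : mm ι ψ 1 ≠ 0 := by
      have := mm_nonneg ι ψ l₀
      omega
    rw [hRl l₀ hl₀ ψ] at hr ⊢
    by_cases hψC : ψ ∈ C
    · obtain ⟨l, hl, rfl⟩ := Finset.mem_image.1 hψC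
      have hRf := hRC l hl
      have hcg := hcongC l hl (hBzC l hl)
      by_cases hll : f l = f l₀
      · rw [hll, dl_self, mul_one, hRC l₀ hl₀] at hr ⊢
        rw [hll] at hcg hoddψ hdgpos
        rcases hhc with h4 | ⟨_, h5⟩
        · have hg0 : g = 0 := by
            rcases mul_eq_zero.1 h4 with h6 | h6
            · exact absurd h6 hs0
            · exact h6
          rw [hg0] at hr hcg ⊢
          rcases hs with hs' | hs'
          · rw [hs'] at hr
            norm_num at hr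
          · rw [hs'] at hr hcg ⊢
            refine ⟨by norm_num, ?_⟩
            have h6 : dg (f l₀) - (0 + -1 * e) = dg (f l₀) + e := by ring
            rw [h6] at hcg
            exact arith_four he3 hp2e hpZ hoddψ heodd hcg hdgpos
        · exfalso
          have hgs : g = s := by
            rcases hs with hs' | hs'
            · rw [hh₀, hs'] at h5
              rw [hs']
              linarith
            · rw [hh₀, hs'] at h5
              rw [hs']
              linarith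
          rw [hgs] at hr
          omega
      · rw [dl_ne hll, mul_zero, sub_zero, hRf] at hr ⊢
        rcases hhc with h4 | ⟨_, h5⟩
        · have hg0 : g = 0 := by
            rcases mul_eq_zero.1 h4 with h6 | h6
            · exact absurd h6 hs0
            · exact h6
          rw [hg0] at hr
          norm_num at hr
        · have hgs : g = s := by
            rcases hs with hs' | hs'
            · rw [hh₀, hs'] at h5
              rw [hs']
              linarith
            · rw [hh₀, hs'] at h5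
              rw [hs']
              linarith
          rw [hgs] at hr hcg ⊢
          rcases hs with hs' | hs'
          · rw [hs'] at hr hcg ⊢
            refine ⟨rfl, ?_⟩
            have h6 : dg (f l) - (1 + 1 * e) = dg (f l) - (1 + e) := by ring
            rw [h6] at hcg
            exact arith_five he3 hp2e hoddψ heodd hcg hdgpos
          · rw [hs'] at hr
            norm_num at hr
    · have hne0 : ψ ≠ f l₀ := fun e1 => hψC (Finset.mem_image.2 ⟨l₀, hl₀, e1.symm⟩)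
      rw [dl_ne hne0, mul_zero, sub_zero] at hr ⊢
      have hBψ : Bz ψ := by
        by_contra hb
        have h1 := b1 ψ hb l₀ hl₀
        have h2 := hRl l₀ hl₀ ψ
        rw [dl_ne hne0, mul_zero, sub_zero, h1, sub_self] at h2
        omega
      have hcg := hcongN ψ hψC hBψ
      have h3 : (p : ℤ) ∣ R ψ - 1 ∨ (p : ℤ) ∣ R ψ + 1 ∨ (p : ℤ) ∣ R ψ - e ∨ (p : ℤ) ∣ R ψ + e := by
        rcases b3 ψ hBψ with h2 | h2 | h2 | h2
        · left
          have h4 : R ψ - 1 = (dg ψ - 1) - (dg ψ - R ψ) := by ring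
          rw [h4]
          exact dvd_sub h2 hcg
        · right; left
          have h4 : R ψ + 1 = (dg ψ + 1) - (dg ψ - R ψ) := by ring
          rw [h4]
          exact dvd_sub h2 hcg
        · right; right; left
          have h4 : R ψ - e = (dg ψ - e) - (dg ψ - R ψ) := by ring
          rw [h4]
          exact dvd_sub h2 hcg
        · right; right; right
          have h4 : R ψ + e = (dg ψ + e) - (dg ψ - R ψ) := by ring
          rw [h4]
          exact dvd_sub h2 hcg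
      have hR1' : R ψ = 1 := arith_two he3 hp2e hr (hRsq ψ hψC hψ1) h3
      refine ⟨hR1', ?_⟩
      rw [hR1'] at hcg
      obtain ⟨ν, hν, hν0⟩ := hgen ψ hψ1
      have h6 := dg_ge hF h ψ hν hν0 hQpos
      rw [← hdg] at h6
      exact arith_three he3 hp2e hpZ hoddψ hcg (by omega)
  -- the final count
  have hsum1 : ∑ ψ : IrrCharacter T, xx θ ψ * (mm ι ψ 1 - mm ι ψ l₀) = e - mX ι θ l₀ := by
    rw [← hm1, mX, mX, ← Finset.sum_sub_distrib]
    exact Finset.sum_congr rfl fun ψ _ => by ring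
  rw [← Finset.add_sum_erase _ _ (Finset.mem_univ (oneT T)), xx_one, hQ1, hm1L l₀ hl₀] at hsum1
  rw [← Finset.add_sum_erase _ _ (Finset.mem_univ (oneT T)), xx_one, dg_oneT] at hsx
  set E := Finset.univ.erase (oneT T) with hE
  set U := E.filter fun ψ => 1 ≤ mm ι ψ 1 - mm ι ψ l₀ with hU
  have hUm : ∀ ψ ∈ U, ψ ≠ oneT T ∧ mm ι ψ 1 - mm ι ψ l₀ = 1 ∧ 3 * e + 2 ≤ dg ψ := by
    intro ψ hψ
    simp only [hU, hE, Finset.mem_filter, Finset.mem_erase, Finset.mem_univ, and_true] at hψ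
    have := hstar ψ hψ.1 hψ.2
    exact ⟨hψ.1, this.1, this.2⟩
  set W : ℤ := ∑ ψ ∈ U, xx θ ψ with hW'
  have h1 : e - 1 - mX ι θ l₀ ≤ W := by
    have h2 : ∑ ψ ∈ E, xx θ ψ * (mm ι ψ 1 - mm ι ψ l₀) = e - mX ι θ l₀ - 1 := by
      have h3 : 1 * ((1 : ℤ) - 0) = 1 := by norm_num
      rw [h3] at hsum1
      linarith
    have h3 := Finset.sum_filter_add_sum_filter_not E (fun ψ => 1 ≤ mm ι ψ 1 - mm ι ψ l₀)
      (fun ψ => xx θ ψ * (mm ι ψ 1 - mm ι ψ l₀))
    have h4 : ∑ ψ ∈ E with ¬ 1 ≤ mm ι ψ 1 - mm ι ψ l₀, xx θ ψ * (mm ι ψ 1 - mm ι ψ l₀) ≤ 0 := by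
      refine Finset.sum_nonpos fun ψ hψ => ?_
      simp only [Finset.mem_filter] at hψ
      exact mul_nonpos_of_nonneg_of_nonpos (xx_nonneg θ ψ) (by omega)
    have h5 : ∑ ψ ∈ U, xx θ ψ * (mm ι ψ 1 - mm ι ψ l₀) = W := by
      rw [hW']
      refine Finset.sum_congr rfl fun ψ hψ => ?_
      rw [(hUm ψ hψ).2.1, mul_one]
    rw [h2] at h3
    change ∑ ψ ∈ U, xx θ ψ * (mm ι ψ 1 - mm ι ψ l₀) + _ = _ at h3
    rw [h5] at h3
    linarith
  have h2 : (3 * e + 2) * W ≤ e * e - 1 := by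
    have h3 : (3 * e + 2) * W ≤ ∑ ψ ∈ U, xx θ ψ * dg ψ := by
      rw [hW', Finset.mul_sum]
      refine Finset.sum_le_sum fun ψ hψ => ?_
      rw [mul_comm]
      exact mul_le_mul_of_nonneg_left (hUm ψ hψ).2.2 (xx_nonneg θ ψ)
    have h4 : ∑ ψ ∈ U, xx θ ψ * dg ψ ≤ ∑ ψ ∈ E, xx θ ψ * dg ψ :=
      Finset.sum_le_sum_of_subset_of_nonneg (Finset.filter_subset _ _)
        (fun ψ _ _ => mul_nonneg (xx_nonneg θ ψ) (dg_pos ψ).le)
    linarith
  exact arith_final he3 hm2 h1 h2

end Cfsg.Agent.Lib.RankOneOdd.CaseB
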