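import Mathlib
import Cfsg.Agent.Lib.RankOneOdd.CaseB
import Cfsg.Agent.Lib.Blocks.Third
import Cfsg.Agent.Lib.BlockH.Basic
import Cfsg.Agent.S4442
import Cfsg.Agent.S4652

/-!
# Block data for a frame: characters of an abelian centralizer
-/

set_option autoImplicit false
set_option linter.unusedSectionVars false

namespace Cfsg.Agent.Lib.RankOneOdd.BlockData

open Cfsg Module
open Cfsg.Agent.Lib.Char.Basic Cfsg.Agent.Lib.Char.Ortho Cfsg.Agent.Lib.Char.Complete
open Cfsg.Agent.Lib.Char.Linear Cfsg.Agent.Lib.RankOneOdd.Weights Cfsg.Agent.Lib.RankOneOdd.Master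
open Cfsg.Agent.Lib.RankOneOdd.Family Cfsg.Agent.Lib.RankOneOdd.Struct
open Cfsg.Agent.Lib.Blocks.Local Cfsg.Agent.Lib.Blocks.Central Cfsg.Agent.Lib.Blocks.Induced
open Cfsg.Agent.Lib.Blocks.Main Cfsg.Agent.Lib.Blocks.Third
open scoped ComplexConjugate

universe u v w

variable {A : Type v} [CommGroup A] [Fintype A]

section Abstract

variable {H : Type w} [Group H] [Fintype H]

/-- The irreducible character of `H` attached to a linear character of `A`. -/
def xi (j : A ≃* H) (ν : A →* ℂˣ) : IrrCharacter H :=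
  ⟨fun c => (ν (j.symm c) : ℂ), isIrrCharacter_of_hom (ν.comp j.symm.toMonoidHom)⟩

theorem xi_apply (j : A ≃* H) (ν : A →* ℂˣ) (a : A) : (xi j ν : H → ℂ) (j a) = nuF ν a := by
  simp [xi, nuF]

theorem xi_one (j : A ≃* H) (ν : A →* ℂˣ) : (xi j ν : H → ℂ) 1 = 1 := by
  simp [xi]

theorem xi_injective (j : A ≃* H) : Function.Injective (xi j) := by
  intro ν ν' h
  ext a
  have h1 := congrFun (congrArg Subtype.val h) (j a)
  have h2 := xi_apply j ν a
  have h3 := xi_apply j ν' a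
  change (xi j ν : H → ℂ) (j a) = (xi j ν' : H → ℂ) (j a) at h1
  rw [h2, h3] at h1
  exact h1

theorem classInner_xi (j : A ≃* H) (f : H → ℂ) (ν : A →* ℂˣ) :
    classInner f (xi j ν : H → ℂ) = classInner (fun a => f (j a)) (nuF ν) := by
  rw [classInner_def, classInner_def, Nat.card_congr j.toEquiv]
  congr 1
  rw [← Equiv.sum_comp j.toEquiv]
  refine Finset.sum_congr rfl fun a _ => ?_
  simp [xi_apply, nuF, xi]

theorem exists_xi [Fintype (A →* ℂˣ)] (j : A ≃* H) (ξ : IrrCharacter H) : ∃ ν, xi j ν = ξ := by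
  have hχ : IsCharacter A (fun a => (ξ : H → ℂ) (j a)) :=
    isCharacter_comp j.toMonoidHom (isCharacter_of_isIrrCharacter ξ.2)
  have hirr : IsIrrCharacter A (fun a => (ξ : H → ℂ) (j a)) := by
    refine isIrrCharacter_of_classInner_self_eq_one hχ ?_
    rw [← classInner_self_of_isIrr ξ.2, classInner_def, classInner_def, Nat.card_congr j.toEquiv]
    congr 1
    exact Equiv.sum_comp j.toEquiv (fun c => (ξ : H → ℂ) c * conj ((ξ : H → ℂ) c))
  have h1 := fun_eq_sum_dual (fun a => (ξ : H → ℂ) (j a)) 1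
  have h2 : ∃ ν : A →* ℂˣ, classInner (fun a => (ξ : H → ℂ) (j a)) (nuF ν) ≠ 0 := by
    by_contra h3
    push Not at h3
    simp only [h3, zero_mul, Finset.sum_const_zero, map_one] at h1
    exact irr_one_ne_zero ξ.2 h1
  obtain ⟨ν, hν⟩ := h2
  rw [classInner_irr hirr (nuF_irr ν)] at hν
  have h3 : (fun a => (ξ : H → ℂ) (j a)) = nuF ν := by
    by_contra h4
    rw [if_neg h4] at hν
    exact hν rfl
  refine ⟨ν, Subtype.ext (funext fun c => ?_)⟩
  obtain ⟨a, rfl⟩ := j.surjective c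
  have h4 := congrFun h3 a
  change (xi j ν : H → ℂ) (j a) = (ξ : H → ℂ) (j a)
  rw [xi_apply]
  exact h4.symm

theorem xi_bijective [Fintype (A →* ℂˣ)] (j : A ≃* H) : Function.Bijective (xi j) :=
  ⟨xi_injective j, exists_xi j⟩

theorem comm_of_j (j : A ≃* H) (a b : H) : a * b = b * a := by
  obtain ⟨a, rfl⟩ := j.surjective a
  obtain ⟨b, rfl⟩ := j.surjective b
  rw [← map_mul, ← map_mul, mul_comm]

theorem centralizer_eq_top (j : A ≃* H) (c : H) : Subgroup.centralizer ({c} : Set H) = ⊤ := by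
  ext y
  simp only [Subgroup.mem_centralizer_iff, Set.mem_singleton_iff, forall_eq, Subgroup.mem_top, iff_true]
  exact comm_of_j j _ _

theorem centralChar_xi (j : A ≃* H) (ν : A →* ℂˣ) (c : H) :
    centralChar (xi j ν : H → ℂ) c = (xi j ν : H → ℂ) c := by
  rw [centralChar, centralizer_eq_top j c, Subgroup.index_top, xi_one]
  simp

theorem centralChar_one (j : A ≃* H) (c : H) : centralChar (fun _ : H => (1 : ℂ)) c = 1 := by
  rw [centralChar, centralizer_eq_top j c, Subgroup.index_top]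
  simp

variable {p : ℕ} {M : Ideal AlgInt} {Pa Ba : Subgroup A}

theorem nu_mem_algInt (ν : A →* ℂˣ) (a : A) : (ν a : ℂ) ∈ (AlgInt : Subalgebra ℤ ℂ) := by
  have h : ((ν a : ℂˣ) : ℂ) ^ orderOf a = 1 := by
    rw [← Units.val_pow_eq_pow_val, ← map_pow, pow_orderOf_eq_one, map_one, Units.val_one]
  exact Cfsg.Agent.Lib.Char.Eigen.isIntegral_of_pow_eq_one (orderOf_pos a).ne' h

/-- `p`-power roots of unity are `1` modulo `M`. -/
theorem sub_one_mem_of_pow {z : (AlgInt : Subalgebra ℤ ℂ)} (hM : IsPModular p M) {k : ℕ}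
    (hz : z ^ (p ^ k) = 1) : z - 1 ∈ M := by
  have hprime := isPrime_of_pModular hM
  obtain ⟨r, hr⟩ := exists_add_pow_prime_pow_eq hM.1 z (1 - z) k
  have h1 : z + (1 - z) = 1 := by ring
  rw [h1, one_pow, hz] at hr
  have h2 : (1 - z) ^ (p ^ k) = -((p : (AlgInt : Subalgebra ℤ ℂ)) * (z * (1 - z) * r)) := by
    linear_combination -hr
  have h3 : (1 - z) ^ (p ^ k) ∈ M := by
    rw [h2]
    exact M.neg_mem (M.mul_mem_right _ hM.2.2)
  have h4 := hprime.mem_of_pow_mem _ h3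
  have h5 : z - 1 = -(1 - z) := by ring
  rw [h5]
  exact M.neg_mem h4

theorem val_sub_one_mem (hM : IsPModular p M) (hPB : PB p Pa Ba) {u : A} (hu : u ∈ Pa) (ν : A →* ℂˣ) :
    MemLocalIdeal M ((ν u : ℂ) - 1) := by
  have hprime := isPrime_of_pModular hM
  obtain ⟨k, hk⟩ := (hPB.memP u).1 hu
  let z : (AlgInt : Subalgebra ℤ ℂ) := ⟨(ν u : ℂ), nu_mem_algInt ν u⟩
  have hz : z ^ (p ^ k) = 1 := by
    apply Subtype.ext
    change ((ν u : ℂˣ) : ℂ) ^ (p ^ k) = 1
    rw [← Units.val_pow_eq_pow_val, ← map_pow, ← hk, pow_orderOf_eq_one, map_one, Units.val_one]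
  have h1 := sub_one_mem_of_pow hM hz
  have h2 := (memLocalIdeal_coe_iff (M := M) (a := z - 1)).2 h1
  simpa [z] using h2

theorem val_eq_one_of_mem (hM : IsPModular p M) (hPB : PB p Pa Ba) {v : A} (hv : v ∈ Ba) (ν : A →* ℂˣ)
    (h : MemLocalIdeal M (1 - (ν v : ℂ))) : (ν v : ℂˣ) = 1 := by
  have hprime := isPrime_of_pModular hM
  haveI : Fact p.Prime := ⟨hPB.prime⟩
  let z : (AlgInt : Subalgebra ℤ ℂ) := ⟨(ν v : ℂ), nu_mem_algInt ν v⟩
  have h1 : (1 : (AlgInt : Subalgebra ℤ ℂ)) - z ∈ M := by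
    rw [← memLocalIdeal_coe_iff]
    simpa [z] using h
  have hz : ∃ m : ℕ, ¬ p ∣ m ∧ ((z : (AlgInt : Subalgebra ℤ ℂ)) : ℂ) ^ m = 1 := by
    refine ⟨orderOf v, (hPB.memB v).1 hv, ?_⟩
    change ((ν v : ℂˣ) : ℂ) ^ orderOf v = 1
    rw [← Units.val_pow_eq_pow_val, ← map_pow, pow_orderOf_eq_one, map_one, Units.val_one]
  have h2 := eq_of_sub_mem hM ⟨1, hPB.prime.one_lt.ne' ∘ Nat.dvd_one.1, by simp⟩ hz h1
  apply Units.ext
  have h3 := congrArg Subtype.val h2
  simpa [z] using h3.symm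

/-- Membership in the principal block. -/
theorem xi_mem_principal_iff (hM : IsPModular p M) (hPB : PB p Pa Ba) (j : A ≃* H) (ν : A →* ℂˣ) :
    xi j ν ∈ principalBlock M H ↔ ∀ b ∈ Ba, ν b = 1 := by
  have hprime := isPrime_of_pModular hM
  constructor
  · intro h b hb
    have h1 := h (j b)
    rw [centralChar_one j, centralChar_xi, xi_apply] at h1
    exact val_eq_one_of_mem hM hPB hb ν h1
  · intro h c
    rw [centralChar_one j, centralChar_xi]
    obtain ⟨a, rfl⟩ := j.surjective c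
    rw [xi_apply]
    obtain ⟨u, hu, v, hv, rfl⟩ := Struct.exists_decomp hPB a
    have h1 : nuF ν (u * v) = (ν u : ℂ) := by
      simp [nuF, h v hv]
    rw [h1]
    exact memLocalIdeal_sub_comm (val_sub_one_mem hM hPB hu ν)

end Abstract

section Concrete

variable {T : Type u} [Group T] [Fintype T] [Fintype (IrrCharacter T)] [Fintype (A →* ℂˣ)]
variable {ι : A →* T} {p : ℕ} {M : Ideal AlgInt} {Pa Ba : Subgroup A}

theorem nuF_mul_conj (ν : A →* ℂˣ) (a : A) : nuF ν a * conj (nuF ν a) = 1 := by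
  rw [nuF_conj]
  simp only [nuF, MonoidHom.inv_apply, Units.val_inv_eq_inv_val]
  exact mul_inv_cancel₀ (Units.ne_zero _)

theorem inner_shift (ψ : IrrCharacter T) (u : A) (ν : A →* ℂˣ) :
    classInner (fun a => (ψ : T → ℂ) (ι u * ι a)) (nuF ν) = (mm ι ψ ν : ℂ) * nuF ν u := by
  rw [← mm_spec, classInner_def, classInner_def, mul_assoc]
  congr 1
  rw [Finset.sum_mul, ← Equiv.sum_comp (Equiv.mulLeft u) (fun b => (ψ : T → ℂ) (ι b) * conj (nuF ν b) * nuF ν u)]
  refine Finset.sum_congr rfl fun a _ => ?_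
  simp only [Equiv.coe_mulLeft, map_mul]
  have h1 : nuF ν (u * a) = nuF ν u * nuF ν a := by
    simp [nuF]
  rw [h1, map_mul]
  have h2 := nuF_mul_conj ν u
  calc (ψ : T → ℂ) (ι u * ι a) * conj (nuF ν a)
      = (ψ : T → ℂ) (ι u * ι a) * conj (nuF ν a) * (nuF ν u * conj (nuF ν u)) := by rw [h2, mul_one]
    _ = _ := by ring

variable {x : T} [Fintype (Subgroup.centralizer ({x} : Set T))]
  [Fintype (IrrCharacter (Subgroup.centralizer ({x} : Set T)))]

theorem blockPart_one (j : A ≃* Subgroup.centralizer ({x} : Set T)) (hj : ∀ a, (j a : T) = ι a) {u : A}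
    (hx : x = ι u) (ψ : IrrCharacter T) (b : Set (IrrCharacter (Subgroup.centralizer ({x} : Set T))))
    [DecidablePred (· ∈ b)] :
    blockPart b (fun c : Subgroup.centralizer ({x} : Set T) => (ψ : T → ℂ) (x * (c : T))) 1 =
      ∑ ν : A →* ℂˣ, if xi j ν ∈ b then (mm ι ψ ν : ℂ) * nuF ν u else 0 := by
  rw [blockPart_apply, ← (xi_bijective j).sum_comp]
  refine Finset.sum_congr rfl fun ν _ => ?_
  rw [classInner_xi, xi_one, mul_one]
  have h1 : (fun a => (ψ : T → ℂ) (x * ((j a : Subgroup.centralizer ({x} : Set T)) : T))) =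
      fun a => (ψ : T → ℂ) (ι u * ι a) := by
    funext a
    rw [hj, hx]
  rw [h1, inner_shift]

theorem sum_block_eq_zero (hM : IsPModular p M) [Fact p.Prime] (j : A ≃* Subgroup.centralizer ({x} : Set T))
    (hj : ∀ a, (j a : T) = ι a) {u : A} (hx : x = ι u) (hx' : ∃ k : ℕ, orderOf x = p ^ k)
    {ψ : IrrCharacter T} {B : Set (IrrCharacter T)} (hB : IsPBlock M B) (hψ : ψ ∈ B)
    {b : Set (IrrCharacter (Subgroup.centralizer ({x} : Set T)))} [DecidablePred (· ∈ b)] (hb : IsPBlock M b)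
    (hnot : ¬ IsInducedBlock M (Subgroup.centralizer ({x} : Set T)) b B) :
    ∑ ν : A →* ℂˣ, (if xi j ν ∈ b then (mm ι ψ ν : ℂ) * nuF ν u else 0) = 0 := by
  rw [← blockPart_one j hj hx ψ b]
  refine second_main hM hx' hB hψ hb hnot 1 ?_
  rw [orderOf_one]
  exact (Fact.out : p.Prime).one_lt.ne' ∘ Nat.dvd_one.1

open Classical in
theorem sum_L0_eq_zero (hM : IsPModular p M) [Fact p.Prime] (hPB : PB p Pa Ba)
    (j : A ≃* Subgroup.centralizer ({x} : Set T))
    (hj : ∀ a, (j a : T) = ι a) {u : A} (hx : x = ι u) (hx' : ∃ k : ℕ, orderOf x = p ^ k)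
    {ψ : IrrCharacter T} (hψ : ψ ∉ principalBlock M T) :
    ∑ ν : A →* ℂˣ, (if ∀ b ∈ Ba, ν b = 1 then (mm ι ψ ν : ℂ) * nuF ν u else 0) = 0 := by
  haveI := isPrime_of_pModular hM
  have hb₀ : IsPBlock M (principalBlock M (Subgroup.centralizer ({x} : Set T))) := isPBlock_principal M
  have hB : IsPBlock M (blockOf M (ψ : T → ℂ)) := ⟨ψ, rfl⟩
  have h1 := sum_block_eq_zero hM j hj hx hx' (ψ := ψ) hB (mem_blockOf_self ψ) hb₀ (by
    intro hind
    have h2 := (third_main hM _ ⟨_, hind⟩).2 rfl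
    have h3 := IsInducedBlock.unique _ hind h2
    apply hψ
    rw [← h3]
    exact mem_blockOf_self ψ)
  refine Eq.trans ?_ h1
  refine Finset.sum_congr rfl fun ν _ => ?_
  by_cases h : ∀ b ∈ Ba, ν b = 1
  · rw [if_pos h, if_pos ((xi_mem_principal_iff hM hPB j ν).2 h)]
  · rw [if_neg h, if_neg (fun h2 => h ((xi_mem_principal_iff hM hPB j ν).1 h2))]

open Classical in
theorem sum_notL0_eq_zero (hM : IsPModular p M) [Fact p.Prime] (hPB : PB p Pa Ba)
    (j : A ≃* Subgroup.centralizer ({x} : Set T))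
    (hj : ∀ a, (j a : T) = ι a) {u : A} (hx : x = ι u) (hx' : ∃ k : ℕ, orderOf x = p ^ k)
    {ψ : IrrCharacter T} (hψ : ψ ∈ principalBlock M T) :
    ∑ ν : A →* ℂˣ, (if ∀ b ∈ Ba, ν b = 1 then 0 else (mm ι ψ ν : ℂ) * nuF ν u) = 0 := by
  haveI := isPrime_of_pModular hM
  set b₀ := principalBlock M (Subgroup.centralizer ({x} : Set T)) with hb₀d
  have hb₀ : IsPBlock M b₀ := isPBlock_principal M
  have hB : IsPBlock M (principalBlock M T) := isPBlock_principal M
  let g : (A →* ℂˣ) → ℂ := fun ν => (mm ι ψ ν : ℂ) * nuF ν u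
  let S : Finset (A →* ℂˣ) := Finset.univ.filter fun ν => xi j ν ∉ b₀
  let F : (A →* ℂˣ) → Set (IrrCharacter (Subgroup.centralizer ({x} : Set T))) :=
    fun ν => blockOf M ((xi j ν : IrrCharacter _) : Subgroup.centralizer ({x} : Set T) → ℂ)
  have h1 : ∑ ν : A →* ℂˣ, (if ∀ b ∈ Ba, ν b = 1 then 0 else g ν) = ∑ ν ∈ S, g ν := by
    rw [Finset.sum_filter]
    refine Finset.sum_congr rfl fun ν _ => ?_
    by_cases h : ∀ b ∈ Ba, ν b = 1
    · rw [if_pos h, if_neg]
      rw [not_not]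
      exact (xi_mem_principal_iff hM hPB j ν).2 h
    · rw [if_neg h, if_pos]
      exact fun h2 => h ((xi_mem_principal_iff hM hPB j ν).1 h2)
  change ∑ ν : A →* ℂˣ, (if ∀ b ∈ Ba, ν b = 1 then 0 else g ν) = 0
  rw [h1, ← Finset.sum_fiberwise_of_maps_to (t := S.image F) (g := F)
    (fun ν hν => Finset.mem_image_of_mem F hν)]
  refine Finset.sum_eq_zero fun c hc => ?_
  obtain ⟨ν₀, hν₀, rfl⟩ := Finset.mem_image.1 hc
  have hν₀' : xi j ν₀ ∉ b₀ := (Finset.mem_filter.1 hν₀).2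
  have hcb : IsPBlock M (F ν₀) := ⟨xi j ν₀, rfl⟩
  have hne : F ν₀ ≠ b₀ := by
    intro h
    apply hν₀'
    rw [← h]
    exact mem_blockOf_self (xi j ν₀)
  have h2 := sum_block_eq_zero hM j hj hx hx' (ψ := ψ) hB hψ hcb (by
    intro hind
    exact hne ((third_main hM _ ⟨_, hind⟩).1 hind))
  have h3 : S.filter (fun ν => F ν = F ν₀) = Finset.univ.filter (fun ν => xi j ν ∈ F ν₀) := by
    ext ν
    simp only [Finset.mem_filter, Finset.mem_univ, true_and]
    constructor
    · rintro ⟨_, h4⟩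
      rw [← h4]
      exact mem_blockOf_self (xi j ν)
    · intro h3
      refine ⟨Finset.mem_filter.2 ⟨Finset.mem_univ _, fun h6 => hne ?_⟩, blockOf_eq_of_mem h3⟩
      exact isPBlock_mem_unique hcb hb₀ h3 h6
  rw [h3, Finset.sum_filter]
  exact h2

/-- The isomorphism of `A` with the centralizer. -/
noncomputable def jj (hinj : Function.Injective ι) (hC : ∀ y, y ∈ Subgroup.centralizer ({x} : Set T) ↔ ∃ a, ι a = y) :
    A ≃* Subgroup.centralizer ({x} : Set T) :=
  MulEquiv.ofBijective (ι.codRestrict _ fun a => (hC _).2 ⟨a, rfl⟩)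
    ⟨fun a b h => hinj (congrArg Subtype.val h), fun y => by
      obtain ⟨a, ha⟩ := (hC y).1 y.2
      exact ⟨a, Subtype.ext ha⟩⟩

theorem jj_coe (hinj : Function.Injective ι) (hC : ∀ y, y ∈ Subgroup.centralizer ({x} : Set T) ↔ ∃ a, ι a = y)
    (a : A) : ((jj hinj hC a : Subgroup.centralizer ({x} : Set T)) : T) = ι a := rfl

end Concrete

section Final

variable {T : Type u} [Group T] [Fintype T] [Fintype (IrrCharacter T)] [Fintype (A →* ℂˣ)]
variable {ι : A →* T} {p : ℕ} {M : Ideal AlgInt} {Pa Ba : Subgroup A}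

/-- The centralizer hypothesis. -/
def CentHyp (ι : A →* T) (Pa : Subgroup A) : Prop :=
  ∀ u ∈ Pa, u ≠ 1 → ∀ y, y ∈ Subgroup.centralizer ({ι u} : Set T) ↔ ∃ a, ι a = y

theorem pElement_of_mem (hPB : PB p Pa Ba) {u : A} (hu : u ∈ Pa) (hinj : Function.Injective ι) :
    ∃ k : ℕ, orderOf (ι u) = p ^ k := by
  obtain ⟨k, hk⟩ := (hPB.memP u).1 hu
  exact ⟨k, by rw [orderOf_injective ι hinj, hk]⟩

open Classical in
theorem sum_L0_eq_zero' (hM : IsPModular p M) (hPB : PB p Pa Ba) (hinj : Function.Injective ι)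
    (hC : CentHyp ι Pa) {u : A} (hu : u ∈ Pa) (hu1 : u ≠ 1)
    {ψ : IrrCharacter T} (hψ : ψ ∉ principalBlock M T) :
    ∑ ν : A →* ℂˣ, (if ∀ b ∈ Ba, ν b = 1 then (mm ι ψ ν : ℂ) * nuF ν u else 0) = 0 := by
  haveI : Fact p.Prime := ⟨hPB.prime⟩
  letI : Fintype (Subgroup.centralizer ({ι u} : Set T)) := Fintype.ofFinite _
  haveI := Cfsg.Agent.Lib.Char.Ortho.finite_irrCharacter (G := Subgroup.centralizer ({ι u} : Set T))
  letI : Fintype (IrrCharacter (Subgroup.centralizer ({ι u} : Set T))) := Fintype.ofFinite _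
  exact sum_L0_eq_zero hM hPB (jj hinj (hC u hu hu1)) (jj_coe hinj (hC u hu hu1)) rfl
    (pElement_of_mem hPB hu hinj) hψ

open Classical in
theorem sum_notL0_eq_zero' (hM : IsPModular p M) (hPB : PB p Pa Ba) (hinj : Function.Injective ι)
    (hC : CentHyp ι Pa) {u : A} (hu : u ∈ Pa) (hu1 : u ≠ 1)
    {ψ : IrrCharacter T} (hψ : ψ ∈ principalBlock M T) :
    ∑ ν : A →* ℂˣ, (if ∀ b ∈ Ba, ν b = 1 then 0 else (mm ι ψ ν : ℂ) * nuF ν u) = 0 := by
  haveI : Fact p.Prime := ⟨hPB.prime⟩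
  letI : Fintype (Subgroup.centralizer ({ι u} : Set T)) := Fintype.ofFinite _
  haveI := Cfsg.Agent.Lib.Char.Ortho.finite_irrCharacter (G := Subgroup.centralizer ({ι u} : Set T))
  letI : Fintype (IrrCharacter (Subgroup.centralizer ({ι u} : Set T))) := Fintype.ofFinite _
  exact sum_notL0_eq_zero hM hPB (jj hinj (hC u hu hu1)) (jj_coe hinj (hC u hu hu1)) rfl
    (pElement_of_mem hPB hu hinj) hψ

/-- **(b1)**: away from the principal block the weights are constant on the principal family. -/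
theorem b1_of (hM : IsPModular p M) (hPB : PB p Pa Ba) (hinj : Function.Injective ι) (hC : CentHyp ι Pa)
    {ψ : IrrCharacter T} (hψ : ψ ∉ principalBlock M T) :
    ∀ l ∈ Fam Pa Ba (1 : A →* ℂˣ), mm ι ψ 1 = mm ι ψ l := by
  classical
  intro l hl
  rw [mem_Fam] at hl
  have hl1 : ∀ b ∈ Ba, l b = 1 := fun b hb => by
    have := hl.1 b hb
    simpa using this.symm
  let L : (A →* ℂˣ) → Prop := fun ν => ∀ b ∈ Ba, ν b = 1
  let f : A → ℂ := fun a => ∑ ν : A →* ℂˣ, if L ν then (mm ι ψ ν : ℂ) * nuF ν a else 0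
  have hf0 : ∀ a, a ∉ Ba → f a = 0 := by
    intro a ha
    obtain ⟨u, hu, v, hv, rfl⟩ := Struct.exists_decomp hPB a
    have hu1 : u ≠ 1 := by
      rintro rfl
      rw [one_mul] at ha
      exact ha hv
    have h1 := sum_L0_eq_zero' hM hPB hinj hC hu hu1 hψ
    refine Eq.trans ?_ h1
    refine Finset.sum_congr rfl fun ν _ => ?_
    by_cases h : L ν
    · rw [if_pos h, if_pos h]
      have h2 : nuF ν (u * v) = nuF ν u := by
        simp [nuF, h v hv]
      rw [h2]
    · rw [if_neg h, if_neg h]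
  have hinner : ∀ l' : A →* ℂˣ, L l' → classInner f (nuF l') = (mm ι ψ l' : ℂ) := by
    intro l' hl'
    have h2 : ∀ x, f x * conj (nuF l' x) =
        ∑ ν : A →* ℂˣ, (if L ν then (mm ι ψ ν : ℂ) else 0) * (nuF ν x * conj (nuF l' x)) := by
      intro x
      simp only [f]
      rw [Finset.sum_mul]
      refine Finset.sum_congr rfl fun ν _ => ?_
      split_ifs <;> ring
    rw [classInner_def]
    simp_rw [h2]
    rw [Finset.sum_comm, Finset.mul_sum]
    have h3 : ∀ ν : A →* ℂˣ, (Nat.card A : ℂ)⁻¹ * ∑ x : A, (if L ν then (mm ι ψ ν : ℂ) else 0) *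
        (nuF ν x * conj (nuF l' x)) = (if L ν then (mm ι ψ ν : ℂ) else 0) * (if ν = l' then 1 else 0) := by
      intro ν
      rw [← Finset.mul_sum, mul_left_comm, ← classInner_def, inner_nuF]
    simp_rw [h3]
    rw [Finset.sum_eq_single l']
    · rw [if_pos hl', if_pos rfl, mul_one]
    · intro ν _ hν
      rw [if_neg hν, mul_zero]
    · intro h4
      exact absurd (Finset.mem_univ _) h4
  have hL1 : L 1 := fun _ _ => rfl
  have h5 : ((mm ι ψ 1 : ℤ) : ℂ) = (mm ι ψ l : ℂ) := by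
    rw [← hinner 1 hL1, ← hinner l hl1, classInner_def, classInner_def]
    congr 1
    refine Finset.sum_congr rfl fun x _ => ?_
    by_cases hx : x ∈ Ba
    · have h6 : nuF l x = 1 := by simp [nuF, hl1 x hx]
      have h7 : nuF (1 : A →* ℂˣ) x = 1 := by simp [nuF]
      rw [h6, h7]
    · rw [hf0 x hx, zero_mul, zero_mul]
  exact_mod_cast h5

theorem mem_Fam_one_iff (hPB : PB p Pa Ba) {ν : A →* ℂˣ} :
    ν ∈ Fam Pa Ba (1 : A →* ℂˣ) ↔ (∀ b ∈ Ba, ν b = 1) ∧ ν ≠ 1 := by
  rw [mem_Fam]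
  constructor
  · rintro ⟨h1, u, hu, h2⟩
    refine ⟨fun b hb => (h1 b hb).symm, ?_⟩
    rintro rfl
    exact h2 rfl
  · rintro ⟨h1, h2⟩
    refine ⟨fun b hb => (h1 b hb).symm, ?_⟩
    by_contra h3
    apply h2
    apply Struct.hom_ext_PB hPB
    · intro u hu
      by_contra h4
      exact h3 ⟨u, hu, h4⟩
    · intro v hv
      exact h1 v hv

theorem dg_eq_sum (ψ : IrrCharacter T) : dg ψ = ∑ ν : A →* ℂˣ, mm ι ψ ν := by
  have h1 : ((dg ψ : ℤ) : ℂ) = ((∑ ν : A →* ℂˣ, mm ι ψ ν : ℤ) : ℂ) := by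
    rw [dg_spec, deg_eq_sum ι ψ]
    push_cast
    rfl
  exact_mod_cast h1

/-- **(b2)**: the degree of a member of the principal block modulo `p`. -/
theorem b2_of (hM : IsPModular p M) (hPB : PB p Pa Ba) (hinj : Function.Injective ι) (hC : CentHyp ι Pa)
    (hq : 1 < Nat.card Pa) {ψ : IrrCharacter T} (hψ : ψ ∈ principalBlock M T) :
    (p : ℤ) ∣ dg ψ - (mm ι ψ 1 + ∑ l ∈ Fam Pa Ba (1 : A →* ℂˣ), mm ι ψ l) := by
  classical
  haveI := isPrime_of_pModular hM
  haveI : Nontrivial Pa := Finite.one_lt_card_iff_nontrivial.1 hq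
  obtain ⟨⟨u, hu⟩, hu1⟩ := exists_ne (1 : Pa)
  have hu1' : u ≠ 1 := fun h => hu1 (Subtype.ext h)
  let L : (A →* ℂˣ) → Prop := fun ν => ∀ b ∈ Ba, ν b = 1
  let G : ℤ := ∑ ν : A →* ℂˣ, if L ν then 0 else mm ι ψ ν
  have h0 := sum_notL0_eq_zero' hM hPB hinj hC hu hu1' hψ
  have hG : MemLocalIdeal M (G : ℂ) := by
    have h1 : (G : ℂ) = ∑ ν : A →* ℂˣ, if L ν then 0 else (mm ι ψ ν : ℂ) * (1 - (ν u : ℂ)) := by
      have h2 : (G : ℂ) = ∑ ν : A →* ℂˣ, if L ν then (0 : ℂ) else (mm ι ψ ν : ℂ) := by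
        simp only [G]
        push_cast
        rfl
      rw [h2, ← sub_zero (∑ ν : A →* ℂˣ, if L ν then (0 : ℂ) else (mm ι ψ ν : ℂ)), ← h0, ← Finset.sum_sub_distrib]
      refine Finset.sum_congr rfl fun ν _ => ?_
      by_cases h : L ν
      · rw [if_pos h, if_pos h, if_pos h, sub_zero]
      · rw [if_neg h, if_neg h, if_neg h]
        simp only [nuF]
        ring
    rw [h1]
    refine memLocalIdeal_sum _ _ fun ν _ => ?_
    by_cases h : L ν
    · rw [if_pos h]
      exact memLocalIdeal_zero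
    · rw [if_neg h]
      refine memLocalIdeal_mul_left (memLocalRing_intCast _) ?_
      exact memLocalIdeal_sub_comm (val_sub_one_mem hM hPB hu ν)
  have hdvd : (p : ℤ) ∣ G := (intCast_memLocalIdeal_iff hM G).1 hG
  have hdecomp : dg ψ - (mm ι ψ 1 + ∑ l ∈ Fam Pa Ba (1 : A →* ℂˣ), mm ι ψ l) = G := by
    rw [dg_eq_sum (ι := ι) ψ]
    have h3 : ∑ l ∈ Fam Pa Ba (1 : A →* ℂˣ), mm ι ψ l =
        ∑ ν : A →* ℂˣ, if ν ∈ Fam Pa Ba (1 : A →* ℂˣ) then mm ι ψ ν else 0 := by
      rw [Finset.sum_ite_mem, Finset.univ_inter]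
    have h4 : mm ι ψ 1 = ∑ ν : A →* ℂˣ, if ν = 1 then mm ι ψ ν else 0 := by
      rw [Finset.sum_ite_eq' Finset.univ (1 : A →* ℂˣ), if_pos (Finset.mem_univ _)]
    rw [h3, h4, ← Finset.sum_add_distrib, ← Finset.sum_sub_distrib]
    refine Finset.sum_congr rfl fun ν _ => ?_
    by_cases h : L ν
    · rw [if_pos h]
      by_cases h1 : ν = 1
      · have h2 : ν ∉ Fam Pa Ba (1 : A →* ℂˣ) := fun h3 => ((mem_Fam_one_iff hPB).1 h3).2 h1
        rw [if_pos h1, if_neg h2]
        ring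
      · have h2 : ν ∈ Fam Pa Ba (1 : A →* ℂˣ) := (mem_Fam_one_iff hPB).2 ⟨h, h1⟩
        rw [if_neg h1, if_pos h2]
        ring
    · have h1 : ν ≠ 1 := by
        rintro rfl
        exact h fun _ _ => rfl
      have h2 : ν ∉ Fam Pa Ba (1 : A →* ℂˣ) := fun h3 => h ((mem_Fam_one_iff hPB).1 h3).1
      rw [if_neg h, if_neg h1, if_neg h2]
      ring
  rw [hdecomp]
  exact hdvd

/-- A Sylow subgroup of order `p` and its centralizer form a Brauer pair. -/
theorem isBrauerPair_sylow [Fact p.Prime] (P : Sylow p T) (hP : Nat.card P = p) :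
    Cfsg.Agent.Lib.Blocks.Induced.IsBrauerPair p (P : Subgroup T) (Subgroup.centralizer ((P : Subgroup T) : Set T)) := by
  haveI : IsCyclic (P : Subgroup T) := isCyclic_of_prime_card hP
  have hc : ∀ a b : (P : Subgroup T), a * b = b * a := fun a b => by
    haveI : IsMulCommutative (P : Subgroup T) := IsCyclic.commutative
    exact IsMulCommutative.is_comm.comm a b
  refine ⟨P.2, ?_, le_rfl, ?_⟩
  · intro a ha
    rw [Subgroup.mem_centralizer_iff]
    intro b hb
    exact congrArg Subtype.val (hc ⟨b, hb⟩ ⟨a, ha⟩)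
  · intro g hg
    rw [Subgroup.mem_centralizer_iff] at hg
    rw [Subgroup.mem_normalizer_iff]
    intro n
    have h1 : ∀ n ∈ (P : Subgroup T), g * n * g⁻¹ = n := by
      intro n hn
      rw [← hg n hn, mul_inv_cancel_right]
    constructor
    · intro hn
      rw [h1 n hn]
      exact hn
    · intro hn
      have h2 := hg _ hn
      have h3 : n = g * n * g⁻¹ := by
        have h4 : g * n = g * (g * n * g⁻¹) := by
          rw [← h2]
          group
        exact mul_left_cancel h4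
      rw [h3]
      exact hn

/-- **(b3)**: the degrees in the principal block. -/
theorem b3_of (hM : IsPModular p M) [Fact p.Prime] (hp3 : 3 ≤ p) (P : Sylow p T) (hP : Nat.card P = p)
    {ψ : IrrCharacter T} (hψ : ψ ∈ principalBlock M T) {f : ℕ}
    (hf : (Subgroup.centralizer ((P : Subgroup T) : Set T)).relIndex
      (Subgroup.normalizer ((P : Subgroup T) : Set T)) = f) :
    (p : ℤ) ∣ dg ψ - 1 ∨ (p : ℤ) ∣ dg ψ + 1 ∨ (p : ℤ) ∣ dg ψ - f ∨ (p : ℤ) ∣ dg ψ + f := by
  classical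
  haveI := isPrime_of_pModular hM
  letI : Fintype (Subgroup.centralizer ((P : Subgroup T) : Set T)) := Fintype.ofFinite _
  have hB₀ : IsPBlock M (principalBlock M T) := isPBlock_principal M
  have hdef : IsDefectGroup p M (principalBlock M T) (P : Subgroup T) :=
    (Cfsg.Agent.S4652.result p M hM _).2 ⟨P, rfl⟩
  have hb₀ : IsPBlock M (principalBlock M (Subgroup.centralizer ((P : Subgroup T) : Set T))) := isPBlock_principal M
  have hind0 := exists_induced hM (isBrauerPair_sylow P hP) hb₀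
  have hind := (third_main hM _ hind0).2 rfl
  have hfpos : 0 < f := by
    rw [← hf]
    exact Nat.pos_of_ne_zero Subgroup.index_ne_zero_of_finite
  have hθ : oneI (Subgroup.centralizer ((P : Subgroup T) : Set T)) ∈ principalBlock M (Subgroup.centralizer ((P : Subgroup T) : Set T)) := by
    rw [principalBlock_eq_blockOf]
    exact mem_blockOf_self _
  have hθP : ∀ x : Subgroup.centralizer ((P : Subgroup T) : Set T), (x : T) ∈ (P : Subgroup T) → ((oneI (Subgroup.centralizer ((P : Subgroup T) : Set T)) : IrrCharacter (Subgroup.centralizer ((P : Subgroup T) : Set T))) : Subgroup.centralizer ((P : Subgroup T) : Set T) → ℂ) x = ((oneI (Subgroup.centralizer ((P : Subgroup T) : Set T)) : IrrCharacter (Subgroup.centralizer ((P : Subgroup T) : Set T))) : Subgroup.centralizer ((P : Subgroup T) : Set T) → ℂ) 1 := fun x _ => by simp only [oneI_apply]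
  have hT : ∀ g : T, g ∈ Subgroup.normalizer ((P : Subgroup T) : Set T) ↔ (g ∈ Subgroup.normalizer ((P : Subgroup T) : Set T) ∧ ∀ c c' : Subgroup.centralizer ((P : Subgroup T) : Set T), (c' : T) = g * c * g⁻¹ → ((oneI (Subgroup.centralizer ((P : Subgroup T) : Set T)) : IrrCharacter (Subgroup.centralizer ((P : Subgroup T) : Set T))) : Subgroup.centralizer ((P : Subgroup T) : Set T) → ℂ) c' = ((oneI (Subgroup.centralizer ((P : Subgroup T) : Set T)) : IrrCharacter (Subgroup.centralizer ((P : Subgroup T) : Set T))) : Subgroup.centralizer ((P : Subgroup T) : Set T) → ℂ) c) := fun g => ⟨fun h => ⟨h, fun _ _ _ => by simp only [oneI_apply]⟩, fun h => h.1⟩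
  have hodd : p ≠ 2 := by omega
  obtain ⟨_, _, X, Y, hBXY, _, _, _, hX, ⟨ε, hε, hY⟩, _⟩ :=
    Cfsg.Agent.S4442.result p M hM hodd P hP (principalBlock M T) hB₀ hdef
      (principalBlock M (Subgroup.centralizer ((P : Subgroup T) : Set T))) hind
      (oneI (Subgroup.centralizer ((P : Subgroup T) : Set T))) hθ hθP (Subgroup.normalizer ((P : Subgroup T) : Set T)) hT f f hf hf
  have hd1 : charDegree ((oneI (Subgroup.centralizer ((P : Subgroup T) : Set T)) :
      IrrCharacter (Subgroup.centralizer ((P : Subgroup T) : Set T))) :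
      Subgroup.centralizer ((P : Subgroup T) : Set T) → ℂ) = 1 := by
    change ⌊((1 : ℂ)).re⌋₊ = 1
    simp
  rw [hd1] at hX hY
  have hff : f / f = 1 := Nat.div_self hfpos
  rw [hff] at hX
  rw [hBXY] at hψ
  rcases hψ with hψ | hψ
  · rcases hX ψ hψ with h | h
    · left
      have := Int.modEq_iff_dvd.1 h.symm
      simpa [dg] using this
    · right; left
      have := Int.modEq_iff_dvd.1 h.symm
      simpa [dg] using this
  · have h := hY ψ hψ
    have h1 := Int.modEq_iff_dvd.1 h.symm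
    rcases hε with rfl | rfl
    · right; right; left
      simpa [dg] using h1
    · right; right; right
      simpa [dg] using h1

variable {Γ : Subgroup (MulAut A)} [Fintype Γ] {θ : IrrCharacter T}

/-- **Case B of the main theorem**, from the block data. -/
theorem caseB_app (hF : TIFrame ι Γ p) (h : PB p Pa Ba) (hqe : Nat.card Pa = p) (hg : Good ι Pa p θ)
    (hp3 : 3 ≤ p) (hodd : ∀ ψ : IrrCharacter T, Odd (dg ψ))
    (hgen : ∀ ψ : IrrCharacter T, ψ ≠ XChar.oneT T → ∃ ν, NT Pa ν ∧ mm ι ψ ν ≠ 0) (hne : dg θ ≠ 1)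
    (hC : CentHyp ι Pa) (P : Sylow p T) (hP : Nat.card P = p)
    (hf : (Subgroup.centralizer ((P : Subgroup T) : Set T)).relIndex
      (Subgroup.normalizer ((P : Subgroup T) : Set T)) = Fintype.card Γ) : False := by
  classical
  haveI : Fact p.Prime := ⟨h.prime⟩
  obtain ⟨M, hM⟩ := Cfsg.Agent.Lib.BlockH.Basic.exists_isPModular (p := p) h.prime
  have hq' : p ≤ Nat.card Pa := hqe.ge
  have hd := dg_eq hF h hq' hg hp3
  refine CaseB.caseB hF h hqe hg hp3 hodd hgen hne (fun ψ => ψ ∈ principalBlock M T)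
    (fun ψ hψ => b1_of hM h hF.inj hC hψ)
    (fun ψ hψ => b2_of hM h hF.inj hC (by rw [hqe]; exact h.prime.one_lt) hψ) ?_
  intro ψ hψ
  have := b3_of hM hp3 P hP hψ hf
  rw [hd]
  exact this

end Final

end Cfsg.Agent.Lib.RankOneOdd.BlockData
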