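import Mathlib
import Cfsg.Agent.Lib.Blocks.Central
import Cfsg.Agent.Lib.Blocks.Weak
import Cfsg.Agent.Lib.BP.Cj
import Cfsg.Agent.Lib.BK.Coef
import Cfsg.Agent.Lib.Char.Eigen
import Cfsg.Agent.Lib.RankOneOdd.Weights

/-!
# Reduction of the group algebra modulo a maximal ideal over `2`

A representation `rk` of `T` over the residue ring `AlgInt ⧸ M`, extended to the elements of the complex
group algebra with algebraic integer coefficients.
-/

set_option autoImplicit false
set_option linter.unusedSectionVars false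

namespace Cfsg.Agent.Lib.RankOneOdd.Lift

open Cfsg MonoidAlgebra Module
open Cfsg.Agent.Lib.Blocks.Local Cfsg.Agent.Lib.Blocks.Central
open Cfsg.Agent.Lib.BP.Cj Cfsg.Agent.Lib.BK.Coef
open scoped ComplexConjugate

universe u v

variable {T : Type u} [Group T] [Fintype T] {K : Type v} [CommRing K] (red : (AlgInt : Subalgebra ℤ ℂ) →+* K)

open Classical in
/-- Reduction of a complex number (zero unless it is an algebraic integer). -/
noncomputable def res (z : ℂ) : K :=
  if h : z ∈ (AlgInt : Subalgebra ℤ ℂ) then red ⟨z, h⟩ else 0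

theorem res_of {z : ℂ} (h : z ∈ (AlgInt : Subalgebra ℤ ℂ)) : res red z = red ⟨z, h⟩ := by
  rw [res, dif_pos h]

theorem res_coe (a : (AlgInt : Subalgebra ℤ ℂ)) : res red (a : ℂ) = red a := by
  rw [res_of red a.2]

theorem res_add {z w : ℂ} (hz : z ∈ (AlgInt : Subalgebra ℤ ℂ)) (hw : w ∈ (AlgInt : Subalgebra ℤ ℂ)) :
    res red (z + w) = res red z + res red w := by
  rw [res_of red hz, res_of red hw, res_of red (add_mem hz hw), ← map_add]
  rfl

theorem res_mul {z w : ℂ} (hz : z ∈ (AlgInt : Subalgebra ℤ ℂ)) (hw : w ∈ (AlgInt : Subalgebra ℤ ℂ)) :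
    res red (z * w) = res red z * res red w := by
  rw [res_of red hz, res_of red hw, res_of red (mul_mem hz hw), ← map_mul]
  rfl

theorem res_zero : res red 0 = 0 := by
  have := res_coe red (0 : (AlgInt : Subalgebra ℤ ℂ))
  simpa using this

theorem res_one : res red 1 = 1 := by
  have := res_coe red (1 : (AlgInt : Subalgebra ℤ ℂ))
  simpa using this

theorem res_natCast (n : ℕ) : res red (n : ℂ) = (n : K) := by
  have := res_coe red (n : (AlgInt : Subalgebra ℤ ℂ))
  simpa using this

theorem res_sum {ι : Type*} (s : Finset ι) (f : ι → ℂ) (h : ∀ i ∈ s, f i ∈ (AlgInt : Subalgebra ℤ ℂ)) :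
    res red (∑ i ∈ s, f i) = ∑ i ∈ s, res red (f i) := by
  classical
  induction s using Finset.induction_on with
  | empty => simp [res_zero]
  | insert a s ha ih =>
    rw [Finset.sum_insert ha, Finset.sum_insert ha, res_add red (h a (Finset.mem_insert_self a s))
      (sum_mem fun i hi => h i (Finset.mem_insert_of_mem hi)),
      ih fun i hi => h i (Finset.mem_insert_of_mem hi)]

theorem mem_algInt_natCast (n : ℕ) : (n : ℂ) ∈ (AlgInt : Subalgebra ℤ ℂ) := natCast_mem _ n

/-- All coefficients are algebraic integers. -/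
def IC (x : GA T) : Prop := ∀ g, x.coeff g ∈ (AlgInt : Subalgebra ℤ ℂ)

theorem IC.add {x y : GA T} (hx : IC x) (hy : IC y) : IC (x + y) := fun g => by
  rw [coeff_add']
  exact add_mem (hx g) (hy g)

theorem IC.zero : IC (0 : GA T) := fun g => by
  have : (0 : GA T).coeff g = 0 := rfl
  rw [this]
  exact zero_mem _

theorem IC.mul {x y : GA T} (hx : IC x) (hy : IC y) : IC (x * y) := fun g => by
  rw [coeff_mul_sum]
  exact sum_mem fun h _ => mul_mem (hx h) (hy _)

theorem IC.smul {c : ℂ} (hc : c ∈ (AlgInt : Subalgebra ℤ ℂ)) {x : GA T} (hx : IC x) : IC (c • x) := fun g => by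
  rw [coeff_smul']
  exact mul_mem hc (hx g)

theorem IC.sum {ι : Type*} (s : Finset ι) (f : ι → GA T) (h : ∀ i ∈ s, IC (f i)) : IC (∑ i ∈ s, f i) := fun g => by
  rw [coeff_sum']
  exact sum_mem fun i hi => h i hi g

theorem IC.single (g : T) : IC (single g (1 : ℂ) : GA T) := fun h => by
  classical
  rw [coeff_single, Finsupp.single_apply]
  split_ifs
  · exact one_mem _
  · exact zero_mem _

theorem IC.one : IC (1 : GA T) := IC.single 1

section Phi

variable {n : ℕ} (rk : T →* Matrix (Fin n) (Fin n) K)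

/-- The reduction map. -/
noncomputable def Phi (x : GA T) : Matrix (Fin n) (Fin n) K :=
  ∑ g : T, res red (x.coeff g) • rk g

theorem Phi_add {x y : GA T} (hx : IC x) (hy : IC y) : Phi red rk (x + y) = Phi red rk x + Phi red rk y := by
  simp only [Phi, coeff_add']
  rw [← Finset.sum_add_distrib]
  refine Finset.sum_congr rfl fun g _ => ?_
  rw [res_add red (hx g) (hy g), add_smul]

theorem Phi_zero : Phi red rk (0 : GA T) = 0 := by
  simp only [Phi]
  refine Finset.sum_eq_zero fun g _ => ?_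
  have : (0 : GA T).coeff g = 0 := rfl
  rw [this, res_zero, zero_smul]

theorem Phi_sum {ι : Type*} (s : Finset ι) (f : ι → GA T) (h : ∀ i ∈ s, IC (f i)) :
    Phi red rk (∑ i ∈ s, f i) = ∑ i ∈ s, Phi red rk (f i) := by
  classical
  induction s using Finset.induction_on with
  | empty => simp [Phi_zero]
  | insert a s ha ih =>
    rw [Finset.sum_insert ha, Finset.sum_insert ha, Phi_add red rk (h a (Finset.mem_insert_self a s))
      (IC.sum s f fun i hi => h i (Finset.mem_insert_of_mem hi)),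
      ih fun i hi => h i (Finset.mem_insert_of_mem hi)]

theorem Phi_smul {c : ℂ} (hc : c ∈ (AlgInt : Subalgebra ℤ ℂ)) {x : GA T} (hx : IC x) :
    Phi red rk (c • x) = res red c • Phi red rk x := by
  simp only [Phi, coeff_smul']
  rw [Finset.smul_sum]
  refine Finset.sum_congr rfl fun g _ => ?_
  rw [res_mul red hc (hx g), mul_smul]

theorem Phi_single (g : T) : Phi red rk (single g (1 : ℂ) : GA T) = rk g := by
  classical
  simp only [Phi]
  rw [Finset.sum_eq_single g]
  · rw [coeff_single, Finsupp.single_apply, if_pos rfl, res_one, one_smul]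
  · intro b _ hb
    rw [coeff_single, Finsupp.single_apply, if_neg (Ne.symm hb), res_zero, zero_smul]
  · intro h
    exact absurd (Finset.mem_univ g) h

theorem Phi_one : Phi red rk (1 : GA T) = 1 := by
  have := Phi_single red rk (1 : T)
  rw [map_one] at this
  exact this

theorem Phi_mul {x y : GA T} (hx : IC x) (hy : IC y) : Phi red rk (x * y) = Phi red rk x * Phi red rk y := by
  classical
  simp only [Phi]
  rw [Finset.sum_mul]
  simp_rw [coeff_mul_sum]
  have h1 : ∀ g : T, res red (∑ h : T, x.coeff h * y.coeff (h⁻¹ * g)) =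
      ∑ h : T, res red (x.coeff h) * res red (y.coeff (h⁻¹ * g)) := by
    intro g
    rw [res_sum red _ _ (fun h _ => mul_mem (hx h) (hy _))]
    exact Finset.sum_congr rfl fun h _ => res_mul red (hx h) (hy _)
  simp_rw [h1, Finset.sum_smul]
  rw [Finset.sum_comm]
  refine Finset.sum_congr rfl fun h _ => ?_
  rw [smul_mul_assoc, Finset.mul_sum, Finset.smul_sum]
  refine Fintype.sum_equiv (Equiv.mulLeft h⁻¹) _ _ fun g => ?_
  simp only [Equiv.coe_mulLeft]
  rw [mul_smul, mul_smul_comm, ← map_mul, mul_inv_cancel_left]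

end Phi

section Main

variable [Fintype (IrrCharacter T)] {n : ℕ} {rk : T →* Matrix (Fin n) (Fin n) K} {red}

/-- The element `∑ θ(g⁻¹) g`. -/
noncomputable def EE (θ : IrrCharacter T) : GA T := ofFun (fun g => conj ((θ : T → ℂ) g))

@[simp] theorem EE_coeff (θ : IrrCharacter T) (g : T) : (EE θ).coeff g = conj ((θ : T → ℂ) g) := rfl

theorem irr_mem_algInt (θ : IrrCharacter T) (g : T) : (θ : T → ℂ) g ∈ (AlgInt : Subalgebra ℤ ℂ) := by
  obtain ⟨χ, hχ⟩ := θ
  obtain ⟨m, ρ, _, rfl⟩ := hχ
  exact Cfsg.Agent.Lib.Char.Eigen.character_mem_algInt ρ g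

theorem conj_irr_eq (θ : IrrCharacter T) (g : T) : conj ((θ : T → ℂ) g) = (θ : T → ℂ) g⁻¹ :=
  (Cfsg.Agent.Lib.Char.Ortho.char_inv_eq_conj
    (Cfsg.Agent.Lib.Char.Basic.isCharacter_of_isIrrCharacter θ.2) g).symm

theorem IC_EE (θ : IrrCharacter T) : IC (EE θ) := fun g => by
  rw [EE_coeff, conj_irr_eq]
  exact irr_mem_algInt θ _

/-- The central idempotent of `θ`. -/
noncomputable def ee (θ : IrrCharacter T) : GA T :=
  ((idem ({θ} : Set (IrrCharacter T)) : Subalgebra.center ℂ (GA T)) : GA T)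

theorem deg_ne_zero (θ : IrrCharacter T) : (θ : T → ℂ) 1 ≠ 0 :=
  Cfsg.Agent.Lib.Char.Complete.irr_one_ne_zero θ.2

theorem card_ne_zero' : (Nat.card T : ℂ) ≠ 0 := Nat.cast_ne_zero.mpr Nat.card_pos.ne'

theorem ee_eq (θ : IrrCharacter T) : ee θ = ((θ : T → ℂ) 1 / (Nat.card T : ℂ)) • EE θ := by
  ext g
  rw [ee, coeff_idem, coeff_smul', EE_coeff, blockCoeff, finsum_mem_singleton]
  ring

theorem EE_eq (θ : IrrCharacter T) : EE θ = ((Nat.card T : ℂ) / (θ : T → ℂ) 1) • ee θ := by
  have h : (Nat.card T : ℂ) / (θ : T → ℂ) 1 * ((θ : T → ℂ) 1 / (Nat.card T : ℂ)) = 1 := by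
    have hd := deg_ne_zero θ
    have hc : (Nat.card T : ℂ) ≠ 0 := card_ne_zero'
    field_simp
  rw [ee_eq, smul_smul, h, one_smul]

theorem ee_central (θ : IrrCharacter T) : IsCentral (ee θ) := isCentral_of_mem _

theorem ee_comm (θ : IrrCharacter T) (y : GA T) : y * ee θ = ee θ * y :=
  (isCentral_iff_comm _).1 (ee_central θ) y

theorem EE_comm (θ : IrrCharacter T) (y : GA T) : y * EE θ = EE θ * y := by
  rw [EE_eq, mul_smul_comm, smul_mul_assoc, ee_comm]

theorem ee_mul_self (θ : IrrCharacter T) : ee θ * ee θ = ee θ :=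
  congrArg Subtype.val (Cfsg.Agent.Lib.Blocks.Weak.idem_mul_self ({θ} : Set (IrrCharacter T)))

theorem EE_mul_ee (θ : IrrCharacter T) : EE θ * ee θ = EE θ := by
  rw [EE_eq, smul_mul_assoc, ee_mul_self]

theorem EE_mul_self (θ : IrrCharacter T) :
    EE θ * EE θ = ((Nat.card T : ℂ) / (θ : T → ℂ) 1) • EE θ := by
  have h : EE θ * EE θ = EE θ * (((Nat.card T : ℂ) / (θ : T → ℂ) 1) • ee θ) := by rw [← EE_eq]
  rw [h, mul_smul_comm, EE_mul_ee]

theorem ee_mul_of_ne {θ ψ : IrrCharacter T} (h : θ ≠ ψ) : ee θ * ee ψ = 0 := by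
  classical
  have h1 : idem ({θ} : Set (IrrCharacter T)) * idem ({ψ} : Set (IrrCharacter T)) = 0 := by
    apply omegaHom_injective
    intro χ
    rw [map_mul, omegaHom_idem, omegaHom_idem, map_zero]
    by_cases h2 : χ = θ
    · subst h2
      simp [h]
    · simp [h2]
  exact congrArg Subtype.val h1

theorem EE_mul_of_ne {θ ψ : IrrCharacter T} (h : θ ≠ ψ) : EE θ * EE ψ = 0 := by
  rw [EE_eq θ, EE_eq ψ, smul_mul_smul_comm, ee_mul_of_ne h, smul_zero]

theorem sum_deg_EE : ∑ θ : IrrCharacter T, ((θ : T → ℂ) 1) • EE θ = (Nat.card T : ℂ) • (1 : GA T) := by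
  classical
  ext g
  rw [coeff_sum', coeff_smul', coeff_one']
  simp only [coeff_smul', EE_coeff]
  have h := Cfsg.Agent.Lib.Char.Complete.sum_irr_mul_conj (G := T) 1 g
  rw [h]
  by_cases hg : g = 1
  · subst hg
    rw [if_pos (IsConj.refl _), if_pos rfl, mul_one]
    have hc : Subgroup.centralizer ({1} : Set T) = ⊤ := by
      rw [Subgroup.centralizer_eq_top_iff_subset]
      simp
    rw [hc]
    simp
  · rw [if_neg (fun h3 => hg (isConj_one_right.mp h3)), if_neg hg, mul_zero]

variable [IsDomain K]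

/-- **The key lemma**: an element of the `θ`-component that is a multiple of an idempotent and is killed by the
reduction vanishes, when the reduction of the `θ`-component does not vanish. -/
theorem eq_zero_of_Phi {M : Ideal AlgInt} (hM : IsPModular 2 M) (hker : ∀ a, red a = 0 ↔ a ∈ M)
    (hcard : Odd (Nat.card T)) (θ : IrrCharacter T) (hθ : Phi red rk (EE θ) ≠ 0) {x : GA T} (hIC : IC x)
    (hx : ee θ * x = x) (r : ℕ) (hr : Odd r) (hxx : x * x = (r : ℂ) • x) (hΦ : Phi red rk x = 0) : x = 0 := by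
  classical
  have hMp : M.IsPrime := hM.2.1.isPrime
  -- the coefficients reduce to zero
  have hcoef : ∀ g₀ : T, res red (x.coeff g₀) = 0 := by
    intro g₀
    set y : GA T := x * single g₀⁻¹ 1 with hy
    have hy1 : y.coeff 1 = x.coeff g₀ := coeff_mul_single_inv x g₀
    have hICy : IC y := IC.mul hIC (IC.single _)
    have hΦy : Phi red rk y = 0 := by
      rw [hy, Phi_mul red rk hIC (IC.single _), hΦ, zero_mul]
    have hey : ee θ * y = y := by
      rw [hy, ← mul_assoc, hx]
    have hlin : ∀ χ : IrrCharacter T, χ ≠ θ → lin (χ : T → ℂ) y = 0 := by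
      intro χ hχ
      rw [← hey]
      have := lin_idem_mul ({θ} : Set (IrrCharacter T)) χ y
      rw [if_neg (by simpa using hχ)] at this
      exact this
    have h1 : (Nat.card T : ℂ) * y.coeff 1 = (θ : T → ℂ) 1 * lin (θ : T → ℂ) y := by
      rw [card_mul_coeff_one, Finset.sum_eq_single θ]
      · intro χ _ hχ
        rw [hlin χ hχ, mul_zero]
      · intro h
        exact absurd (Finset.mem_univ θ) h
    set z : GA T := ∑ h : T, cj h y with hz
    have hzc : IsCentral z := by
      intro g k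
      rw [hz, coeff_sum', coeff_sum']
      refine Fintype.sum_equiv (Equiv.mulLeft k⁻¹) _ _ fun h => ?_
      rw [coeff_cj, coeff_cj]
      congr 1
      simp only [Equiv.coe_mulLeft]
      group
    let zc : Subalgebra.center ℂ (GA T) := ⟨z, (mem_center_iff z).2 hzc⟩
    have hlz : ∀ χ : IrrCharacter T, lin (χ : T → ℂ) z = (Nat.card T : ℂ) * lin (χ : T → ℂ) y := by
      intro χ
      rw [hz, map_sum]
      have h2 : ∀ h : T, lin (χ : T → ℂ) (cj h y) = lin (χ : T → ℂ) y := by
        intro h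
        have hcl := Cfsg.Agent.Lib.Char.Basic.isClassFunction_of_isIrrCharacter χ.2
        rw [cj, lin_mul_comm hcl, ← mul_assoc, single_mul_single, inv_mul_cancel, one_mul]
        have : (single (1 : T) (1 : ℂ) : GA T) = 1 := rfl
        rw [this, one_mul]
      simp_rw [h2]
      rw [Finset.sum_const, Finset.card_univ, nsmul_eq_mul, Nat.card_eq_fintype_card]
    have hzeq : zc = (omegaHom θ zc) • idem ({θ} : Set (IrrCharacter T)) := by
      apply omegaHom_injective
      intro χ
      rw [map_smul, omegaHom_idem, smul_eq_mul]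
      by_cases hχ : χ = θ
      · subst hχ
        rw [if_pos (Set.mem_singleton _), mul_one]
      · rw [if_neg (by simpa using hχ), mul_zero, omegaHom_apply]
        change lin (χ : T → ℂ) z / _ = 0
        rw [hlz, hlin χ hχ, mul_zero, zero_div]
    have hzeq' : z = (omegaHom θ zc) • ee θ := congrArg Subtype.val hzeq
    have hω : omegaHom θ zc = (Nat.card T : ℂ) * lin (θ : T → ℂ) y / (θ : T → ℂ) 1 := by
      rw [omegaHom_apply]
      change lin (θ : T → ℂ) z / _ = _
      rw [hlz]
    have hz2 : ((θ : T → ℂ) 1) • z = ((Nat.card T : ℂ) * x.coeff g₀) • EE θ := by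
      rw [hzeq', hω, ee_eq, smul_smul, smul_smul, ← hy1]
      congr 1
      have hd := deg_ne_zero θ
      have hc : (Nat.card T : ℂ) ≠ 0 := card_ne_zero'
      rw [h1]
      field_simp
    have hICcj : ∀ h : T, IC (cj h y) := fun h => IC.mul (IC.mul (IC.single _) hICy) (IC.single _)
    have hICz : IC z := IC.sum _ _ fun h _ => hICcj h
    have hΦz : Phi red rk z = 0 := by
      rw [hz, Phi_sum red rk Finset.univ (fun h => cj h y) fun h _ => hICcj h]
      refine Finset.sum_eq_zero fun h _ => ?_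
      rw [cj, Phi_mul red rk (IC.mul (IC.single _) hICy) (IC.single _),
        Phi_mul red rk (IC.single _) hICy, hΦy, mul_zero, zero_mul]
    have hd1 : (θ : T → ℂ) 1 ∈ (AlgInt : Subalgebra ℤ ℂ) := irr_mem_algInt θ 1
    have hcT : (Nat.card T : ℂ) ∈ (AlgInt : Subalgebra ℤ ℂ) := natCast_mem _ _
    have h3 := congrArg (Phi red rk) hz2
    rw [Phi_smul red rk hd1 hICz, hΦz, smul_zero,
      Phi_smul red rk (mul_mem hcT (hIC g₀)) (IC_EE θ), res_mul red hcT (hIC g₀), res_natCast] at h3
    have h4 := (smul_eq_zero.1 h3.symm).resolve_right hθ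
    have hne : ((Nat.card T : ℕ) : K) ≠ 0 := by
      intro h5
      have h6 : red ((Nat.card T : ℕ) : (AlgInt : Subalgebra ℤ ℂ)) = 0 := by
        rw [map_natCast]
        exact h5
      rw [hker] at h6
      haveI : Fact (Nat.Prime 2) := ⟨Nat.prime_two⟩
      have h7 := (natCast_mem_iff hM _).1 h6
      exact hcard.not_two_dvd_nat h7
    exact (mul_eq_zero.1 h4).resolve_left hne
  -- Nakayama
  let a : T → (AlgInt : Subalgebra ℤ ℂ) := fun g => ⟨x.coeff g, hIC g⟩
  have haM : ∀ g, a g ∈ M := by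
    intro g
    rw [← hker, ← res_coe red (a g)]
    exact hcoef g
  have hrec : ∀ g, ((r : (AlgInt : Subalgebra ℤ ℂ))) * a g = ∑ h : T, a h * a (h⁻¹ * g) := by
    intro g
    apply Subtype.ext
    have h1 := congrArg (fun w : GA T => w.coeff g) hxx
    simp only [coeff_smul', coeff_mul_sum] at h1
    push_cast
    exact h1.symm
  let J : Ideal (AlgInt : Subalgebra ℤ ℂ) := Ideal.span (Set.range a)
  have hJg : J.FG := ⟨(Set.finite_range a).toFinset, by simp [J]⟩
  have hr1 : (r : (AlgInt : Subalgebra ℤ ℂ)) - 1 ∈ M := by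
    obtain ⟨m, hm⟩ := hr
    have h2 : ((2 : ℕ) : (AlgInt : Subalgebra ℤ ℂ)) ∈ M := hM.2.2
    have : (r : (AlgInt : Subalgebra ℤ ℂ)) - 1 = (m : (AlgInt : Subalgebra ℤ ℂ)) * ((2 : ℕ) : (AlgInt : Subalgebra ℤ ℂ)) := by
      rw [hm]
      push_cast
      ring
    rw [this]
    exact M.mul_mem_left _ h2
  have hJle : J ≤ M • J := by
    rw [Ideal.span_le]
    rintro _ ⟨g, rfl⟩
    have h1 : a g = ∑ h : T, a h * a (h⁻¹ * g) - ((r : (AlgInt : Subalgebra ℤ ℂ)) - 1) * a g := by
      rw [← hrec]
      ring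
    rw [SetLike.mem_coe, h1]
    refine sub_mem (sum_mem fun h _ => ?_) ?_
    · exact Submodule.smul_mem_smul (haM h) (Ideal.subset_span ⟨_, rfl⟩)
    · exact Submodule.smul_mem_smul hr1 (Ideal.subset_span ⟨_, rfl⟩)
  obtain ⟨s, hs1, hs2⟩ := Submodule.exists_sub_one_mem_and_smul_eq_zero_of_fg_of_le_smul M J hJg hJle
  have hs0 : s ≠ 0 := by
    rintro rfl
    have h1 : (1 : (AlgInt : Subalgebra ℤ ℂ)) ∈ M := by
      have := M.neg_mem hs1
      simpa using this
    exact hMp.ne_top ((Ideal.eq_top_iff_one M).2 h1)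
  ext g
  have h1 := hs2 (a g) (Ideal.subset_span ⟨g, rfl⟩)
  have h2 : a g = 0 := (smul_eq_zero.1 h1).resolve_left hs0
  have h3 := congrArg Subtype.val h2
  exact h3

end Main

end Cfsg.Agent.Lib.RankOneOdd.Lift
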