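import Mathlib
import Cfsg.Agent.Lib.RankOneOdd.Lift
import Cfsg.Agent.Lib.RankOneOdd.Struct
import Cfsg.Agent.Lib.OddChar.GaloisConj

/-!
# Consequences of the reduction lemma
-/

set_option autoImplicit false
set_option linter.unusedSectionVars false

namespace Cfsg.Agent.Lib.RankOneOdd.LiftApp

open Cfsg MonoidAlgebra Module
open Cfsg.Agent.Lib.Blocks.Local Cfsg.Agent.Lib.Blocks.Central
open Cfsg.Agent.Lib.BP.Cj Cfsg.Agent.Lib.BK.Coef
open Cfsg.Agent.Lib.RankOneOdd.Lift Cfsg.Agent.Lib.RankOneOdd.Weights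
open Cfsg.Agent.Lib.RankOneOdd.Struct
open scoped ComplexConjugate

universe u v w

variable {T : Type u} [Group T] [Fintype T] {K : Type w} [CommRing K] {red : (AlgInt : Subalgebra ℤ ℂ) →+* K}
variable {A : Type v} [CommGroup A] [Fintype A] (ι : A →* T)

/-- Orthogonal nonzero idempotents in a matrix ring are few. -/
theorem card_le_of_orth [IsDomain K] {n : ℕ} {J : Type*} (I : Finset J) (Q : J → Matrix (Fin n) (Fin n) K)
    (h0 : ∀ i ∈ I, Q i ≠ 0) (h1 : ∀ i ∈ I, Q i * Q i = Q i)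
    (h2 : ∀ i ∈ I, ∀ j ∈ I, i ≠ j → Q i * Q j = 0) : I.card ≤ n := by
  classical
  have hv : ∀ i : I, ∃ v : Fin n → K, (Q i).mulVec v ≠ 0 := by
    intro i
    by_contra hall
    push Not at hall
    apply h0 i i.2
    ext a b
    have h3 := congrFun (hall (Pi.single b 1)) a
    simpa [Matrix.mulVec_single_one] using h3
  choose v hv using hv
  let w : I → (Fin n → K) := fun i => (Q i).mulVec (v i)
  have hw : ∀ i j : I, (Q i).mulVec (w j) = if i = j then w j else 0 := by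
    intro i j
    simp only [w]
    rw [Matrix.mulVec_mulVec]
    by_cases hij : i = j
    · subst hij
      rw [if_pos rfl, h1 i i.2]
    · rw [if_neg hij, h2 i i.2 j j.2 (fun h => hij (Subtype.ext h)), Matrix.zero_mulVec]
  have hli : LinearIndependent K w := by
    rw [Fintype.linearIndependent_iff]
    intro c hc i
    have h3 := congrArg (Q i).mulVec hc
    rw [Matrix.mulVec_zero, Matrix.mulVec_sum] at h3
    simp only [Matrix.mulVec_smul, hw] at h3
    rw [Finset.sum_eq_single i] at h3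
    · rw [if_pos rfl] at h3
      exact (smul_eq_zero.1 h3).resolve_right (hv i)
    · intro j _ hj
      rw [if_neg (Ne.symm hj), smul_zero]
    · intro h
      exact absurd (Finset.mem_univ i) h
  have h3 := hli.fintype_card_le_finrank
  rw [Module.finrank_fin_fun, Fintype.card_coe] at h3
  exact h3

/-- The element `∑ ν(a)⁻¹ ι(a)`. -/
noncomputable def EN (ν : A →* ℂˣ) : GA T := ∑ a : A, (conj (nuF ν a)) • (single (ι a) 1 : GA T)

theorem nuF_mem_algInt (ν : A →* ℂˣ) (a : A) : nuF ν a ∈ (AlgInt : Subalgebra ℤ ℂ) := by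
  obtain ⟨m, ρ, _, h⟩ := nuF_irr ν
  have := Cfsg.Agent.Lib.Char.Eigen.character_mem_algInt ρ a
  rwa [h] at this

theorem conj_nuF_mem_algInt (ν : A →* ℂˣ) (a : A) : conj (nuF ν a) ∈ (AlgInt : Subalgebra ℤ ℂ) := by
  rw [nuF_conj]
  exact nuF_mem_algInt _ _

theorem IC_EN (ν : A →* ℂˣ) : IC (EN ι ν : GA T) :=
  IC.sum _ _ fun a _ => IC.smul (conj_nuF_mem_algInt ν a) (IC.single _)

theorem lin_EN (χ : T → ℂ) (ν : A →* ℂˣ) :
    lin χ (EN ι ν) = (Nat.card A : ℂ) * classInner (fun a => χ (ι a)) (nuF ν) := by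
  have hA : (Nat.card A : ℂ) ≠ 0 := Nat.cast_ne_zero.mpr Nat.card_pos.ne'
  rw [Cfsg.Agent.Lib.Char.Ortho.classInner_def, mul_inv_cancel_left₀ hA, EN, map_sum]
  refine Finset.sum_congr rfl fun a _ => ?_
  rw [map_smul, smul_eq_mul, lin_single, one_mul, mul_comm]

/-- Twisting `EN` by an element of `A`. -/
theorem single_mul_EN (ν : A →* ℂˣ) (a₀ : A) :
    (single (ι a₀) 1 : GA T) * EN ι ν = nuF ν a₀ • EN ι ν := by
  rw [EN, Finset.mul_sum, Finset.smul_sum]
  refine Fintype.sum_equiv (Equiv.mulLeft a₀) _ _ fun a => ?_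
  rw [mul_smul_comm, single_mul_single, one_mul, ← map_mul, smul_smul]
  simp only [Equiv.coe_mulLeft]
  congr 1
  have h1 : nuF ν a₀ * conj (nuF ν a₀) = 1 := by
    rw [nuF_conj, ← nuF_mul]
    simp [nuF]
  rw [nuF_conj, nuF_conj]
  simp only [nuF, map_mul, MonoidHom.inv_apply, Units.val_mul, Units.val_inv_eq_inv_val]
  have h2 : ((ν a₀ : ℂˣ) : ℂ) ≠ 0 := Units.ne_zero _
  field_simp

open Classical in
theorem EN_mul (ν μ : A →* ℂˣ) :
    (EN ι ν : GA T) * EN ι μ = if ν = μ then (Nat.card A : ℂ) • EN ι ν else 0 := by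
  have h1 : (EN ι ν : GA T) * EN ι μ = ∑ a : A, conj (nuF ν a) • ((single (ι a) 1 : GA T) * EN ι μ) := by
    rw [EN, Finset.sum_mul]
    refine Finset.sum_congr rfl fun a _ => ?_
    rw [smul_mul_assoc]
  simp_rw [single_mul_EN, smul_smul] at h1
  rw [h1, ← Finset.sum_smul]
  have h2 : ∑ a : A, conj (nuF ν a) * nuF μ a = (Nat.card A : ℂ) * classInner (nuF μ) (nuF ν) := by
    have hA : (Nat.card A : ℂ) ≠ 0 := Nat.cast_ne_zero.mpr Nat.card_pos.ne'
    rw [Cfsg.Agent.Lib.Char.Ortho.classInner_def, mul_inv_cancel_left₀ hA]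
    exact Finset.sum_congr rfl fun a _ => mul_comm _ _
  rw [h2, inner_nuF]
  by_cases h : ν = μ
  · subst h
    rw [if_pos rfl, if_pos rfl, mul_one]
  · rw [if_neg (Ne.symm h), if_neg h, mul_zero, zero_smul]

section Main

variable [Fintype (IrrCharacter T)] {n : ℕ} {rk : T →* Matrix (Fin n) (Fin n) K} [IsDomain K]

theorem charDegree_cast (θ : IrrCharacter T) : (θ : T → ℂ) 1 = (charDegree (θ : T → ℂ) : ℂ) := by
  obtain ⟨m, _, hm⟩ := Cfsg.Agent.Lib.Char.Complete.exists_pos_deg_of_isIrr θ.2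
  unfold charDegree
  rw [hm]
  simp

/-- The integer `|T| / θ(1)`. -/
noncomputable def rr (θ : IrrCharacter T) : ℕ := Nat.card T / charDegree (θ : T → ℂ)

theorem rr_cast (θ : IrrCharacter T) : (rr θ : ℂ) = (Nat.card T : ℂ) / (θ : T → ℂ) 1 := by
  rw [rr, charDegree_cast, Nat.cast_div (Cfsg.Agent.Lib.Char.Degree.charDegree_dvd_card θ.2)]
  rw [← charDegree_cast]
  exact deg_ne_zero θ

theorem rr_odd (hcard : Odd (Nat.card T)) (θ : IrrCharacter T) : Odd (rr θ) := by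
  have h := Cfsg.Agent.Lib.Char.Degree.charDegree_dvd_card θ.2
  exact Odd.of_dvd_nat hcard (Nat.div_dvd_of_dvd h)

theorem deg_odd (hcard : Odd (Nat.card T)) (θ : IrrCharacter T) : Odd (charDegree (θ : T → ℂ)) :=
  Odd.of_dvd_nat hcard (Cfsg.Agent.Lib.Char.Degree.charDegree_dvd_card θ.2)

theorem EN_mul_EE_sq (θ : IrrCharacter T) (ν : A →* ℂˣ) :
    (EN ι ν * EE θ : GA T) * (EN ι ν * EE θ) = ((Nat.card A * rr θ : ℕ) : ℂ) • (EN ι ν * EE θ) := by
  classical
  have h1 : (EN ι ν * EE θ : GA T) * (EN ι ν * EE θ) = (EN ι ν * EN ι ν) * (EE θ * EE θ) := by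
    rw [mul_assoc, ← mul_assoc (EE θ), ← EE_comm, mul_assoc, mul_assoc]
  rw [h1, EN_mul, if_pos rfl, EE_mul_self, smul_mul_assoc, mul_smul_comm, smul_smul, Nat.cast_mul, rr_cast]

theorem ee_mul_EN_mul_EE (θ : IrrCharacter T) (ν : A →* ℂˣ) :
    ee θ * (EN ι ν * EE θ : GA T) = EN ι ν * EE θ := by
  rw [← mul_assoc, ← ee_comm, mul_assoc, ← ee_comm θ (EE θ), EE_mul_ee]

theorem EN_mul_EE_ne_zero (θ : IrrCharacter T) {ν : A →* ℂˣ} (h : mm ι θ ν ≠ 0) :
    (EN ι ν * EE θ : GA T) ≠ 0 := by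
  intro h0
  have h1 : lin (θ : T → ℂ) (EE θ * EN ι ν) = 0 := by
    rw [← EE_comm, h0, map_zero]
  rw [EE_eq, smul_mul_assoc, map_smul, smul_eq_mul, ee] at h1
  have h2 := lin_idem_mul ({θ} : Set (IrrCharacter T)) θ (EN ι ν)
  rw [if_pos (Set.mem_singleton _)] at h2
  rw [h2, lin_EN, mm_spec] at h1
  have hc : (Nat.card T : ℂ) / (θ : T → ℂ) 1 ≠ 0 := div_ne_zero card_ne_zero' (deg_ne_zero θ)
  have hA : (Nat.card A : ℂ) ≠ 0 := Nat.cast_ne_zero.mpr Nat.card_pos.ne'
  have h3 : ((mm ι θ ν : ℤ) : ℂ) = 0 := by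
    rcases mul_eq_zero.1 h1 with h4 | h4
    · exact absurd h4 hc
    · exact (mul_eq_zero.1 h4).resolve_left hA
  exact h (by exact_mod_cast h3)

variable {M : Ideal AlgInt}

/-- The reduction of `EN ν * EE θ` does not vanish for a weight `ν` of `θ`. -/
theorem Phi_EN_EE_ne_zero (hM : IsPModular 2 M) (hker : ∀ a, red a = 0 ↔ a ∈ M)
    (hcard : Odd (Nat.card T)) (hA : Odd (Nat.card A)) {θ : IrrCharacter T} (hθ : Phi red rk (EE θ) ≠ 0)
    {ν : A →* ℂˣ} (h : mm ι θ ν ≠ 0) : Phi red rk (EN ι ν * EE θ) ≠ 0 := by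
  intro h0
  have h1 := eq_zero_of_Phi hM hker hcard θ hθ (IC.mul (IC_EN ι ν) (IC_EE θ)) (ee_mul_EN_mul_EE ι θ ν)
    (Nat.card A * rr θ) (hA.mul (rr_odd hcard θ)) (EN_mul_EE_sq ι θ ν) h0
  exact EN_mul_EE_ne_zero ι θ h h1

theorem natCast_odd_eq_one (h2 : (2 : K) = 0) {m : ℕ} (hm : Odd m) : (m : K) = 1 := by
  obtain ⟨k, rfl⟩ := hm
  push_cast
  rw [h2]
  ring

/-- The reductions of the `EE θ` form a complete system. -/
theorem sum_Phi_EE (h2 : (2 : K) = 0) (hcard : Odd (Nat.card T)) :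
    ∑ θ : IrrCharacter T, Phi red rk (EE θ) = 1 := by
  have h1 := congrArg (Phi red rk) (sum_deg_EE (T := T))
  rw [Phi_sum red rk _ _ fun θ _ => IC.smul (irr_mem_algInt θ 1) (IC_EE θ),
    Phi_smul red rk (natCast_mem _ _) IC.one, Phi_one, res_natCast, natCast_odd_eq_one h2 hcard, one_smul] at h1
  rw [← h1]
  refine Finset.sum_congr rfl fun θ _ => ?_
  rw [Phi_smul red rk (irr_mem_algInt θ 1) (IC_EE θ), charDegree_cast, res_natCast,
    natCast_odd_eq_one h2 (deg_odd hcard θ), one_smul]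

theorem Phi_EE_mul_self (h2 : (2 : K) = 0) (hcard : Odd (Nat.card T)) (θ : IrrCharacter T) :
    Phi red rk (EE θ) * Phi red rk (EE θ) = Phi red rk (EE θ) := by
  rw [← Phi_mul red rk (IC_EE θ) (IC_EE θ), EE_mul_self, ← rr_cast,
    Phi_smul red rk (natCast_mem _ _) (IC_EE θ), res_natCast, natCast_odd_eq_one h2 (rr_odd hcard θ), one_smul]

theorem Phi_EE_mul_of_ne {θ ψ : IrrCharacter T} (h : θ ≠ ψ) :
    Phi red rk (EE θ) * Phi red rk (EE ψ) = 0 := by
  rw [← Phi_mul red rk (IC_EE θ) (IC_EE ψ), EE_mul_of_ne h, Phi_zero]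

open Classical in
/-- The set of irreducible characters surviving the reduction. -/
noncomputable def SS (red : (AlgInt : Subalgebra ℤ ℂ) →+* K) (rk : T →* Matrix (Fin n) (Fin n) K) :
    Finset (IrrCharacter T) := Finset.univ.filter fun θ => Phi red rk (EE θ) ≠ 0

theorem mem_SS {θ : IrrCharacter T} : θ ∈ SS red rk ↔ Phi red rk (EE θ) ≠ 0 := by
  simp [SS]

theorem SS_nonempty (h2 : (2 : K) = 0) (hcard : Odd (Nat.card T)) (hn : 0 < n) : (SS red rk).Nonempty := by
  by_contra h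
  rw [Finset.not_nonempty_iff_eq_empty] at h
  have h3 := sum_Phi_EE (red := red) (rk := rk) h2 hcard
  rw [Finset.sum_eq_zero] at h3
  · haveI : Nonempty (Fin n) := ⟨⟨0, hn⟩⟩
    exact zero_ne_one h3
  · intro θ _
    by_contra h4
    have : θ ∈ SS red rk := mem_SS.2 h4
    rw [h] at this
    exact absurd this (Finset.notMem_empty θ)

variable [Fintype (A →* ℂˣ)]

/-- **The weight count.** -/
theorem sum_card_Wt_le (hM : IsPModular 2 M) (hker : ∀ a, red a = 0 ↔ a ∈ M) (h2 : (2 : K) = 0)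
    (hcard : Odd (Nat.card T)) (hA : Odd (Nat.card A)) :
    ∑ θ ∈ SS red rk, (Wt ι θ).card ≤ n := by
  classical
  rw [← Finset.card_sigma]
  let Q : (Σ _ : IrrCharacter T, A →* ℂˣ) → Matrix (Fin n) (Fin n) K :=
    fun x => Phi red rk (EN ι x.2 * EE x.1)
  have hmem : ∀ x, x ∈ (SS red rk).sigma (fun θ => Wt ι θ) ↔ x.1 ∈ SS red rk ∧ x.2 ∈ Wt ι x.1 := by
    intro x
    exact Finset.mem_sigma
  apply card_le_of_orth _ Q
  · intro x hx
    rw [hmem] at hx
    exact Phi_EN_EE_ne_zero ι hM hker hcard hA (mem_SS.1 hx.1) (mem_Wt.1 hx.2)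
  · intro x _
    change Phi red rk _ * Phi red rk _ = Phi red rk _
    rw [← Phi_mul red rk (IC.mul (IC_EN ι _) (IC_EE _)) (IC.mul (IC_EN ι _) (IC_EE _)), EN_mul_EE_sq,
      Phi_smul red rk (natCast_mem _ _) (IC.mul (IC_EN ι _) (IC_EE _)), res_natCast,
      natCast_odd_eq_one h2 (hA.mul (rr_odd hcard _)), one_smul]
  · rintro ⟨θ, ν⟩ _ ⟨ψ, μ⟩ _ hne
    change Phi red rk _ * Phi red rk _ = 0
    rw [← Phi_mul red rk (IC.mul (IC_EN ι _) (IC_EE _)) (IC.mul (IC_EN ι _) (IC_EE _))]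
    have h1 : (EN ι ν * EE θ : GA T) * (EN ι μ * EE ψ) = (EN ι ν * EN ι μ) * (EE θ * EE ψ) := by
      rw [mul_assoc, ← mul_assoc (EE θ), ← EE_comm, mul_assoc, mul_assoc]
    rw [h1]
    by_cases hθ : θ = ψ
    · subst hθ
      have hνμ : ν ≠ μ := fun h => hne (by rw [h])
      rw [EN_mul, if_neg hνμ, zero_mul, Phi_zero]
    · rw [EE_mul_of_ne hθ, mul_zero, Phi_zero]

/-- A fixed-point-free element is not killed by any weight of a surviving character. -/
theorem ne_one_of_mm (hM : IsPModular 2 M) (hker : ∀ a, red a = 0 ↔ a ∈ M)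
    (hcard : Odd (Nat.card T)) (hA : Odd (Nat.card A)) {a₀ : A} (hu : IsUnit (rk (ι a₀) - 1))
    {θ : IrrCharacter T} (hθ : θ ∈ SS red rk) {ν : A →* ℂˣ} (h : mm ι θ ν ≠ 0) : ν a₀ ≠ 1 := by
  intro h1
  have h3 := Phi_EN_EE_ne_zero (rk := rk) ι hM hker hcard hA (mem_SS.1 hθ) h
  apply h3
  rw [Phi_mul red rk (IC_EN ι ν) (IC_EE θ)]
  have h4 : (single (ι a₀) 1 : GA T) * EN ι ν = EN ι ν := by
    rw [single_mul_EN]
    simp [nuF, h1]
  have h5 := congrArg (Phi red rk) h4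
  rw [Phi_mul red rk (IC.single _) (IC_EN ι ν), Phi_single] at h5
  have h6 : (rk (ι a₀) - 1) * Phi red rk (EN ι ν) = 0 := by
    rw [sub_mul, one_mul, h5, sub_self]
  obtain ⟨u, hu'⟩ := hu
  rw [← hu'] at h6
  have h7 := (Units.mul_right_eq_zero u).1 h6
  rw [h7, zero_mul]

/-- If all surviving characters are linear, the representation has commutative image. -/
theorem rk_comm_of_linear (h2 : (2 : K) = 0) (hcard : Odd (Nat.card T))
    (hlin : ∀ θ ∈ SS red rk, (θ : T → ℂ) 1 = 1) (x y : T) : rk (x * y) = rk (y * x) := by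
  classical
  have key : ∀ g : T, rk g = ∑ θ : IrrCharacter T, res red ((θ : T → ℂ) g) • Phi red rk (EE θ) := by
    intro g
    have h1 := sum_Phi_EE (red := red) (rk := rk) h2 hcard
    calc rk g = 1 * rk g := (one_mul _).symm
      _ = ∑ θ : IrrCharacter T, Phi red rk (EE θ) * rk g := by rw [← h1, Finset.sum_mul]
      _ = _ := by
        refine Finset.sum_congr rfl fun θ _ => ?_
        by_cases hθ : θ ∈ SS red rk
        · have hl := hlin θ hθ
          have hch := Cfsg.Agent.Lib.Char.Basic.isCharacter_of_isIrrCharacter θ.2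
          have h3 : (EE θ : GA T) * single g 1 = ((θ : T → ℂ) g) • EE θ := by
            ext h
            rw [coeff_mul_single', coeff_smul', EE_coeff, EE_coeff, conj_irr_eq,
              conj_irr_eq, mul_inv_rev, inv_inv,
              Cfsg.Agent.Lib.Char.Linear.deg_one_mul hch hl]
          have h4 := congrArg (Phi red rk) h3
          rw [Phi_mul red rk (IC_EE θ) (IC.single _), Phi_single,
            Phi_smul red rk (irr_mem_algInt θ g) (IC_EE θ)] at h4
          exact h4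
        · have h3 : Phi red rk (EE θ) = 0 := by
            by_contra h4
            exact hθ (mem_SS.2 h4)
          rw [h3, zero_mul, smul_zero]
  rw [key (x * y), key (y * x)]
  refine Finset.sum_congr rfl fun θ _ => ?_
  rw [Cfsg.Agent.Lib.Blocks.Central.comm_of_class
    (Cfsg.Agent.Lib.Char.Basic.isClassFunction_of_isIrrCharacter θ.2) x y]

end Main

end Cfsg.Agent.Lib.RankOneOdd.LiftApp
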