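import Mathlib
import Cfsg.Agent.Lib.RankOneOdd.LiftApp

/-!
# The bound on the number of weights of a surviving character
-/

set_option autoImplicit false
set_option linter.unusedSectionVars false

namespace Cfsg.Agent.Lib.RankOneOdd.Bound

open Cfsg MonoidAlgebra Module
open Cfsg.Agent.Lib.Blocks.Local Cfsg.Agent.Lib.Blocks.Central
open Cfsg.Agent.Lib.BP.Cj Cfsg.Agent.Lib.BK.Coef
open Cfsg.Agent.Lib.RankOneOdd.Lift Cfsg.Agent.Lib.RankOneOdd.Weights
open Cfsg.Agent.Lib.RankOneOdd.Struct Cfsg.Agent.Lib.RankOneOdd.Family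
open Cfsg.Agent.Lib.RankOneOdd.LiftApp
open Cfsg.Agent.Lib.OddChar.GaloisConj
open scoped ComplexConjugate

universe u v w

variable {T : Type u} [Group T] [Fintype T] {K : Type w} [CommRing K] [IsDomain K]
  {red : (AlgInt : Subalgebra ℤ ℂ) →+* K}
variable {A : Type v} [CommGroup A] [Fintype A] (ι : A →* T)

/-- Frobenius on character values. -/
theorem res_sq (h2 : (2 : K) = 0) (θ : IrrCharacter T) (g : T) :
    res red ((θ : T → ℂ) (g ^ 2)) = res red ((θ : T → ℂ) g) ^ 2 := by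
  obtain ⟨χ, m, ρ, _, rfl⟩ := θ
  obtain ⟨μ, h1, h3⟩ := Cfsg.Agent.Lib.Char.Eigen.character_eq_sum_roots ρ g
  have hμ : ∀ i, μ i ∈ (AlgInt : Subalgebra ℤ ℂ) := fun i =>
    Cfsg.Agent.Lib.Char.Eigen.isIntegral_of_pow_eq_one (orderOf_pos g).ne' (h1 i)
  have h4 := h3 2
  have h5 := h3 1
  rw [pow_one] at h5
  simp only [pow_one] at h5
  haveI : CharP K 2 := CharTwo.of_one_ne_zero_of_two_eq_zero one_ne_zero h2
  haveI : Fact (Nat.Prime 2) := ⟨Nat.prime_two⟩
  change res red (ρ.character (g ^ 2)) = res red (ρ.character g) ^ 2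
  rw [h4, h5, res_sum red _ _ (fun i _ => pow_mem (hμ i) 2), res_sum red _ _ (fun i _ => hμ i),
    sum_pow_char 2]
  refine Finset.sum_congr rfl fun i _ => ?_
  rw [pow_two, res_mul red (hμ i) (hμ i), pow_two]

variable [Fintype (IrrCharacter T)] {n : ℕ} {rk : T →* Matrix (Fin n) (Fin n) K}

theorem coprime_two_of_odd {m : ℕ} (h : Odd m) : Nat.Coprime 2 m :=
  Nat.coprime_two_left.2 h

/-- The square twist of an irreducible character. -/
noncomputable def sqI (hcard : Odd (Nat.card T)) (θ : IrrCharacter T) : IrrCharacter T :=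
  ⟨fun g => (θ : T → ℂ) (g ^ 2), isIrrCharacter_pow (coprime_two_of_odd hcard) θ.2⟩

@[simp] theorem sqI_apply (hcard : Odd (Nat.card T)) (θ : IrrCharacter T) (g : T) :
    (sqI hcard θ : T → ℂ) g = (θ : T → ℂ) (g ^ 2) := rfl

theorem Phi_EE_sq_apply (h2 : (2 : K) = 0) (hF2 : ∀ g i j, (rk g i j) ^ 2 = rk g i j)
    (hcard : Odd (Nat.card T)) (θ : IrrCharacter T) (i j : Fin n) :
    Phi red rk (EE (sqI hcard θ)) i j = (Phi red rk (EE θ) i j) ^ 2 := by
  haveI : CharP K 2 := CharTwo.of_one_ne_zero_of_two_eq_zero one_ne_zero h2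
  haveI : Fact (Nat.Prime 2) := ⟨Nat.prime_two⟩
  simp only [Phi, Matrix.sum_apply, Matrix.smul_apply, smul_eq_mul, EE_coeff, conj_irr_eq]
  rw [sum_pow_char 2]
  refine Finset.sum_congr rfl fun g _ => ?_
  rw [sqI_apply, res_sq h2, mul_pow, hF2]

theorem sqI_mem_SS (h2 : (2 : K) = 0) (hF2 : ∀ g i j, (rk g i j) ^ 2 = rk g i j)
    (hcard : Odd (Nat.card T)) {θ : IrrCharacter T} (hθ : θ ∈ SS red rk) :
    sqI hcard θ ∈ SS red rk := by
  rw [mem_SS] at hθ ⊢
  intro h0
  apply hθ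
  ext i j
  have h3 := Phi_EE_sq_apply (red := red) h2 hF2 hcard θ i j
  rw [h0] at h3
  simpa using h3.symm

theorem mm_sqI (hcard : Odd (Nat.card T)) (hA : Odd (Nat.card A)) (θ : IrrCharacter T) (ν : A →* ℂˣ) :
    mm ι (sqI hcard θ) (ν * ν) = mm ι θ ν := by
  have h1 : ((mm ι (sqI hcard θ) (ν * ν) : ℤ) : ℂ) = (mm ι θ ν : ℂ) := by
    rw [← mm_spec, ← mm_spec]
    simp only [Cfsg.Agent.Lib.Char.Ortho.classInner_def]
    congr 1
    have hb := pow_bijective_of_coprime (G := A) (coprime_two_of_odd hA)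
    rw [← hb.sum_comp (fun a => (θ : T → ℂ) (ι a) * conj (nuF ν a))]
    refine Finset.sum_congr rfl fun a _ => ?_
    rw [sqI_apply, map_pow]
    congr 1
    congr 1
    simp [nuF, pow_two]
  exact_mod_cast h1

theorem dual_sq_inj (hA : Odd (Nat.card A)) {ν μ : A →* ℂˣ} (h : ν * ν = μ * μ) : ν = μ := by
  ext a
  obtain ⟨c, rfl⟩ := (pow_bijective_of_coprime (G := A) (coprime_two_of_odd hA)).2 a
  have h1 := congrFun (congrArg DFunLike.coe h) c
  simp only [MonoidHom.mul_apply] at h1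
  simp only [pow_two, map_mul]
  exact congrArg Units.val h1

variable [Fintype (A →* ℂˣ)]

theorem card_Wt_le_sqI (hcard : Odd (Nat.card T)) (hA : Odd (Nat.card A)) (θ : IrrCharacter T) :
    (Wt ι θ).card ≤ (Wt ι (sqI hcard θ)).card := by
  apply Finset.card_le_card_of_injOn (fun ν => ν * ν)
  · intro ν hν
    simp only [Finset.mem_coe, mem_Wt] at hν ⊢
    rwa [mm_sqI ι hcard hA]
  · intro ν _ μ _ h
    exact dual_sq_inj hA h

theorem exists_weight (θ : IrrCharacter T) : ∃ ν : A →* ℂˣ, mm ι θ ν ≠ 0 := by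
  by_contra h
  push Not at h
  have h1 := deg_eq_sum ι θ
  simp only [h, Int.cast_zero, Finset.sum_const_zero] at h1
  exact deg_ne_zero θ h1

/-- The square twist moves a surviving character when `n` is even. -/
theorem sqI_ne_self {M : Ideal AlgInt} (hM : IsPModular 2 M) (hker : ∀ a, red a = 0 ↔ a ∈ M) (h2 : (2 : K) = 0)
    (hcard : Odd (Nat.card T)) (hA : Odd (Nat.card A))
    {p : ℕ} [Fact p.Prime] (hord : orderOf (2 : ZMod p) = n) (hev : Even n)
    {a₀ : A} (ha₀ : orderOf a₀ = p) (hu : IsUnit (rk (ι a₀) - 1))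
    {θ : IrrCharacter T} (hθ : θ ∈ SS red rk) : sqI hcard θ ≠ θ := by
  classical
  intro hfix
  have hinv : ∀ ν, mm ι θ (ν * ν) = mm ι θ ν := by
    intro ν
    have := mm_sqI ι hcard hA θ ν
    rwa [hfix] at this
  obtain ⟨ν₀, hν₀⟩ := exists_weight ι θ
  have hpow : ∀ i : ℕ, mm ι θ (ν₀ ^ (2 ^ i)) = mm ι θ ν₀ := by
    intro i
    induction i with
    | zero => simp
    | succ i ih =>
      rw [← ih, ← hinv (ν₀ ^ (2 ^ i)), pow_succ 2 i, pow_mul, pow_two]
  have hne := ne_one_of_mm (rk := rk) ι hM hker hcard hA hu hθ hν₀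
  have hζ : orderOf (ν₀ a₀) = p := by
    have h3 : (ν₀ a₀) ^ p = 1 := by
      rw [← map_pow, ← ha₀, pow_orderOf_eq_one, map_one]
    exact orderOf_eq_prime h3 hne
  have hinj : Set.InjOn (fun i : ℕ => ν₀ ^ (2 ^ i)) (Finset.range n : Set ℕ) := by
    intro i hi j hj hij
    simp only at hij
    have h3 : (ν₀ a₀) ^ (2 ^ i) = (ν₀ a₀) ^ (2 ^ j) := by
      have := congrFun (congrArg DFunLike.coe hij) a₀
      simpa using this
    rw [pow_eq_pow_iff_modEq, hζ] at h3
    have h4 : ((2 ^ i : ℕ) : ZMod p) = ((2 ^ j : ℕ) : ZMod p) := (ZMod.natCast_eq_natCast_iff _ _ _).2 h3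
    push_cast at h4
    have h5 : (2 : ZMod p) ^ i = 2 ^ j := h4
    have hi' : i < n := by simpa using hi
    have hj' : j < n := by simpa using hj
    have hn0 : 0 < n := by omega
    have h20 : (2 : ZMod p) ≠ 0 := by
      intro h
      rw [h, orderOf_zero] at hord
      omega
    have h6 : (Units.mk0 (2 : ZMod p) h20) ^ i = (Units.mk0 (2 : ZMod p) h20) ^ j := by
      apply Units.ext
      simpa using h5
    have h7 := (pow_inj_mod (n := i) (m := j)).1 h6
    have h8 : orderOf (Units.mk0 (2 : ZMod p) h20) = n := by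
      rw [← hord, ← orderOf_units]
      rfl
    rw [h8, Nat.mod_eq_of_lt hi', Nat.mod_eq_of_lt hj'] at h7
    exact h7
  set O : Finset (A →* ℂˣ) := (Finset.range n).image (fun i : ℕ => ν₀ ^ (2 ^ i)) with hO
  have hOc : O.card = n := by
    rw [hO, Finset.card_image_of_injOn hinj, Finset.card_range]
  have hsub : O ⊆ Wt ι θ := by
    intro ν hν
    obtain ⟨i, _, rfl⟩ := Finset.mem_image.1 hν
    rw [mem_Wt, hpow]
    exact hν₀
  have hle : (Wt ι θ).card ≤ n := by
    have h3 := sum_card_Wt_le (rk := rk) ι hM hker h2 hcard hA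
    exact (Finset.single_le_sum (f := fun θ => (Wt ι θ).card) (fun _ _ => Nat.zero_le _) hθ).trans h3
  have hEq : O = Wt ι θ := Finset.eq_of_subset_of_card_le hsub (by omega)
  have hdeg := deg_eq_sum ι θ
  have h3 : ∑ ν : A →* ℂˣ, (mm ι θ ν : ℂ) = ∑ ν ∈ O, (mm ι θ ν : ℂ) := by
    symm
    apply Finset.sum_subset (Finset.subset_univ _)
    intro ν _ hν
    rw [hEq, mem_Wt] at hν
    push Not at hν
    rw [hν, Int.cast_zero]
  have h4 : ∑ ν ∈ O, (mm ι θ ν : ℂ) = (n : ℂ) * (mm ι θ ν₀ : ℂ) := by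
    rw [hO, Finset.sum_image hinj]
    simp only [hpow, Finset.sum_const, Finset.card_range, nsmul_eq_mul]
  rw [h3, h4, charDegree_cast] at hdeg
  have h5 : ((charDegree (θ : T → ℂ) : ℤ) : ℂ) = ((n * mm ι θ ν₀ : ℤ) : ℂ) := by
    push_cast
    exact hdeg
  have h6 : (charDegree (θ : T → ℂ) : ℤ) = n * mm ι θ ν₀ := by exact_mod_cast h5
  have h7 := deg_odd hcard θ
  have h8 : Odd ((charDegree (θ : T → ℂ) : ℤ)) := by exact_mod_cast h7
  rw [h6] at h8
  have h9 : Even ((n : ℤ) * mm ι θ ν₀) := (by exact_mod_cast hev : Even (n : ℤ)).mul_right _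
  exact (Int.not_even_iff_odd.2 h8) h9

/-- **The bound**: every surviving character is good. -/
theorem good_of_SS {M : Ideal AlgInt} (hM : IsPModular 2 M) (hker : ∀ a, red a = 0 ↔ a ∈ M) (h2 : (2 : K) = 0)
    (hF2 : ∀ g i j, (rk g i j) ^ 2 = rk g i j)
    (hcard : Odd (Nat.card T)) (hA : Odd (Nat.card A))
    {p : ℕ} (hp3 : 3 ≤ p) {Pa Ba : Subgroup A} (hPB : PB p Pa Ba) (hord : orderOf (2 : ZMod p) = n)
    {a₀ : A} (ha₀ : orderOf a₀ = p) (hu : IsUnit (rk (ι a₀) - 1))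
    {θ : IrrCharacter T} (hθ : θ ∈ SS red rk) : Good ι Pa p θ := by
  classical
  haveI : Fact p.Prime := ⟨hPB.prime⟩
  have ha₀P : a₀ ∈ Pa := (hPB.memP a₀).2 ⟨1, by rw [pow_one, ha₀]⟩
  refine ⟨fun ν hν => ⟨a₀, ha₀P, ne_one_of_mm (rk := rk) ι hM hker hcard hA hu hθ hν⟩, ?_⟩
  have h20 : (2 : ZMod p) ≠ 0 := by
    intro h
    have h3 : ((2 : ℕ) : ZMod p) = 0 := by exact_mod_cast h
    rw [ZMod.natCast_eq_zero_iff] at h3
    have := Nat.le_of_dvd (by norm_num) h3
    omega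
  have hd : n ∣ p - 1 := hord ▸ ZMod.orderOf_dvd_card_sub_one h20
  have hsum := sum_card_Wt_le (rk := rk) ι hM hker h2 hcard hA
  have hle : (Wt ι θ).card ≤ n :=
    (Finset.single_le_sum (f := fun θ => (Wt ι θ).card) (fun _ _ => Nat.zero_le _) hθ).trans hsum
  by_cases h2n : 2 * n ≤ p - 1
  · omega
  · have hn : n = p - 1 := by
      obtain ⟨k, hk⟩ := hd
      have hk1 : k = 1 := by
        have hk0 : k ≠ 0 := by
          rintro rfl
          omega
        have : k < 2 := by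
          by_contra h3
          push Not at h3
          have : n * 2 ≤ n * k := Nat.mul_le_mul_left n h3
          omega
        omega
      rw [hk, hk1, mul_one]
    have hev : Even n := by
      rw [hn]
      obtain ⟨m, hm⟩ := hPB.prime.odd_of_ne_two (by omega)
      exact ⟨m, by omega⟩
    have hne := sqI_ne_self (rk := rk) ι hM hker h2 hcard hA hord hev ha₀ hu hθ
    have hθ' := sqI_mem_SS (red := red) (rk := rk) h2 hF2 hcard hθ
    have h3 : (Wt ι θ).card ≤ (Wt ι (sqI hcard θ)).card := card_Wt_le_sqI ι hcard hA θ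
    have h4 : ∑ ψ ∈ ({θ, sqI hcard θ} : Finset _), (Wt ι ψ).card ≤ ∑ ψ ∈ SS red rk, (Wt ι ψ).card := by
      apply Finset.sum_le_sum_of_subset
      intro ψ hψ
      simp only [Finset.mem_insert, Finset.mem_singleton] at hψ
      rcases hψ with rfl | rfl
      · exact hθ
      · exact hθ'
    rw [Finset.sum_pair (Ne.symm hne)] at h4
    omega

end Cfsg.Agent.Lib.RankOneOdd.Bound
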