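import Mathlib
import Cfsg.Agent.Lib.RankOneOdd.Master

/-!
# The frame attached to a self-centralizing cyclic subgroup
-/

set_option autoImplicit false
set_option linter.unusedSectionVars false

namespace Cfsg.Agent.Lib.RankOneOdd.Frame2

open Cfsg Module
open Cfsg.Agent.Lib.RankOneOdd.Master

universe u v

variable {T : Type u} [Group T] [Finite T] {A : Type v} [CommGroup A] [Finite A]
variable {ι : A →* T} {p : ℕ} {a₀ : A}

/-- The basic data. -/
structure CFrame (ι : A →* T) (p : ℕ) (a₀ : A) : Prop where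
  inj : Function.Injective ι
  cyc : IsCyclic A
  prime : p.Prime
  ord : orderOf a₀ = p
  range : ∀ y, y ∈ Subgroup.centralizer ({ι a₀} : Set T) ↔ ∃ a, ι a = y

/-- In a cyclic group two elements of order `p` generate the same subgroup. -/
theorem mem_zpowers_of_order [IsCyclic A] (hp : p.Prime) {x y : A} (hx : orderOf x = p) (hy : orderOf y = p) :
    x ∈ Subgroup.zpowers y := by
  classical
  letI : Fintype A := Fintype.ofFinite A
  have h1 : Finset.univ.filter (fun a : A => a ^ p = 1) ⊇
      (Subgroup.zpowers y : Set A).toFinset := by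
    intro a ha
    simp only [Set.mem_toFinset, SetLike.mem_coe] at ha
    obtain ⟨k, rfl⟩ := Subgroup.mem_zpowers_iff.1 ha
    simp only [Finset.mem_filter, Finset.mem_univ, true_and]
    rw [← zpow_natCast, ← zpow_mul, mul_comm, zpow_mul, zpow_natCast, ← hy, pow_orderOf_eq_one, one_zpow]
  have h2 : (Subgroup.zpowers y : Set A).toFinset.card = p := by
    rw [Set.toFinset_card]
    have := Nat.card_zpowers y
    rw [hy, Nat.card_eq_fintype_card] at this
    exact this
  have h3 := IsCyclic.card_pow_eq_one_le (α := A) hp.pos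
  have h4 := Finset.eq_of_subset_of_card_le h1 (by rw [h2]; exact h3)
  have h5 : x ∈ Finset.univ.filter (fun a : A => a ^ p = 1) := by
    simp only [Finset.mem_filter, Finset.mem_univ, true_and]
    rw [← hx, pow_orderOf_eq_one]
  rw [← h4] at h5
  simpa using h5

theorem exists_pow_eq (h : CFrame ι p a₀) {a : A} (ha : p ∣ orderOf a) : ∃ k : ℕ, a₀ = a ^ k := by
  haveI := h.cyc
  have h1 : orderOf (a ^ (orderOf a / p)) = p := orderOf_pow_orderOf_div (orderOf_pos a).ne' ha
  have h2 := mem_zpowers_of_order h.prime h.ord h1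
  have h3 : a₀ ∈ Subgroup.zpowers a := by
    obtain ⟨k, hk⟩ := Subgroup.mem_zpowers_iff.1 h2
    refine Subgroup.mem_zpowers_iff.2 ⟨k * ((orderOf a / p : ℕ) : ℤ), ?_⟩
    rw [zpow_mul', zpow_natCast, ← hk]
  obtain ⟨k, hk⟩ := (mem_powers_iff_mem_zpowers (x := a)).2 h3
  exact ⟨k, hk.symm⟩

/-- The centralizer of an element of order divisible by `p`. -/
theorem cent_iff (h : CFrame ι p a₀) {a : A} (ha : p ∣ orderOf a) (y : T) :
    y ∈ Subgroup.centralizer ({ι a} : Set T) ↔ ∃ b, ι b = y := by
  simp only [Subgroup.mem_centralizer_iff, Set.mem_singleton_iff, forall_eq]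
  constructor
  · intro hy
    apply (h.range y).1
    simp only [Subgroup.mem_centralizer_iff, Set.mem_singleton_iff, forall_eq]
    obtain ⟨k, hk⟩ := exists_pow_eq h ha
    rw [hk, map_pow]
    exact (Commute.pow_left (show Commute (ι a) y from hy) k).eq
  · rintro ⟨b, rfl⟩
    rw [← map_mul, ← map_mul, mul_comm]

/-- Conjugation by `h` preserves the image of `ι`. -/
def Nm (ι : A →* T) (h : T) : Prop := ∀ a, ∃ b, ι b = h * ι a * h⁻¹

theorem exists_gamma (h : CFrame ι p a₀) {t : T} (ht : Nm ι t) : ∃ γ : MulAut A, ∀ a, ι (γ a) = t * ι a * t⁻¹ := by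
  choose f hf using ht
  have hmul : ∀ a b, f (a * b) = f a * f b := by
    intro a b
    apply h.inj
    rw [hf, map_mul, map_mul, hf, hf]
    group
  have hinj : Function.Injective f := by
    intro a b hab
    have h1 := hf a
    have h2 := hf b
    rw [hab, h2] at h1
    apply h.inj
    have h3 : t * ι b * t⁻¹ = t * ι a * t⁻¹ := h1
    simpa using h3.symm
  have hsur : Function.Surjective f := Finite.injective_iff_surjective.1 hinj
  exact ⟨MulEquiv.ofBijective (MonoidHom.mk' f hmul) ⟨hinj, hsur⟩, hf⟩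

/-- A conjugation taking a suitable element to the image of `ι` preserves the image. -/
theorem nm_of_conj (h : CFrame ι p a₀) {a b : A} (ha : p ∣ orderOf a) {t : T} (ht : t * ι a * t⁻¹ = ι b) : Nm ι t := by
  haveI := h.cyc
  have hpp := h.prime
  obtain ⟨k, hk⟩ := exists_pow_eq h ha
  have h1 : t * ι a₀ * t⁻¹ = ι (b ^ k) := by
    rw [hk, map_pow, map_pow, ← ht, conj_pow]
  have hord : orderOf (b ^ k) = p := by
    rw [← orderOf_injective ι h.inj, ← h1]
    have : orderOf (t * ι a₀ * t⁻¹) = orderOf (ι a₀) := by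
      have h5 := orderOf_injective (MulAut.conj t).toMonoidHom (MulAut.conj t).injective (ι a₀)
      rw [← h5]
      rfl
    rw [this, orderOf_injective ι h.inj, h.ord]
  obtain ⟨m, hm⟩ := Subgroup.mem_zpowers_iff.1 (mem_zpowers_of_order hpp h.ord hord)
  intro d
  apply (cent_iff h (a := a₀) (by rw [h.ord]) _).1
  simp only [Subgroup.mem_centralizer_iff, Set.mem_singleton_iff, forall_eq]
  have h2 : ι a₀ = (t * ι a₀ * t⁻¹) ^ m := by
    rw [h1, ← map_zpow, hm]
  have h3 : t * ι d * t⁻¹ * (t * ι a₀ * t⁻¹) = (t * ι a₀ * t⁻¹) * (t * ι d * t⁻¹) := by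
    have h4 : ι d * ι a₀ = ι a₀ * ι d := by
      rw [← map_mul, ← map_mul, mul_comm]
    calc t * ι d * t⁻¹ * (t * ι a₀ * t⁻¹) = t * (ι d * ι a₀) * t⁻¹ := by group
      _ = t * (ι a₀ * ι d) * t⁻¹ := by rw [h4]
      _ = _ := by group
  have h4 : Commute (t * ι a₀ * t⁻¹) (t * ι d * t⁻¹) := h3.symm
  have h5 := (h4.zpow_left m).eq
  rw [← h2] at h5
  exact h5

/-- The normalizer of the image of `ι`. -/
def NN (ι : A →* T) : Subgroup T := Subgroup.normalizer (ι.range : Set T)

theorem mem_NN_iff (h : CFrame ι p a₀) {t : T} : t ∈ NN ι ↔ Nm ι t := by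
  constructor
  · intro ht a
    have h1 := (Subgroup.mem_normalizer_iff.1 ht (ι a)).1 ⟨a, rfl⟩
    exact h1
  · intro ht
    obtain ⟨γ, hγ⟩ := exists_gamma h ht
    rw [NN, Subgroup.mem_normalizer_iff]
    intro n
    constructor
    · rintro ⟨a, rfl⟩
      exact ⟨γ a, hγ a⟩
    · rintro ⟨c, hc⟩
      obtain ⟨d, rfl⟩ := γ.surjective c
      rw [hγ] at hc
      have h2 : ι d = n := by
        simpa using hc
      exact ⟨d, h2⟩

theorem nm_of_mem (h : CFrame ι p a₀) (t : NN ι) : Nm ι (t : T) := (mem_NN_iff h).1 t.2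

/-- The conjugation action. -/
noncomputable def act (h : CFrame ι p a₀) : NN ι →* MulAut A where
  toFun t := Classical.choose (exists_gamma h (nm_of_mem h t))
  map_one' := by
    ext a
    apply h.inj
    rw [Classical.choose_spec (exists_gamma h (nm_of_mem h 1))]
    simp
  map_mul' s t := by
    ext a
    apply h.inj
    rw [Classical.choose_spec (exists_gamma h (nm_of_mem h (s * t)))]
    rw [MulAut.mul_apply, Classical.choose_spec (exists_gamma h (nm_of_mem h s)),
      Classical.choose_spec (exists_gamma h (nm_of_mem h t))]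
    push_cast
    group

theorem act_spec (h : CFrame ι p a₀) (t : NN ι) (a : A) : ι (act h t a) = (t : T) * ι a * (t : T)⁻¹ :=
  Classical.choose_spec (exists_gamma h (nm_of_mem h t)) a

/-- The fusion group. -/
noncomputable def GG (h : CFrame ι p a₀) : Subgroup (MulAut A) := (act h).range

theorem ι_mem_NN (h : CFrame ι p a₀) (a : A) : ι a ∈ NN ι := by
  rw [mem_NN_iff h]
  intro b
  refine ⟨b, ?_⟩
  rw [← map_inv, ← map_mul, ← map_mul]
  congr 1
  rw [mul_comm a b, mul_inv_cancel_right]

/-- `ι` with values in the normalizer. -/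
def ιN (h : CFrame ι p a₀) : A →* NN ι := ι.codRestrict _ (ι_mem_NN h)

@[simp] theorem ιN_coe (h : CFrame ι p a₀) (a : A) : ((ιN h a : NN ι) : T) = ι a := rfl

theorem ιN_inj (h : CFrame ι p a₀) : Function.Injective (ιN h) := fun a b hab =>
  h.inj (congrArg Subtype.val hab)

theorem act_eq_one_iff (h : CFrame ι p a₀) (t : NN ι) : act h t = 1 ↔ ∃ a, ιN h a = t := by
  constructor
  · intro h1
    have h2 := act_spec h t a₀
    rw [h1] at h2
    have h3 : ι a₀ * (t : T) = (t : T) * ι a₀ := by
      have h4 : ι a₀ = (t : T) * ι a₀ * (t : T)⁻¹ := h2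
      calc ι a₀ * (t : T) = (t : T) * ι a₀ * (t : T)⁻¹ * (t : T) := by rw [← h4]
        _ = _ := by group
    have h5 : (t : T) ∈ Subgroup.centralizer ({ι a₀} : Set T) := by
      simp only [Subgroup.mem_centralizer_iff, Set.mem_singleton_iff, forall_eq]
      exact h3
    obtain ⟨a, ha⟩ := (h.range _).1 h5
    exact ⟨a, Subtype.ext ha⟩
  · rintro ⟨a, rfl⟩
    ext b
    apply h.inj
    rw [act_spec, ιN_coe]
    rw [← map_inv, ← map_mul, ← map_mul]
    congr 1
    change a * b * a⁻¹ = b
    rw [mul_comm a b, mul_inv_cancel_right]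

/-- The frame in the whole group. -/
theorem frameT (h : CFrame ι p a₀) : TIFrame ι (GG h) p where
  inj := h.inj
  cent := by
    intro a ha
    apply Nat.card_congr
    refine (Equiv.ofBijective (fun b : A => (⟨ι b, (cent_iff h ha _).2 ⟨b, rfl⟩⟩ :
      Subgroup.centralizer ({ι a} : Set T))) ⟨fun x y hxy => h.inj (congrArg Subtype.val hxy), fun y => ?_⟩).symm
    obtain ⟨b, hb⟩ := (cent_iff h ha _).1 y.2
    exact ⟨b, Subtype.ext hb⟩
  fus := by
    intro a b ha
    constructor
    · intro hc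
      obtain ⟨t, ht⟩ := isConj_iff.1 hc
      have hN : t ∈ NN ι := (mem_NN_iff h).2 (nm_of_conj h ha ht)
      refine ⟨act h ⟨t, hN⟩, ⟨⟨t, hN⟩, rfl⟩, ?_⟩
      apply h.inj
      rw [act_spec]
      exact ht
    · rintro ⟨γ, ⟨t, rfl⟩, rfl⟩
      exact isConj_iff.2 ⟨t, (act_spec h t a).symm⟩
  free := by
    rintro γ ⟨t, rfl⟩ a ha h1
    rw [act_eq_one_iff]
    have h2 := act_spec h t a
    rw [h1] at h2
    have h3 : ι a * (t : T) = (t : T) * ι a := by
      calc ι a * (t : T) = (t : T) * ι a * (t : T)⁻¹ * (t : T) := by rw [← h2]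
        _ = _ := by group
    have h5 : (t : T) ∈ Subgroup.centralizer ({ι a} : Set T) := by
      simp only [Subgroup.mem_centralizer_iff, Set.mem_singleton_iff, forall_eq]
      exact h3
    obtain ⟨b, hb⟩ := (cent_iff h ha _).1 h5
    exact ⟨b, Subtype.ext hb⟩
  fusAll := by
    rintro γ ⟨t, rfl⟩ a
    exact isConj_iff.2 ⟨t, (act_spec h t a).symm⟩

/-- The frame in the normalizer. -/
theorem frameN (h : CFrame ι p a₀) : TIFrame (ιN h) (GG h) p where
  inj := ιN_inj h
  cent := by
    intro a ha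
    apply Nat.card_congr
    have hmem : ∀ b : A, ιN h b ∈ Subgroup.centralizer ({ιN h a} : Set (NN ι)) := by
      intro b
      simp only [Subgroup.mem_centralizer_iff, Set.mem_singleton_iff, forall_eq]
      rw [← map_mul, ← map_mul, mul_comm]
    refine (Equiv.ofBijective (fun b : A => (⟨ιN h b, hmem b⟩ :
      Subgroup.centralizer ({ιN h a} : Set (NN ι))))
      ⟨fun x y hxy => ιN_inj h (congrArg Subtype.val hxy), fun y => ?_⟩).symm
    have h1 := y.2
    simp only [Subgroup.mem_centralizer_iff, Set.mem_singleton_iff, forall_eq] at h1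
    have h2 : ((y : NN ι) : T) ∈ Subgroup.centralizer ({ι a} : Set T) := by
      simp only [Subgroup.mem_centralizer_iff, Set.mem_singleton_iff, forall_eq]
      exact congrArg Subtype.val h1
    obtain ⟨b, hb⟩ := (cent_iff h ha _).1 h2
    exact ⟨b, Subtype.ext (Subtype.ext hb)⟩
  fus := by
    intro a b ha
    constructor
    · intro hc
      obtain ⟨t, ht⟩ := isConj_iff.1 hc
      refine ⟨act h t, ⟨t, rfl⟩, ?_⟩
      apply h.inj
      rw [act_spec]
      exact congrArg Subtype.val ht
    · rintro ⟨γ, ⟨t, rfl⟩, rfl⟩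
      refine isConj_iff.2 ⟨t, Subtype.ext ?_⟩
      exact (act_spec h t a).symm
  free := (frameT h).free
  fusAll := by
    rintro γ ⟨t, rfl⟩ a
    refine isConj_iff.2 ⟨t, Subtype.ext ?_⟩
    exact (act_spec h t a).symm

/-- The index of the image of `ι` in its normalizer. -/
theorem relIndex_range (h : CFrame ι p a₀) : (ι.range).relIndex (NN ι) = Nat.card (GG h) := by
  have h1 : (act h).ker = (ι.range).subgroupOf (NN ι) := by
    ext t
    rw [MonoidHom.mem_ker, act_eq_one_iff, Subgroup.mem_subgroupOf]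
    constructor
    · rintro ⟨a, rfl⟩
      exact ⟨a, rfl⟩
    · rintro ⟨a, ha⟩
      exact ⟨a, Subtype.ext ha⟩
  rw [Subgroup.relIndex, ← h1, Subgroup.index_ker]
  rfl

/-- The character on the normalizer. -/
noncomputable def eps (h : CFrame ι p a₀) : NN ι →* (ZMod (Nat.card A))ˣ :=
  haveI := h.cyc
  (IsCyclic.mulAutMulEquiv A).toMonoidHom.comp (act h)

theorem eps_eq_one_iff (h : CFrame ι p a₀) (t : NN ι) : eps h t = 1 ↔ ∃ a, ιN h a = t := by
  haveI := h.cyc
  rw [← act_eq_one_iff]
  change (IsCyclic.mulAutMulEquiv A) (act h t) = 1 ↔ _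
  exact map_eq_one_iff _ (IsCyclic.mulAutMulEquiv A).injective

/-- The Sylow subgroup of order `p`. -/
theorem centralizer_zpowers_eq (h : CFrame ι p a₀) :
    Subgroup.centralizer ((Subgroup.zpowers (ι a₀) : Subgroup T) : Set T) = ι.range := by
  ext y
  constructor
  · intro hy
    have h1 : y ∈ Subgroup.centralizer ({ι a₀} : Set T) := by
      simp only [Subgroup.mem_centralizer_iff, Set.mem_singleton_iff, forall_eq]
      exact (Subgroup.mem_centralizer_iff.1 hy) _ (Subgroup.mem_zpowers _)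
    exact (h.range y).1 h1
  · intro hy
    have h1 := (h.range y).2 hy
    simp only [Subgroup.mem_centralizer_iff, Set.mem_singleton_iff, forall_eq] at h1
    rw [Subgroup.mem_centralizer_iff]
    intro g hg
    obtain ⟨k, rfl⟩ := Subgroup.mem_zpowers_iff.1 hg
    exact ((show Commute (ι a₀) y from h1).zpow_left k).eq

theorem normalizer_zpowers_eq (h : CFrame ι p a₀) :
    Subgroup.normalizer ((Subgroup.zpowers (ι a₀) : Subgroup T) : Set T) = NN ι := by
  haveI := h.cyc
  have hpp := h.prime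
  ext t
  constructor
  · intro ht
    have h1 := (Subgroup.mem_normalizer_iff.1 ht (ι a₀)).1 (Subgroup.mem_zpowers _)
    obtain ⟨k, hk⟩ := Subgroup.mem_zpowers_iff.1 h1
    rw [mem_NN_iff h]
    refine nm_of_conj h (a := a₀) (b := a₀ ^ k) (by rw [h.ord]) ?_
    rw [← hk, map_zpow]
  · intro ht
    rw [Subgroup.mem_normalizer_iff]
    let γ := act h ⟨t, ht⟩
    have hγ : ∀ a, ι (γ a) = t * ι a * t⁻¹ := act_spec h ⟨t, ht⟩
    have hord : orderOf (γ a₀) = p := by
      rw [← h.ord]
      exact MulEquiv.orderOf_eq γ a₀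
    have h1 : γ a₀ ∈ Subgroup.zpowers a₀ := mem_zpowers_of_order hpp hord h.ord
    have hord' : orderOf (γ.symm a₀) = p := by
      rw [← h.ord]
      exact MulEquiv.orderOf_eq γ.symm a₀
    have h2 : γ.symm a₀ ∈ Subgroup.zpowers a₀ := mem_zpowers_of_order hpp hord' h.ord
    intro n
    constructor
    · intro hn
      obtain ⟨k, rfl⟩ := Subgroup.mem_zpowers_iff.1 hn
      rw [← map_zpow, ← hγ]
      obtain ⟨m, hm⟩ := Subgroup.mem_zpowers_iff.1 (Subgroup.zpow_mem _ h1 k)
      rw [map_zpow γ, ← hm, map_zpow]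
      exact Subgroup.zpow_mem _ (Subgroup.mem_zpowers _) m
    · intro hn
      obtain ⟨k, hk⟩ := Subgroup.mem_zpowers_iff.1 hn
      have h3 : n = ι (γ.symm (a₀ ^ k)) := by
        have h4 := hγ (γ.symm (a₀ ^ k))
        rw [MulEquiv.apply_symm_apply, map_zpow] at h4
        have h5 := hk.symm.trans h4
        simpa using h5
      rw [h3, map_zpow γ.symm]
      obtain ⟨m, hm⟩ := Subgroup.mem_zpowers_iff.1 h2
      rw [← hm, map_zpow, map_zpow]
      exact Subgroup.zpow_mem _ (Subgroup.zpow_mem _ (Subgroup.mem_zpowers _) m) k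

end Cfsg.Agent.Lib.RankOneOdd.Frame2
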