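import Mathlib
import Cfsg.Agent.Lib.RankOneOdd.XChar

/-!
# The multiplicities of `θ θ̄` on characters with a principal weight
-/

set_option autoImplicit false
set_option linter.unusedSectionVars false

namespace Cfsg.Agent.Lib.RankOneOdd.XBound

open Cfsg Module
open Cfsg.Agent.Lib.Char.Basic Cfsg.Agent.Lib.Char.Ortho Cfsg.Agent.Lib.Char.Complete
open Cfsg.Agent.Lib.Char.Linear Cfsg.Agent.Lib.RankOneOdd.Weights Cfsg.Agent.Lib.RankOneOdd.Master
open Cfsg.Agent.Lib.RankOneOdd.Family Cfsg.Agent.Lib.RankOneOdd.Struct Cfsg.Agent.Lib.RankOneOdd.XChar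
open scoped ComplexConjugate

universe u v w x

variable {T : Type u} [Group T] [Fintype T] {A : Type v} [CommGroup A] [Fintype A]
variable {ι : A →* T} {Γ : Subgroup (MulAut A)} {p : ℕ} {Pa Ba : Subgroup A}
variable {N : Type w} [Group N] [Fintype N]

theorem irr_comp_irreducible [Fintype (IrrCharacter T)] [Fintype (IrrCharacter N)] [Fintype (A →* ℂˣ)] [Fintype Γ]
    (j : N →* T) (ι' : A →* N) (hι : ∀ a, j (ι' a) = ι a)
    (hF : TIFrame ι Γ p) (hF' : TIFrame ι' Γ p) (h : PB p Pa Ba) (hq : p ≤ Nat.card Pa) (hp3 : 3 ≤ p)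
    {θ : IrrCharacter T} (hg : Good ι Pa p θ) :
    ∃ ζ : IrrCharacter N, ∀ g, (ζ : N → ℂ) g = (θ : T → ℂ) (j g) := by
  classical
  have hθ := isCharacter_of_isIrrCharacter θ.2
  have hθN : IsCharacter N (fun g => (θ : T → ℂ) (j g)) := isCharacter_comp j hθ
  choose c hc using fun ζ : IrrCharacter N => exists_nat_classInner hθN (isCharacter_of_isIrrCharacter ζ.2)
  have hdec : ∀ g, (θ : T → ℂ) (j g) = ∑ ζ : IrrCharacter N, (c ζ : ℂ) * (ζ : N → ℂ) g := by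
    intro g
    have h1 := congrFun (classFunction_eq_sum (isClassFunction_of_isCharacter hθN)) g
    simp only [Finset.sum_apply, Pi.smul_apply, smul_eq_mul, hc] at h1
    exact h1
  have hmm : ∀ ν : A →* ℂˣ, mm ι θ ν = ∑ ζ : IrrCharacter N, (c ζ : ℤ) * mm ι' ζ ν := by
    intro ν
    have h1 : ((mm ι θ ν : ℤ) : ℂ) = ((∑ ζ : IrrCharacter N, (c ζ : ℤ) * mm ι' ζ ν : ℤ) : ℂ) := by
      rw [← mm_spec, classInner_def]
      push_cast
      have h3 : ∀ ζ : IrrCharacter N, (mm ι' ζ ν : ℂ) =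
          (Nat.card A : ℂ)⁻¹ * ∑ a : A, (ζ : N → ℂ) (ι' a) * conj (nuF ν a) := by
        intro ζ
        rw [← mm_spec, classInner_def]
      simp_rw [h3]
      have h2 : ∀ a : A, (θ : T → ℂ) (ι a) = ∑ ζ : IrrCharacter N, (c ζ : ℂ) * (ζ : N → ℂ) (ι' a) := by
        intro a
        rw [← hι a, hdec]
      simp_rw [h2, Finset.sum_mul]
      rw [Finset.sum_comm, Finset.mul_sum]
      refine Finset.sum_congr rfl fun ζ _ => ?_
      have h5 : ∑ a : A, (c ζ : ℂ) * (ζ : N → ℂ) (ι' a) * conj (nuF ν a) =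
          (c ζ : ℂ) * ∑ a : A, (ζ : N → ℂ) (ι' a) * conj (nuF ν a) := by
        rw [Finset.mul_sum]
        exact Finset.sum_congr rfl fun a _ => mul_assoc _ _ _
      rw [h5]
      ring
    exact_mod_cast h1
  have hgoodN : ∀ ζ : IrrCharacter N, c ζ ≠ 0 → Good ι' Pa p ζ := by
    intro ζ hζ
    have hle : ∀ ν, mm ι' ζ ν ≠ 0 → mm ι θ ν ≠ 0 := by
      intro ν hν
      rw [hmm]
      have h3 : (c ζ : ℤ) * mm ι' ζ ν ≤ ∑ ζ' : IrrCharacter N, (c ζ' : ℤ) * mm ι' ζ' ν :=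
        Finset.single_le_sum (f := fun ζ' : IrrCharacter N => (c ζ' : ℤ) * mm ι' ζ' ν)
          (fun ζ' _ => mul_nonneg (Int.natCast_nonneg _) (mm_nonneg _ _ _)) (Finset.mem_univ ζ)
      have h4 : 0 < (c ζ : ℤ) * mm ι' ζ ν :=
        mul_pos (by exact_mod_cast Nat.pos_of_ne_zero hζ) (lt_of_le_of_ne (mm_nonneg _ _ _) (Ne.symm hν))
      linarith
    refine ⟨fun ν hν => hg.nt ν (hle ν hν), ?_⟩
    have h5 : (Wt ι' ζ).card ≤ (Wt ι θ).card := by
      apply Finset.card_le_card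
      intro ν hν
      rw [mem_Wt] at hν ⊢
      exact hle ν hν
    have := hg.bd
    omega
  have hdθ := dg_eq hF h hq hg hp3
  have hdeg : dg θ = ∑ ζ : IrrCharacter N, (c ζ : ℤ) * dg ζ := by
    have h1 : ((dg θ : ℤ) : ℂ) = ((∑ ζ : IrrCharacter N, (c ζ : ℤ) * dg ζ : ℤ) : ℂ) := by
      rw [dg_spec]
      push_cast
      simp_rw [dg_spec]
      have := hdec 1
      rwa [map_one] at this
    exact_mod_cast h1
  have hdeg2 : ∀ ζ : IrrCharacter N, (c ζ : ℤ) * dg ζ = (c ζ : ℤ) * dg θ := by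
    intro ζ
    by_cases hζ : c ζ = 0
    · simp [hζ]
    · rw [dg_eq hF' h hq (hgoodN ζ hζ) hp3, hdθ]
  simp_rw [hdeg2] at hdeg
  rw [← Finset.sum_mul] at hdeg
  have hpos := dg_pos θ
  have hsum : ∑ ζ : IrrCharacter N, (c ζ : ℤ) = 1 := by
    have h3 : (∑ ζ : IrrCharacter N, (c ζ : ℤ) - 1) * dg θ = 0 := by
      rw [sub_mul, one_mul, ← hdeg, sub_self]
    rcases mul_eq_zero.1 h3 with h4 | h4
    · linarith
    · exact absurd h4 hpos.ne'
  have hsum' : ∑ ζ : IrrCharacter N, c ζ = 1 := by exact_mod_cast hsum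
  obtain ⟨ζ₀, hζ₀⟩ : ∃ ζ₀, c ζ₀ ≠ 0 := by
    by_contra h3
    push Not at h3
    rw [Finset.sum_eq_zero fun ζ _ => h3 ζ] at hsum'
    exact zero_ne_one hsum'
  have h5 := Finset.add_sum_erase Finset.univ c (Finset.mem_univ ζ₀)
  rw [hsum'] at h5
  have h6 : c ζ₀ = 1 := by omega
  have h7 : ∑ ζ ∈ Finset.univ.erase ζ₀, c ζ = 0 := by omega
  have h8 : ∀ ζ, ζ ≠ ζ₀ → c ζ = 0 := fun ζ hζ =>
    (Finset.sum_eq_zero_iff.1 h7) ζ (Finset.mem_erase.2 ⟨hζ, Finset.mem_univ _⟩)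
  refine ⟨ζ₀, fun g => ?_⟩
  rw [hdec, Finset.sum_eq_single ζ₀]
  · rw [h6]
    simp
  · intro ζ _ hζ
    rw [h8 ζ hζ]
    simp
  · intro h9
    exact absurd (Finset.mem_univ _) h9

/-- The linear character `χ ∘ ε` as a function. -/
def kap {E : Type x} [CommGroup E] (χ : E →* ℂˣ) (ε : N →* E) : N → ℂ := fun g => (χ (ε g) : ℂ)

theorem kap_irr {E : Type x} [CommGroup E] (χ : E →* ℂˣ) (ε : N →* E) : IsIrrCharacter N (kap χ ε) :=
  isIrrCharacter_of_hom (χ.comp ε)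

theorem kap_conj_mul {E : Type x} [CommGroup E] [Fintype E] (χ : E →* ℂˣ) (ε : N →* E) (g : N) :
    kap χ ε g * conj (kap χ ε g) = 1 := by
  have h := nuF_conj χ (ε g)
  simp only [kap]
  simp only [nuF, MonoidHom.inv_apply, Units.val_inv_eq_inv_val] at h
  rw [h]
  exact mul_inv_cancel₀ (Units.ne_zero _)

theorem sum_inner_kap {E : Type x} [CommGroup E] [Fintype E] [Fintype (E →* ℂˣ)] [Fintype (A →* ℂˣ)]
    (j : N →* T) (ι' : A →* N) (hι : ∀ a, j (ι' a) = ι a) (hinj : Function.Injective ι')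
    (ε : N →* E) (hε : ∀ g, ε g = 1 ↔ ∃ a, ι' a = g) (ψ : IrrCharacter T) :
    ∑ χ : E →* ℂˣ, classInner (fun g => (ψ : T → ℂ) (j g)) (kap χ ε) =
      (Nat.card N : ℂ)⁻¹ * ((Fintype.card E : ℂ) * ((Nat.card A : ℂ) * (mm ι ψ 1 : ℂ))) := by
  classical
  simp only [classInner_def]
  rw [← Finset.mul_sum, Finset.sum_comm]
  congr 1
  have h1 : ∀ g : N, ∑ χ : E →* ℂˣ, (ψ : T → ℂ) (j g) * conj (kap χ ε g) =
      (ψ : T → ℂ) (j g) * (if ε g = 1 then (Fintype.card E : ℂ) else 0) := by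
    intro g
    rw [← Finset.mul_sum]
    congr 1
    rw [← sum_dual]
    have h2 : ∀ χ : E →* ℂˣ, conj (kap χ ε g) = nuF χ⁻¹ (ε g) := fun χ => nuF_conj χ (ε g)
    simp_rw [h2]
    exact Equiv.sum_comp (Equiv.inv (E →* ℂˣ)) (fun χ => nuF χ (ε g))
  simp_rw [h1]
  have h3 : (Nat.card A : ℂ) * (mm ι ψ 1 : ℂ) = ∑ a : A, (ψ : T → ℂ) (ι a) := by
    have hA : (Nat.card A : ℂ) ≠ 0 := Nat.cast_ne_zero.mpr Nat.card_pos.ne'
    rw [← mm_spec, classInner_def, mul_inv_cancel_left₀ hA]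
    refine Finset.sum_congr rfl fun a _ => ?_
    simp [nuF]
  rw [h3, Finset.mul_sum]
  have h4 : ∀ g : N, (ψ : T → ℂ) (j g) * (if ε g = 1 then (Fintype.card E : ℂ) else 0) =
      if ε g = 1 then (Fintype.card E : ℂ) * (ψ : T → ℂ) (j g) else 0 := by
    intro g
    split_ifs
    · ring
    · ring
  simp_rw [h4]
  rw [← Finset.sum_filter]
  symm
  apply Finset.sum_bij (fun a _ => ι' a)
  · intro a _
    rw [Finset.mem_filter]
    exact ⟨Finset.mem_univ _, (hε _).2 ⟨a, rfl⟩⟩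
  · intro a _ b _ hab
    exact hinj hab
  · intro g hg
    rw [Finset.mem_filter] at hg
    obtain ⟨a, ha⟩ := (hε g).1 hg.2
    exact ⟨a, Finset.mem_univ _, ha⟩
  · intro a _
    rw [hι]

/-- **The multiplicity bound.** -/
theorem xx_le_one [Fintype (IrrCharacter T)] [Fintype (IrrCharacter N)] [Fintype (A →* ℂˣ)] [Fintype Γ]
    {E : Type x} [CommGroup E] [Fintype E] [Fintype (E →* ℂˣ)]
    (j : N →* T) (ι' : A →* N) (hι : ∀ a, j (ι' a) = ι a)
    (ε : N →* E) (hε : ∀ g, ε g = 1 ↔ ∃ a, ι' a = g)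
    (hF : TIFrame ι Γ p) (hF' : TIFrame ι' Γ p) (h : PB p Pa Ba) (hq : p ≤ Nat.card Pa) (hp3 : 3 ≤ p)
    {θ : IrrCharacter T} (hg : Good ι Pa p θ) {ψ : IrrCharacter T} (hψ : mm ι ψ 1 ≠ 0) : xx θ ψ ≤ 1 := by
  classical
  obtain ⟨ζ, hζ⟩ := irr_comp_irreducible j ι' hι hF hF' h hq hp3 hg
  have hs := sum_inner_kap (ι := ι) j ι' hι hF'.inj ε hε ψ
  have hne : ∃ χ : E →* ℂˣ, classInner (fun g => (ψ : T → ℂ) (j g)) (kap χ ε) ≠ 0 := by
    by_contra h3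
    push Not at h3
    rw [Finset.sum_eq_zero fun χ _ => h3 χ] at hs
    have hN : (Nat.card N : ℂ) ≠ 0 := Nat.cast_ne_zero.mpr Nat.card_pos.ne'
    have hA : (Nat.card A : ℂ) ≠ 0 := Nat.cast_ne_zero.mpr Nat.card_pos.ne'
    have hE : (Fintype.card E : ℂ) ≠ 0 := Nat.cast_ne_zero.mpr Fintype.card_pos.ne'
    have hm : (mm ι ψ 1 : ℂ) ≠ 0 := by exact_mod_cast hψ
    exact (mul_ne_zero (inv_ne_zero hN) (mul_ne_zero hE (mul_ne_zero hA hm))) hs.symm
  obtain ⟨χ, hχ⟩ := hne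
  have hκ := isCharacter_of_isIrrCharacter (kap_irr χ ε)
  have hd' : ∀ ψ' : IrrCharacter T, ∃ n : ℕ,
      classInner (fun g => (ψ' : T → ℂ) (j g)) (kap χ ε) = (n : ℂ) := fun ψ' =>
    exists_nat_classInner (isCharacter_comp j (isCharacter_of_isIrrCharacter ψ'.2)) hκ
  choose d hd using hd'
  have hd1 : 1 ≤ d ψ := by
    rw [Nat.one_le_iff_ne_zero]
    intro h0
    apply hχ
    rw [hd ψ, h0]
    simp
  have hX : classInner (fun g => Xf θ (j g)) (kap χ ε) = ((∑ ψ' : IrrCharacter T, xx θ ψ' * (d ψ' : ℤ) : ℤ) : ℂ) := by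
    rw [classInner_def]
    simp_rw [Xf_eq_sum θ, Finset.sum_mul]
    rw [Finset.sum_comm, Finset.mul_sum, Int.cast_sum]
    refine Finset.sum_congr rfl fun ψ' _ => ?_
    push_cast
    rw [← hd ψ', classInner_def, mul_left_comm, Finset.mul_sum]
    simp_rw [Finset.mul_sum]
    refine Finset.sum_congr rfl fun g _ => ?_
    ring
  have hprod : IsIrrCharacter N (fun g => (ζ : N → ℂ) g * kap χ ε g) := by
    refine isIrrCharacter_of_classInner_self_eq_one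
      (isCharacter_mul (isCharacter_of_isIrrCharacter ζ.2) hκ) ?_
    rw [← classInner_self_of_isIrr ζ.2]
    simp only [classInner_def]
    congr 1
    refine Finset.sum_congr rfl fun g _ => ?_
    have h3 := kap_conj_mul χ ε g
    rw [map_mul]
    calc (ζ : N → ℂ) g * kap χ ε g * (conj ((ζ : N → ℂ) g) * conj (kap χ ε g))
        = (ζ : N → ℂ) g * conj ((ζ : N → ℂ) g) * (kap χ ε g * conj (kap χ ε g)) := by ring
      _ = _ := by rw [h3, mul_one]
  have hX2 : classInner (fun g => Xf θ (j g)) (kap χ ε) =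
      classInner (ζ : N → ℂ) (fun g => (ζ : N → ℂ) g * kap χ ε g) := by
    simp only [classInner_def]
    congr 1
    refine Finset.sum_congr rfl fun g _ => ?_
    rw [Xf, ← hζ, map_mul]
    ring
  have hval : ∃ b : ℕ, b ≤ 1 ∧ classInner (ζ : N → ℂ) (fun g => (ζ : N → ℂ) g * kap χ ε g) = (b : ℂ) := by
    rw [classInner_irr ζ.2 hprod]
    split_ifs
    · exact ⟨1, le_rfl, by simp⟩
    · exact ⟨0, by norm_num, by simp⟩
  obtain ⟨b, hb, hbv⟩ := hval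
  rw [hX2, hbv] at hX
  have hX3 : (b : ℤ) = ∑ ψ' : IrrCharacter T, xx θ ψ' * (d ψ' : ℤ) := by exact_mod_cast hX
  have h5 : xx θ ψ * (d ψ : ℤ) ≤ ∑ ψ' : IrrCharacter T, xx θ ψ' * (d ψ' : ℤ) :=
    Finset.single_le_sum (f := fun ψ' : IrrCharacter T => xx θ ψ' * (d ψ' : ℤ))
      (fun ψ' _ => mul_nonneg (xx_nonneg _ _) (Int.natCast_nonneg _)) (Finset.mem_univ ψ)
  have h6 : xx θ ψ ≤ xx θ ψ * (d ψ : ℤ) := by
    have h7 : (1 : ℤ) ≤ (d ψ : ℤ) := by exact_mod_cast hd1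
    nlinarith [xx_nonneg θ ψ]
  have h8 : (b : ℤ) ≤ 1 := by exact_mod_cast hb
  linarith

end Cfsg.Agent.Lib.RankOneOdd.XBound
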