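import Mathlib
import Cfsg.Agent.Lib.RankOneOdd.Frame2
import Cfsg.Agent.Lib.RankOneOdd.XBound
import Cfsg.Agent.Lib.RankOneOdd.BlockData
import Cfsg.Agent.Lib.RankOneOdd.Bound

/-!
# All surviving characters of a frame are linear
-/

set_option autoImplicit false
set_option linter.unusedSectionVars false

namespace Cfsg.Agent.Lib.RankOneOdd.Frame3

open Cfsg Module
open Cfsg.Agent.Lib.Char.Basic Cfsg.Agent.Lib.Char.Ortho Cfsg.Agent.Lib.Char.Complete
open Cfsg.Agent.Lib.Char.Linear Cfsg.Agent.Lib.RankOneOdd.Weights Cfsg.Agent.Lib.RankOneOdd.Master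
open Cfsg.Agent.Lib.RankOneOdd.Family Cfsg.Agent.Lib.RankOneOdd.Struct Cfsg.Agent.Lib.RankOneOdd.XChar
open Cfsg.Agent.Lib.RankOneOdd.Frame2 Cfsg.Agent.Lib.RankOneOdd.BlockData
open scoped ComplexConjugate

universe u v

variable {T : Type u} [Group T] [Fintype T] {A : Type v} [CommGroup A] [Fintype A]
variable {ι : A →* T} {p : ℕ} {a₀ : A}

/-- The `p`-elements. -/
def PP (A : Type v) [CommGroup A] (p : ℕ) [hp : Fact p.Prime] : Subgroup A where
  carrier := {a | ∃ k : ℕ, orderOf a = p ^ k}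
  one_mem' := ⟨0, by simp⟩
  mul_mem' := by
    rintro a b ⟨k, hk⟩ ⟨l, hl⟩
    have h1 : (a * b) ^ (p ^ (k + l)) = 1 := by
      have ha : a ^ (p ^ (k + l)) = 1 := by rw [pow_add, pow_mul, ← hk, pow_orderOf_eq_one, one_pow]
      have hb : b ^ (p ^ (k + l)) = 1 := by rw [add_comm, pow_add, pow_mul, ← hl, pow_orderOf_eq_one, one_pow]
      rw [mul_pow, ha, hb, one_mul]
    obtain ⟨j, _, hj⟩ := (Nat.dvd_prime_pow hp.out).1 (orderOf_dvd_of_pow_eq_one h1)
    exact ⟨j, hj⟩
  inv_mem' := by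
    rintro a ⟨k, hk⟩
    exact ⟨k, by rw [orderOf_inv, hk]⟩

/-- The `p`-regular elements. -/
def BB (A : Type v) [CommGroup A] (p : ℕ) [hp : Fact p.Prime] : Subgroup A where
  carrier := {a | ¬ p ∣ orderOf a}
  one_mem' := by
    change ¬ p ∣ orderOf (1 : A)
    rw [orderOf_one]
    exact hp.out.one_lt.ne' ∘ Nat.dvd_one.1
  mul_mem' := by
    intro a b ha hb hab
    have h1 : (a * b) ^ (orderOf a * orderOf b) = 1 := by
      rw [mul_pow, pow_mul, pow_orderOf_eq_one, one_pow, one_mul, mul_comm, pow_mul, pow_orderOf_eq_one, one_pow]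
    have h2 := hab.trans (orderOf_dvd_of_pow_eq_one h1)
    rcases (hp.out.dvd_mul).1 h2 with h3 | h3
    · exact ha h3
    · exact hb h3
  inv_mem' := by
    intro a ha
    simpa [orderOf_inv] using ha

theorem pb (A : Type v) [CommGroup A] (p : ℕ) [hp : Fact p.Prime] : PB p (PP A p) (BB A p) :=
  ⟨hp.out, fun _ => Iff.rfl, fun _ => Iff.rfl⟩

variable [hp : Fact p.Prime]

theorem centHyp (h : CFrame ι p a₀) : CentHyp ι (PP A p) := by
  intro u hu hu1 y
  obtain ⟨k, hk⟩ := hu
  refine cent_iff h ?_ y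
  rw [hk]
  have hk0 : k ≠ 0 := by
    rintro rfl
    rw [pow_zero, orderOf_eq_one_iff] at hk
    exact hu1 hk
  exact dvd_pow_self p hk0

theorem a0_mem (h : CFrame ι p a₀) : a₀ ∈ PP A p := ⟨1, by rw [pow_one, h.ord]⟩

theorem card_PP_dichotomy (h : CFrame ι p a₀) :
    Nat.card (PP A p) = p ∨ p ^ 2 ≤ Nat.card (PP A p) := by
  have hpg : IsPGroup p (PP A p) := by
    rw [IsPGroup.iff_orderOf]
    intro x
    obtain ⟨k, hk⟩ := x.2
    exact ⟨k, by rw [← Subgroup.orderOf_coe, hk]⟩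
  obtain ⟨k, hk⟩ := IsPGroup.iff_card.1 hpg
  have hpp := hp.out
  have hk0 : k ≠ 0 := by
    rintro rfl
    rw [pow_zero] at hk
    have h1 : Subsingleton (PP A p) := (Nat.card_eq_one_iff_unique.1 hk).1
    have h2 : (⟨a₀, a0_mem h⟩ : PP A p) = 1 := Subsingleton.elim _ _
    have h3 : a₀ = 1 := congrArg Subtype.val h2
    have h4 := h.ord
    rw [h3, orderOf_one] at h4
    exact hpp.one_lt.ne h4
  by_cases hk1 : k = 1
  · left
    rw [hk, hk1, pow_one]
  · right
    rw [hk]
    exact Nat.pow_le_pow_right hpp.pos (by omega)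

theorem le_card_PP (h : CFrame ι p a₀) : p ≤ Nat.card (PP A p) := by
  have hpp := hp.out
  rcases card_PP_dichotomy h with h1 | h1
  · exact h1.ge
  · exact le_trans (Nat.le_self_pow (by norm_num) p) h1

variable [Fintype (IrrCharacter T)] [Fintype (A →* ℂˣ)]

/-- Generation. -/
theorem hgen_of (h : CFrame ι p a₀) (hgenT : Subgroup.closure {x : T | ∃ k : ℕ, x ^ (p ^ k) = 1} = ⊤)
    (P : Sylow p T) (hPι : (P : Subgroup T) ≤ ι.range) :
    ∀ ψ : IrrCharacter T, ψ ≠ oneT T → ∃ ν, NT (PP A p) ν ∧ mm ι ψ ν ≠ 0 := by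
  classical
  intro ψ hψ
  by_contra hno
  push Not at hno
  have hval : ∀ u ∈ PP A p, (ψ : T → ℂ) (ι u) = (ψ : T → ℂ) 1 := by
    intro u hu
    rw [val_eq_sum ι ψ u, deg_eq_sum ι ψ]
    refine Finset.sum_congr rfl fun ν _ => ?_
    by_cases hν : NT (PP A p) ν
    · rw [hno ν hν]
      simp
    · have h1 : ν u = 1 := by
        by_contra h2
        exact hν ⟨u, hu, h2⟩
      simp [nuF, h1]
  have hχ := isCharacter_of_isIrrCharacter ψ.2
  have hall : ∀ x : T, (ψ : T → ℂ) x = (ψ : T → ℂ) 1 := by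
    intro x
    have h1 : x ∈ Subgroup.closure {x : T | ∃ k : ℕ, x ^ (p ^ k) = 1} := by
      rw [hgenT]
      exact Subgroup.mem_top x
    have h2 : Subgroup.closure {x : T | ∃ k : ℕ, x ^ (p ^ k) = 1} ≤
        Cfsg.Agent.Lib.Char.Degree.charKer hχ := by
      rw [Subgroup.closure_le]
      rintro y ⟨k, hk⟩
      have hy : ∃ j : ℕ, orderOf y = p ^ j := by
        obtain ⟨j, _, hj⟩ := (Nat.dvd_prime_pow hp.out).1 (orderOf_dvd_of_pow_eq_one hk)
        exact ⟨j, hj⟩
      obtain ⟨t, ht⟩ : ∃ t : T, t * y * t⁻¹ ∈ (P : Subgroup T) := by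
        obtain ⟨k, hk⟩ := hy
        have hQ : IsPGroup p (Subgroup.zpowers y) := by
          rw [IsPGroup.iff_card]
          exact ⟨k, by rw [Nat.card_zpowers, hk]⟩
        obtain ⟨Q', hQ'⟩ := hQ.exists_le_sylow
        obtain ⟨t, ht⟩ := MulAction.exists_smul_eq T Q' P
        refine ⟨t, ?_⟩
        rw [← ht, Sylow.smul_def, Sylow.pointwise_smul_def]
        exact ⟨y, hQ' (Subgroup.mem_zpowers y), rfl⟩
      obtain ⟨u, hu⟩ := hPι ht
      have hu' : u ∈ PP A p := by
        obtain ⟨j, hj⟩ := hy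
        refine ⟨j, ?_⟩
        rw [← orderOf_injective ι h.inj, hu, ← hj]
        have h5 := orderOf_injective (MulAut.conj t).toMonoidHom (MulAut.conj t).injective y
        rw [← h5]
        rfl
      have h3 := hval u hu'
      rw [hu, isClassFunction_of_isCharacter hχ y t] at h3
      exact h3
    exact h2 h1
  apply hψ
  apply Subtype.ext
  have h1 : classInner (ψ : T → ℂ) ((oneT T : IrrCharacter T) : T → ℂ) = (ψ : T → ℂ) 1 := by
    rw [classInner_def]
    simp only [oneT_apply, map_one, mul_one, hall]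
    simp only [Finset.sum_const, Finset.card_univ, nsmul_eq_mul]
    rw [Nat.card_eq_fintype_card]
    have hT : (Fintype.card T : ℂ) ≠ 0 := Nat.cast_ne_zero.mpr Fintype.card_pos.ne'
    field_simp
  rw [classInner_irr ψ.2 (oneT T).2] at h1
  by_contra h2
  rw [if_neg h2] at h1
  exact irr_one_ne_zero ψ.2 h1.symm

theorem hodd_of (hcard : Odd (Nat.card T)) (ψ : IrrCharacter T) : Odd (dg ψ) := by
  have h1 := Cfsg.Agent.Lib.RankOneOdd.LiftApp.deg_odd hcard ψ
  change Odd ((charDegree (ψ : T → ℂ) : ℕ) : ℤ)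
  exact_mod_cast h1

/-- **All good characters of a frame are linear.** -/
theorem dg_one_of_frame (h : CFrame ι p a₀) (hp3 : 3 ≤ p) (hcard : Odd (Nat.card T))
    (hgenT : Subgroup.closure {x : T | ∃ k : ℕ, x ^ (p ^ k) = 1} = ⊤)
    (P : Sylow p T) (hPι : (P : Subgroup T) ≤ ι.range) (hg0 : ι a₀ ∈ (P : Subgroup T))
    {θ : IrrCharacter T} (hg : Good ι (PP A p) p θ) : dg θ = 1 := by
  classical
  by_contra hne
  letI : Fintype (GG h) := Fintype.ofFinite _
  have hPB := pb A p
  have hq' := le_card_PP h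
  have hodd := hodd_of hcard
  have hgen := hgen_of h hgenT P hPι
  rcases card_PP_dichotomy h with hqe | hq
  · -- the case of a Sylow subgroup of order `p`
    have hP1 : Nat.card (P : Subgroup T) ≤ Nat.card (PP A p) := by
      let Q : Subgroup A := (P : Subgroup T).comap ι
      have hQ : Q ≤ PP A p := by
        intro a ha
        have ha' : ι a ∈ (P : Subgroup T) := ha
        obtain ⟨k, hk⟩ := (IsPGroup.iff_orderOf.1 P.2) ⟨ι a, ha'⟩
        refine ⟨k, ?_⟩
        rw [← orderOf_injective ι h.inj]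
        exact (Subgroup.orderOf_coe (⟨ι a, ha'⟩ : (P : Subgroup T))).trans hk
      have hc : Nat.card Q = Nat.card (P : Subgroup T) := by
        have e := Subgroup.equivMapOfInjective Q ι h.inj
        rw [Nat.card_congr e.toEquiv, Subgroup.map_comap_eq_self hPι]
      rw [← hc]
      exact Subgroup.card_le_of_le hQ
    have hz : (Subgroup.zpowers (ι a₀)) ≤ (P : Subgroup T) := by
      rw [Subgroup.zpowers_le]
      exact hg0
    have hzc : Nat.card (Subgroup.zpowers (ι a₀)) = p := by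
      rw [Nat.card_zpowers, orderOf_injective ι h.inj, h.ord]
    have hPc : Nat.card (P : Subgroup T) = p := le_antisymm (hP1.trans hqe.le)
      (hzc.symm.le.trans (Subgroup.card_le_of_le hz))
    have hPe : (P : Subgroup T) = Subgroup.zpowers (ι a₀) :=
      (Subgroup.eq_of_le_of_card_ge hz (hPc.le.trans hzc.symm.le)).symm
    have hf : (Subgroup.centralizer ((P : Subgroup T) : Set T)).relIndex
        (Subgroup.normalizer ((P : Subgroup T) : Set T)) = Fintype.card (GG h) := by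
      rw [hPe, centralizer_zpowers_eq h, normalizer_zpowers_eq h, relIndex_range h, Nat.card_eq_fintype_card]
    exact caseB_app (frameT h) hPB hqe hg hp3 hodd hgen hne (centHyp h) P hPc hf
  · -- the case of a large Sylow subgroup
    letI : Fintype (NN ι) := Fintype.ofFinite _
    haveI := Cfsg.Agent.Lib.Char.Ortho.finite_irrCharacter (G := NN ι)
    letI : Fintype (IrrCharacter (NN ι)) := Fintype.ofFinite _
    letI : Fintype (ZMod (Nat.card A))ˣ := Fintype.ofFinite _
    letI : Fintype ((ZMod (Nat.card A))ˣ →* ℂˣ) := Fintype.ofFinite _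
    exact caseA (frameT h) hPB hq hg hp3 hodd hgen
      (fun ψ hψ => XBound.xx_le_one (NN ι).subtype (ιN h) (fun _ => rfl) (eps h) (eps_eq_one_iff h)
        (frameT h) (frameN h) hPB hq' hp3 hg hψ) hne

end Cfsg.Agent.Lib.RankOneOdd.Frame3
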