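import Mathlib
import Cfsg.Agent.Lib.RankOneOdd.Frame1
import Cfsg.Agent.Lib.RankOneOdd.Frame3

/-!
# Theorem T: odd groups over the field of two elements generated by primitive prime elements
-/

set_option autoImplicit false
set_option linter.unusedSectionVars false

namespace Cfsg.Agent.Lib.RankOneOdd.ThmT

open Cfsg Module
open Cfsg.Agent.Lib.Blocks.Local
open Cfsg.Agent.Lib.RankOneOdd.Weights Cfsg.Agent.Lib.RankOneOdd.Family Cfsg.Agent.Lib.RankOneOdd.Struct
open Cfsg.Agent.Lib.RankOneOdd.Lift Cfsg.Agent.Lib.RankOneOdd.LiftApp Cfsg.Agent.Lib.RankOneOdd.Bound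
open Cfsg.Agent.Lib.RankOneOdd.Frame1 Cfsg.Agent.Lib.RankOneOdd.Frame2 Cfsg.Agent.Lib.RankOneOdd.Frame3

universe u v w

/-- Over an abstract coefficient ring. -/
theorem comm_of_frame_K {K : Type w} [CommRing K] [IsDomain K] {red : (AlgInt : Subalgebra ℤ ℂ) →+* K}
    {M : Ideal AlgInt} (hM : IsPModular 2 M) (hker : ∀ a, red a = 0 ↔ a ∈ M) (h2 : (2 : K) = 0)
    {T : Type u} [Group T] [Fintype T] [Fintype (IrrCharacter T)] {A : Type v} [CommGroup A] [Fintype A]
    [Fintype (A →* ℂˣ)] {ι : A →* T} {p : ℕ} [Fact p.Prime] {a₀ : A} {n : ℕ}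
    {rk : T →* Matrix (Fin n) (Fin n) K} (hF2 : ∀ g i j, (rk g i j) ^ 2 = rk g i j)
    (hrk : Function.Injective rk) (h : CFrame ι p a₀) (hp3 : 3 ≤ p) (hcard : Odd (Nat.card T))
    (hgenT : Subgroup.closure {x : T | ∃ k : ℕ, x ^ (p ^ k) = 1} = ⊤) (P : Sylow p T)
    (hPι : (P : Subgroup T) ≤ ι.range) (hg0 : ι a₀ ∈ (P : Subgroup T))
    (hord : orderOf (2 : ZMod p) = n) (hu : IsUnit (rk (ι a₀) - 1)) (x y : T) : x * y = y * x := by
  have hA : Odd (Nat.card A) := Odd.of_dvd_nat hcard (Subgroup.card_dvd_of_injective ι h.inj)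
  have hlin : ∀ θ ∈ SS red rk, (θ : T → ℂ) 1 = 1 := by
    intro θ hθ
    have hg := good_of_SS (rk := rk) ι hM hker h2 hF2 hcard hA hp3 (pb A p) hord h.ord hu hθ
    have h3 := dg_one_of_frame h hp3 hcard hgenT P hPι hg0 hg
    rw [← dg_spec, h3]
    simp
  exact hrk (rk_comm_of_linear h2 hcard hlin x y)

/-- The core of Theorem T over an abstract coefficient ring. -/
theorem comm_core {K : Type w} [CommRing K] [IsDomain K] {red : (AlgInt : Subalgebra ℤ ℂ) →+* K}
    {M : Ideal AlgInt} (hM : IsPModular 2 M) (hker : ∀ a, red a = 0 ↔ a ∈ M) (h2 : (2 : K) = 0)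
    (φ : ZMod 2 →+* K) {T : Type u} [Group T] [Finite T] {n : ℕ}
    (ρ : T →* Matrix (Fin n) (Fin n) (ZMod 2)) (hρ : Function.Injective ρ)
    (hcard : Odd (Nat.card T)) {p : ℕ} (hp : p.Prime) (hord : orderOf (2 : ZMod p) = n)
    (hdvd : p ∣ Nat.card T) (hgen : Subgroup.closure {x : T | ∃ k : ℕ, x ^ (p ^ k) = 1} = ⊤) (x y : T) :
    x * y = y * x := by
  classical
  haveI : Fact p.Prime := ⟨hp⟩
  have hpo : Odd p := Odd.of_dvd_nat hcard hdvd
  have hp3 : 3 ≤ p := by
    have h3 := hp.two_le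
    rcases Nat.lt_or_ge p 3 with h4 | h4
    · have : p = 2 := by omega
      subst this
      exact absurd hpo (by decide)
    · exact h4
  have h20 : (2 : ZMod p) ≠ 0 := by
    intro h
    have h3 : ((2 : ℕ) : ZMod p) = 0 := by exact_mod_cast h
    rw [ZMod.natCast_eq_zero_iff] at h3
    have := Nat.le_of_dvd (by norm_num) h3
    omega
  have hn : 0 < n := by
    have h3 : n ∣ p - 1 := hord ▸ ZMod.orderOf_dvd_card_sub_one h20
    exact Nat.pos_of_dvd_of_pos h3 (by omega)
  letI : Fintype T := Fintype.ofFinite T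
  haveI := Cfsg.Agent.Lib.Char.Ortho.finite_irrCharacter (G := T)
  letI : Fintype (IrrCharacter T) := Fintype.ofFinite _
  -- the element of order `p`
  obtain ⟨P⟩ : Nonempty (Sylow p T) := inferInstance
  have hPne : (P : Subgroup T) ≠ ⊥ := P.ne_bot_of_dvd_card hdvd
  haveI : Nontrivial (P : Subgroup T) := (Subgroup.nontrivial_iff_ne_bot _).2 hPne
  have hcn := P.2.center_nontrivial
  obtain ⟨z, hz⟩ := exists_ne (1 : Subgroup.center (P : Subgroup T))
  obtain ⟨kz, hkz⟩ := IsPGroup.iff_orderOf.1 P.2 ((z : (P : Subgroup T)))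
  have hkz0 : kz ≠ 0 := by
    rintro rfl
    rw [pow_zero, orderOf_eq_one_iff] at hkz
    exact hz (Subtype.ext hkz)
  set w : T := ((z : (P : Subgroup T)) : T) with hw
  have hwo : orderOf w = p ^ kz := by
    rw [hw, Subgroup.orderOf_coe, hkz]
  have hpw : p ∣ orderOf w := by
    rw [hwo]
    exact dvd_pow_self p hkz0
  set g : T := w ^ (orderOf w / p) with hg
  have hgo : orderOf g = p := orderOf_pow_orderOf_div (orderOf_pos w).ne' hpw
  have hgP : g ∈ (P : Subgroup T) := Subgroup.pow_mem _ (z : (P : Subgroup T)).2 _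
  have hcw : ∀ x ∈ (P : Subgroup T), x * w = w * x := by
    intro x hx
    have h3 := (Subgroup.mem_center_iff.1 z.2) ⟨x, hx⟩
    exact congrArg Subtype.val h3
  have hcg : ∀ x ∈ (P : Subgroup T), x * g = g * x := by
    intro x hx
    have h3 : Commute x w := hcw x hx
    exact (h3.pow_right _).eq
  -- the linear algebra of `g`
  set Mg : MM n := ρ g with hMg
  have hMp : Mg ^ p = 1 := by
    rw [hMg, ← map_pow, ← hgo, pow_orderOf_eq_one, map_one]
  have hMne : Mg ≠ 1 := by
    intro h3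
    have h4 : g = 1 := hρ (by rw [map_one]; exact h3)
    rw [h4, orderOf_one] at hgo
    exact hp.one_lt.ne hgo
  have hfpf := fpf_of_ne_one hord Mg hMp hMne
  -- the centralizer
  let C : Subgroup T := Subgroup.centralizer ({g} : Set T)
  have hmemC : ∀ y, y ∈ C ↔ y * g = g * y := by
    intro y
    simp only [C, Subgroup.mem_centralizer_iff, Set.mem_singleton_iff, forall_eq]
    exact eq_comm
  let f0 : C →* MM n := ρ.comp C.subtype
  have hcyc : IsCyclic C := isCyclic_of_hom hord hn Mg hMp hfpf f0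
    (fun a b hab => Subtype.ext (hρ hab)) (fun c => by
      change ρ (c : T) * ρ g = ρ g * ρ (c : T)
      rw [← map_mul, ← map_mul, (hmemC _).1 c.2])
  letI : CommGroup C := IsCyclic.commGroup
  letI : Fintype C := Fintype.ofFinite _
  letI : Fintype (C →* ℂˣ) := Fintype.ofFinite _
  let ι : C →* T := C.subtype
  let a₀ : C := ⟨g, (hmemC g).2 rfl⟩
  have hFr : CFrame ι p a₀ :=
    { inj := Subtype.val_injective
      cyc := hcyc
      prime := hp
      ord := by
        rw [← hgo]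
        exact Subgroup.orderOf_mk _ _
      range := fun y => ⟨fun hy => ⟨⟨y, hy⟩, rfl⟩, by
        rintro ⟨a, rfl⟩
        exact a.2⟩ }
  have hPι : (P : Subgroup T) ≤ ι.range := fun t ht => ⟨⟨t, (hmemC t).2 (hcg t ht)⟩, rfl⟩
  let rk : T →* Matrix (Fin n) (Fin n) K := (φ.mapMatrix : MM n →+* Matrix (Fin n) (Fin n) K).toMonoidHom.comp ρ
  have hrk_apply : ∀ t i j, rk t i j = φ (ρ t i j) := fun _ _ _ => rfl
  have hF2 : ∀ t i j, (rk t i j) ^ 2 = rk t i j := by
    intro t i j
    rw [hrk_apply, ← map_pow]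
    congr 1
    generalize ρ t i j = a
    revert a
    decide
  have hrk : Function.Injective rk := by
    intro s t hst
    apply hρ
    ext i j
    have h3 := congrFun (congrFun hst i) j
    exact φ.injective h3
  have hu : IsUnit (rk (ι a₀) - 1) := by
    have h3 : IsUnit ((ρ g : MM n) - 1) := by
      rw [← Matrix.mulVec_injective_iff_isUnit]
      intro v v' hv
      have h4 : (ρ g - 1 : MM n).mulVec (v - v') = 0 := by
        rw [Matrix.mulVec_sub, hv, sub_self]
      rw [Matrix.sub_mulVec, Matrix.one_mulVec, sub_eq_zero] at h4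
      exact sub_eq_zero.1 (hfpf _ h4)
    have h4 := h3.map (φ.mapMatrix : MM n →+* Matrix (Fin n) (Fin n) K)
    rw [map_sub, map_one] at h4
    exact h4
  exact comm_of_frame_K hM hker h2 hF2 hrk hFr hp3 hcard hgen P hPι hgP hord hu x y

/-- **Theorem T.** -/
theorem theoremT {T : Type u} [Group T] [Finite T] {n : ℕ}
    (ρ : T →* Matrix (Fin n) (Fin n) (ZMod 2)) (hρ : Function.Injective ρ)
    (hcard : Odd (Nat.card T)) {p : ℕ} (hp : p.Prime) (hord : orderOf (2 : ZMod p) = n)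
    (hdvd : p ∣ Nat.card T) (hgen : Subgroup.closure {x : T | ∃ k : ℕ, x ^ (p ^ k) = 1} = ⊤) (x y : T) :
    x * y = y * x := by
  obtain ⟨M, hM⟩ := Cfsg.Agent.Lib.BlockH.Basic.exists_isPModular (p := 2) Nat.prime_two
  haveI hMp := isPrime_of_pModular hM
  have hker : ∀ a, (Ideal.Quotient.mk M) a = 0 ↔ a ∈ M := fun a => Ideal.Quotient.eq_zero_iff_mem
  have h2 : (2 : (AlgInt : Subalgebra ℤ ℂ) ⧸ M) = 0 := by
    have h3 := (hker ((2 : ℕ) : (AlgInt : Subalgebra ℤ ℂ))).2 hM.2.2
    rw [map_natCast] at h3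
    exact_mod_cast h3
  haveI : CharP ((AlgInt : Subalgebra ℤ ℂ) ⧸ M) 2 :=
    CharTwo.of_one_ne_zero_of_two_eq_zero one_ne_zero h2
  exact comm_core hM hker h2 (ZMod.castHom (dvd_refl 2) _) ρ hρ hcard hp hord hdvd hgen x y

end Cfsg.Agent.Lib.RankOneOdd.ThmT
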