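import Mathlib
import Cfsg.Agent.Lib.RankOneOdd.AA0
import Cfsg.Agent.Lib.RankOneOdd.ThmT

/-!
# The abstract frame: the case of a primitive prime divisor
-/

set_option autoImplicit false
set_option linter.unusedSectionVars false

namespace Cfsg.Agent.Lib.RankOneOdd.AA1

open Cfsg.Agent.Lib.RankOneOdd.Frame1 Cfsg.Agent.Lib.RankOneOdd.AA0

universe u

variable {X : Type u} [Group X] [Finite X] {n : ℕ}
variable {ρ : X →* MM n} {τ : X ≃* X} {z₀ : VV n}

/-- **The shortcut**: inverted elements centralize a normal abelian `τ`-invariant subgroup meeting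
the fixed points trivially. -/
theorem shortcut (h : LF ρ τ z₀) {B : Subgroup X} (hB : B.Normal) (hτB : ∀ x ∈ B, τ x ∈ B)
    (hcomm : ∀ x ∈ B, ∀ y ∈ B, x * y = y * x) (hfix : ∀ x ∈ B, τ x = x → x = 1) :
    (∀ x ∈ B, τ x = x⁻¹) ∧ ∀ k ∈ KS τ, ∀ x ∈ B, k * x = x * k := by
  have h1 : ∀ x ∈ B, τ x = x⁻¹ := by
    intro x hx
    have h2 : x * τ x = 1 := by
      apply hfix _ (mul_mem hx (hτB x hx))
      rw [map_mul, h.invol]
      exact hcomm _ (hτB x hx) _ hx
    exact eq_inv_of_mul_eq_one_right h2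
  refine ⟨h1, ?_⟩
  intro k hk x hx
  have hy : k * x * k⁻¹ ∈ B := hB.conj_mem x hx k
  have h3 := h1 _ hy
  rw [map_mul, map_mul, map_inv, mem_KS.1 hk, h1 x hx, inv_inv, mul_inv_rev, mul_inv_rev, inv_inv] at h3
  -- `k⁻¹ x⁻¹ k = k x⁻¹ k⁻¹`
  have h4 : Commute (k ^ 2) x⁻¹ := by
    rw [pow_two]
    change k * k * x⁻¹ = x⁻¹ * (k * k)
    calc k * k * x⁻¹ = k * (k * (x⁻¹ * k⁻¹)) * k := by group
      _ = k * (k⁻¹ * x⁻¹ * k) * k := by rw [h3]
      _ = x⁻¹ * (k * k) := by group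
  obtain ⟨m, hm⟩ := exists_pow_sq h k
  have h8 : Commute k x⁻¹ := by
    rw [← hm]
    exact h4.pow_left m
  simpa using h8.inv_right.eq

/-- The closure of the `p`-elements. -/
def TT (X : Type u) [Group X] (p : ℕ) : Subgroup X := Subgroup.closure {x : X | ∃ k : ℕ, x ^ (p ^ k) = 1}

theorem TT_map_le (p : ℕ) (f : X ≃* X) {x : X} (hx : x ∈ TT X p) : f x ∈ TT X p := by
  have h1 : TT X p ≤ (TT X p).comap f.toMonoidHom := by
    rw [TT, Subgroup.closure_le]
    rintro y ⟨k, hk⟩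
    apply Subgroup.subset_closure
    refine ⟨k, ?_⟩
    change f y ^ p ^ k = 1
    rw [← map_pow, hk, map_one]
  exact h1 hx

/-- **The case of a primitive prime divisor.** -/
theorem caseP (h : LF ρ τ z₀) {p : ℕ} (hp : p.Prime) (hord : orderOf (2 : ZMod p) = n) (hn : 0 < n) :
    ∃ C : Subgroup X, (C : Set X) = KS τ ∧ IsCyclic C ∧ C.Normal := by
  classical
  haveI : Fact p.Prime := ⟨hp⟩
  have hdvd : p ∣ 2 ^ n - 1 := (Nat.modEq_iff_dvd' Nat.one_le_two_pow).1 (two_pow_modEq_one hord).symm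
  obtain ⟨g, hgK, hgo⟩ := exists_KS_of_dvd h hp hdvd
  let T : Subgroup X := TT X p
  have hgT : g ∈ T := by
    apply Subgroup.subset_closure
    exact ⟨1, by rw [pow_one, ← hgo, pow_orderOf_eq_one]⟩
  let ρ' : T →* MM n := ρ.comp T.subtype
  have hρ' : Function.Injective ρ' := fun a b hab => Subtype.ext (h.inj hab)
  have hcT : Odd (Nat.card T) := Odd.of_dvd_nat h.odd (Subgroup.card_subgroup_dvd_card T)
  have hdT : p ∣ Nat.card T := by
    have h1 := orderOf_dvd_natCard (⟨g, hgT⟩ : T)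
    rw [Subgroup.orderOf_mk, hgo] at h1
    exact h1
  have hgenT : Subgroup.closure {x : T | ∃ k : ℕ, x ^ (p ^ k) = 1} = ⊤ := by
    have h1 := Subgroup.closure_closure_coe_preimage (k := {x : X | ∃ k : ℕ, x ^ (p ^ k) = 1})
    have e : {x : T | ∃ k : ℕ, x ^ (p ^ k) = 1} =
        ((↑) : T → X) ⁻¹' {x : X | ∃ k : ℕ, x ^ (p ^ k) = 1} := by
      ext x
      constructor
      · rintro ⟨k, hk⟩
        refine ⟨k, ?_⟩
        have := congrArg Subtype.val hk
        simpa using this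
      · rintro ⟨k, hk⟩
        exact ⟨k, Subtype.ext (by simpa using hk)⟩
    rw [e]
    exact h1
  have hcomm' := Cfsg.Agent.Lib.RankOneOdd.ThmT.theoremT ρ' hρ' hcT hp hord hdT hgenT
  have hcomm : ∀ x ∈ T, ∀ y ∈ T, x * y = y * x := fun x hx y hy =>
    congrArg Subtype.val (hcomm' ⟨x, hx⟩ ⟨y, hy⟩)
  have hpel : ∀ x ∈ T, ∃ k : ℕ, x ^ (p ^ k) = 1 := by
    intro x hx
    induction hx using Subgroup.closure_induction with
    | mem x hx => exact hx
    | one => exact ⟨0, by simp⟩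
    | mul x y hx hy ihx ihy =>
      obtain ⟨k, hk⟩ := ihx
      obtain ⟨l, hl⟩ := ihy
      refine ⟨k + l, ?_⟩
      have hc : Commute x y := hcomm x hx y hy
      have hxk : x ^ (p ^ (k + l)) = 1 := by rw [pow_add, pow_mul, hk, one_pow]
      have hyk : y ^ (p ^ (k + l)) = 1 := by rw [add_comm, pow_add, pow_mul, hl, one_pow]
      rw [hc.mul_pow, hxk, hyk, one_mul]
    | inv x hx ihx =>
      obtain ⟨k, hk⟩ := ihx
      exact ⟨k, by rw [inv_pow, hk, inv_one]⟩
  have hfpfp : ∀ x : X, orderOf x = p → ∀ v : VV n, (ρ x).mulVec v = v → v = 0 := by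
    intro x hx
    apply fpf_of_ne_one hord (ρ x)
    · rw [← map_pow, ← hx, pow_orderOf_eq_one, map_one]
    · intro h1
      have h2 : x = 1 := h.inj (by rw [map_one]; exact h1)
      rw [h2, orderOf_one] at hx
      exact hp.one_lt.ne hx
  have hfix : ∀ x ∈ T, τ x = x → x = 1 := by
    intro x hx hτx
    by_contra hx1
    obtain ⟨k, hk⟩ := hpel x hx
    obtain ⟨j, _, hj⟩ := (Nat.dvd_prime_pow hp).1 (orderOf_dvd_of_pow_eq_one hk)
    have hj0 : j ≠ 0 := by
      rintro rfl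
      rw [pow_zero, orderOf_eq_one_iff] at hj
      exact hx1 hj
    have hpd : p ∣ orderOf x := by
      rw [hj]
      exact dvd_pow_self p hj0
    have h1 : orderOf (x ^ (orderOf x / p)) = p := orderOf_pow_orderOf_div (orderOf_pos x).ne' hpd
    have h2 : (ρ (x ^ (orderOf x / p))).mulVec z₀ = z₀ := by
      rw [← h.fix, map_pow, hτx]
    exact h.ne (hfpfp _ h1 _ h2)
  have hTn : T.Normal := ⟨fun x hx y => by
    have := TT_map_le p (MulAut.conj y) hx
    simpa using this⟩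
  obtain ⟨_, hsc⟩ := shortcut h hTn (fun x hx => TT_map_le p τ hx) hcomm hfix
  -- the centralizer of `g`
  set Mg : MM n := ρ g with hMg
  have hMp : Mg ^ p = 1 := by
    rw [hMg, ← map_pow, ← hgo, pow_orderOf_eq_one, map_one]
  have hfg := hfpfp g hgo
  let C : Subgroup X := Subgroup.centralizer ({g} : Set X)
  have hmemC : ∀ y, y ∈ C ↔ y * g = g * y := by
    intro y
    simp only [C, Subgroup.mem_centralizer_iff, Set.mem_singleton_iff, forall_eq]
    exact eq_comm
  have hsemi : ∀ c ∈ C, (ρ c).mulVec z₀ = z₀ → c = 1 := by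
    intro c hc hz
    by_contra hc1
    have h1 : (ρ c - 1) * Mg = Mg * (ρ c - 1) := by
      rw [sub_mul, mul_sub, one_mul, mul_one, hMg, ← map_mul, ← map_mul, (hmemC c).1 hc]
    have h2 : (ρ c - 1) ≠ 0 := by
      intro h3
      apply hc1
      apply h.inj
      rw [map_one]
      exact sub_eq_zero.1 h3
    have h3 := injective_of_comm hord Mg hMp hfg _ h1 h2
    have h4 : (ρ c - 1 : MM n).mulVec z₀ = (ρ c - 1 : MM n).mulVec 0 := by
      rw [Matrix.sub_mulVec, Matrix.one_mulVec, hz, sub_self, Matrix.mulVec_zero]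
    exact h.ne (h3 h4)
  have hKC : KS τ ⊆ (C : Set X) := fun k hk => (hmemC k).2 (hsc k hk g hgT)
  have hcardC : Nat.card C ≤ 2 ^ n - 1 := by
    rw [← card_nonzero]
    refine Nat.card_le_card_of_injective
      (fun c : C => (⟨(ρ c).mulVec z₀, mulVec_ne_zero _ h.ne⟩ : {z : VV n // z ≠ 0})) ?_
    intro a b hab
    have h1 : (ρ (a : X)).mulVec z₀ = (ρ (b : X)).mulVec z₀ := congrArg Subtype.val hab
    have h2 : (ρ ((b : X)⁻¹ * a)).mulVec z₀ = z₀ := by
      rw [mulVec_mul, h1, mulVec_inv]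
    have h3 := hsemi _ (mul_mem (inv_mem b.2) a.2) h2
    apply Subtype.ext
    rw [inv_mul_eq_one] at h3
    exact h3.symm
  have hEq : KS τ = (C : Set X) := by
    apply Set.eq_of_subset_of_ncard_le hKC
    rw [← Nat.card_coe_set_eq, ← Nat.card_coe_set_eq, card_KS h]
    exact hcardC
  refine ⟨C, hEq.symm, ?_, ?_⟩
  · exact isCyclic_of_hom hord hn Mg hMp hfg (ρ.comp C.subtype) (fun a b hab => Subtype.ext (h.inj hab))
      (fun c => by
        change ρ (c : X) * ρ g = ρ g * ρ (c : X)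
        rw [← map_mul, ← map_mul, (hmemC _).1 c.2])
  · -- the centralizer of `T` is `C`
    have hCT : ∀ c ∈ C, ∀ x ∈ T, c * x = x * c := by
      intro c hc x hx
      have hc' : c ∈ KS τ := by
        rw [hEq]
        exact hc
      exact hsc c hc' x hx
    refine ⟨fun c hc y => ?_⟩
    rw [hmemC]
    have hg' : y⁻¹ * g * y ∈ T := by
      have := hTn.conj_mem g hgT y⁻¹
      simpa using this
    have h1 := hCT c hc _ hg'
    calc y * c * y⁻¹ * g = y * (c * (y⁻¹ * g * y)) * y⁻¹ := by group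
      _ = y * ((y⁻¹ * g * y) * c) * y⁻¹ := by rw [h1]
      _ = g * (y * c * y⁻¹) := by group

end Cfsg.Agent.Lib.RankOneOdd.AA1
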