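import Mathlib
import Cfsg.Agent.Lib.RankOneOdd.AA1
import Cfsg.Agent.Lib.Solvable.Fitting
import Cfsg.Agent.S1160

/-!
# The abstract frame: the solvable case
-/

set_option autoImplicit false
set_option linter.unusedSectionVars false

namespace Cfsg.Agent.Lib.RankOneOdd.AA2

open Cfsg Cfsg.Agent.Lib.RankOneOdd.Frame1 Cfsg.Agent.Lib.RankOneOdd.AA0 Cfsg.Agent.Lib.RankOneOdd.AA1
open Cfsg.Agent.Lib.Core.Basic Cfsg.Agent.Lib.Solvable.Fitting

universe u

variable {X : Type u} [Group X] [Finite X] {n : ℕ}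
variable {ρ : X →* MM n} {τ : X ≃* X} {z₀ : VV n}

theorem two_smul_zero (e : VV n) : 2 • e = 0 := by
  funext i
  simp only [Pi.smul_apply, Pi.zero_apply]
  generalize e i = a
  revert a
  decide

/-- Any two nonzero vectors are related by an element of `X`. -/
theorem exists_move (h : LF ρ τ z₀) {a b : VV n} (ha : a ≠ 0) (hb : b ≠ 0) : ∃ x : X, (ρ x).mulVec b = a := by
  obtain ⟨k, -, hk⟩ := h.trans a ha
  obtain ⟨k', -, hk'⟩ := h.trans b hb
  refine ⟨k * k'⁻¹, ?_⟩
  rw [mulVec_mul, ← hk', mulVec_inv, hk]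

/-- A normal `r`-subgroup is cyclic and acts fixed point freely. -/
theorem normal_pgroup (h : LF ρ τ z₀) {r : ℕ} [hr : Fact r.Prime] {R : Subgroup X} (hRn : R.Normal)
    (hRp : IsPGroup r R) : IsCyclic R ∧ ∀ g ∈ R, g ≠ 1 → ∀ v : VV n, (ρ g).mulVec v = v → v = 0 := by
  classical
  by_cases hr2 : r = 2
  · subst hr2
    have hall : ∀ g ∈ R, g = 1 := by
      intro g hg
      obtain ⟨k, hk⟩ := IsPGroup.iff_orderOf.1 hRp ⟨g, hg⟩
      have hk' : orderOf g = 2 ^ k := by
        rw [← hk]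
        exact (Subgroup.orderOf_mk g hg).symm
      have hodd := odd_orderOf h g
      rw [hk'] at hodd
      have hk0 : k = 0 := by
        by_contra hk0
        obtain ⟨l, rfl⟩ := Nat.exists_eq_succ_of_ne_zero hk0
        rw [pow_succ] at hodd
        exact (Nat.not_even_iff_odd.2 hodd) (even_two.mul_left _)
      rw [hk0, pow_zero, orderOf_eq_one_iff] at hk'
      exact hk'
    have hR : R = ⊥ := (Subgroup.eq_bot_iff_forall _).2 hall
    refine ⟨?_, fun g hg hg1 => absurd (hall g hg) hg1⟩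
    subst hR
    infer_instance
  letI inst : DistribMulAction R (VV n) :=
    { smul := fun g v => (ρ (g : X)).mulVec v
      one_smul := fun v => by
        change (ρ ((1 : R) : X)).mulVec v = v
        rw [Subgroup.coe_one, map_one, Matrix.one_mulVec]
      mul_smul := fun a b v => by
        change (ρ ((a * b : R) : X)).mulVec v = (ρ (a : X)).mulVec ((ρ (b : X)).mulVec v)
        rw [Subgroup.coe_mul, map_mul, Matrix.mulVec_mulVec]
      smul_zero := fun a => Matrix.mulVec_zero _
      smul_add := fun a v w => Matrix.mulVec_add _ _ _ }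
  have hsmul : ∀ (g : R) (v : VV n), g • v = (ρ (g : X)).mulVec v := fun _ _ => rfl
  haveI : FaithfulSMul R (VV n) := ⟨fun {a b} hab => by
    apply Subtype.ext
    apply h.inj
    ext i j
    have h1 := congrFun (hab (Pi.single j 1)) i
    rw [hsmul, hsmul, Matrix.mulVec_single_one, Matrix.mulVec_single_one] at h1
    exact h1⟩
  have hconst : ∀ a b : VV n, a ≠ 0 → b ≠ 0 →
      Nat.card (MulAction.stabilizer R a) = Nat.card (MulAction.stabilizer R b) := by
    intro a b ha hb
    obtain ⟨x, hx⟩ := exists_move h ha hb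
    refine Nat.card_congr ⟨fun g => ⟨⟨x⁻¹ * g * x, ?_⟩, ?_⟩, fun g => ⟨⟨x * g * x⁻¹, ?_⟩, ?_⟩, ?_, ?_⟩
    · have := hRn.conj_mem _ g.1.2 x⁻¹
      simpa using this
    · rw [MulAction.mem_stabilizer_iff, hsmul]
      change (ρ (x⁻¹ * (g : R) * x)).mulVec b = b
      have hg : (ρ ((g : R) : X)).mulVec a = a := g.2
      rw [mulVec_mul, mulVec_mul, hx, hg, ← hx, mulVec_inv]
    · exact hRn.conj_mem _ g.1.2 x
    · rw [MulAction.mem_stabilizer_iff, hsmul]
      change (ρ (x * (g : R) * x⁻¹)).mulVec a = a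
      have hg : (ρ ((g : R) : X)).mulVec b = b := g.2
      rw [mulVec_mul, mulVec_mul, ← hx, mulVec_inv, hg]
    · intro g
      apply Subtype.ext
      apply Subtype.ext
      change x * (x⁻¹ * (g : R) * x) * x⁻¹ = (g : R)
      group
    · intro g
      apply Subtype.ext
      apply Subtype.ext
      change x⁻¹ * (x * (g : R) * x⁻¹) * x = (g : R)
      group
  obtain ⟨h1, h2⟩ := Cfsg.Agent.S1160.result hr2 hRp Nat.prime_two (two_smul_zero (n := n)) hconst
  refine ⟨h1, fun g hg hg1 v hv => h2 ⟨g, hg⟩ (fun e => hg1 (congrArg Subtype.val e)) v hv⟩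

/-- **The solvable case.** -/
theorem caseS (h : LF ρ τ z₀) [Group.IsSolvable X] :
    ∃ C : Subgroup X, (C : Set X) = KS τ ∧ IsCyclic C ∧ C.Normal := by
  classical
  set F : Subgroup X := fittingSubgroup X with hF
  haveI hFn : F.Normal := fittingSubgroup_normal
  haveI hFnil : Group.IsNilpotent F := fittingSubgroup_isNilpotent
  have hFsyl := (Group.isNilpotent_of_finite_tfae (G := F)).out 0 3
  have hsn := hFsyl.mp hFnil
  -- the Sylow subgroups of `F` give normal subgroups of `X`
  have hnormal : ∀ (r : ℕ) [Fact r.Prime] (S : Sylow r F), (((S : Subgroup F)).map F.subtype).Normal := by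
    intro r _ S
    haveI : (S : Subgroup F).Normal := hsn r ⟨Fact.out⟩ S
    haveI hchar : (S : Subgroup F).Characteristic := Sylow.characteristic_of_normal S this
    refine ⟨fun y hy x => ?_⟩
    obtain ⟨s, hs, rfl⟩ := hy
    let cx : F ≃* F := MulAut.conjNormal x
    have h1 : cx s ∈ (S : Subgroup F) := by
      have h2 := hchar.fixed cx
      have h3 : s ∈ (S : Subgroup F).comap cx.toMonoidHom := by
        rw [h2]
        exact hs
      exact h3
    exact ⟨cx s, h1, MulAut.conjNormal_apply x s⟩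
  have hpg : ∀ (r : ℕ) [Fact r.Prime] (S : Sylow r F),
      IsCyclic (S : Subgroup F) ∧ ∀ g ∈ ((S : Subgroup F)).map F.subtype, g ≠ 1 →
        ∀ v : VV n, (ρ g).mulVec v = v → v = 0 := by
    intro r _ S
    have hp1 : IsPGroup r (((S : Subgroup F)).map F.subtype) := S.2.map F.subtype
    obtain ⟨h1, h2⟩ := normal_pgroup h (hnormal r S) hp1
    refine ⟨?_, h2⟩
    have e := Subgroup.equivMapOfInjective (S : Subgroup F) F.subtype F.subtype_injective
    exact isCyclic_of_surjective e.symm e.symm.surjective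
  haveI hZ : IsZGroup F := ⟨fun r hr S => by
    haveI : Fact r.Prime := ⟨hr⟩
    exact (hpg r S).1⟩
  haveI hcyc : IsCyclic F := inferInstance
  have hcomm : ∀ x ∈ F, ∀ y ∈ F, x * y = y * x := by
    intro x hx y hy
    have := IsCyclic.isMulCommutative (α := F)
    exact congrArg Subtype.val (IsMulCommutative.is_comm.comm (⟨x, hx⟩ : F) ⟨y, hy⟩)
  have hfpf : ∀ x ∈ F, x ≠ 1 → ∃ m : ℕ, x ^ m ≠ 1 ∧ ∀ v : VV n, (ρ (x ^ m)).mulVec v = v → v = 0 := by
    intro x hx hx1
    have hord1 : orderOf x ≠ 1 := by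
      rw [Ne, orderOf_eq_one_iff]
      exact hx1
    obtain ⟨r, hr, hrd⟩ := Nat.exists_prime_and_dvd hord1
    haveI : Fact r.Prime := ⟨hr⟩
    set y := x ^ (orderOf x / r) with hy
    have hyo : orderOf y = r := orderOf_pow_orderOf_div (orderOf_pos x).ne' hrd
    have hyF : y ∈ F := Subgroup.pow_mem _ hx _
    have hy1 : y ≠ 1 := by
      intro h1
      rw [h1, orderOf_one] at hyo
      exact hr.one_lt.ne hyo
    have hyp : IsPGroup r (Subgroup.zpowers (⟨y, hyF⟩ : F)) := by
      rw [IsPGroup.iff_card]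
      refine ⟨1, ?_⟩
      rw [Nat.card_zpowers, Subgroup.orderOf_mk, hyo, pow_one]
    obtain ⟨S, hS⟩ := hyp.exists_le_sylow
    have hyS : y ∈ ((S : Subgroup F)).map F.subtype :=
      ⟨⟨y, hyF⟩, hS (Subgroup.mem_zpowers _), rfl⟩
    exact ⟨_, hy1, (hpg r S).2 y hyS hy1⟩
  have hfix : ∀ x ∈ F, τ x = x → x = 1 := by
    intro x hx hτ
    by_contra hx1
    obtain ⟨m, hm, hm2⟩ := hfpf x hx hx1
    have h1 : (ρ (x ^ m)).mulVec z₀ = z₀ := by
      rw [← h.fix, map_pow, hτ]
    exact h.ne (hm2 _ h1)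
  have hτF : ∀ x ∈ F, τ x ∈ F := by
    intro x hx
    have h2 := (fittingSubgroup_characteristic (G := X)).fixed τ
    have h3 : x ∈ F.comap τ.toMonoidHom := by
      rw [hF, h2]
      exact hx
    exact h3
  obtain ⟨hinv, hsc⟩ := shortcut h hFn hτF hcomm hfix
  have hEq : (F : Set X) = KS τ := by
    ext x
    constructor
    · intro hx
      exact hinv x hx
    · intro hx
      apply centralizer_fittingSubgroup_le
      rw [Subgroup.mem_centralizer_iff]
      intro y hy
      exact (hsc x hx y hy).symm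
  exact ⟨F, hEq, hcyc, hFn⟩

end Cfsg.Agent.Lib.RankOneOdd.AA2
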