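import Mathlib
import Cfsg.Agent.Lib.RankOneOdd.AA2
import Cfsg.Agent.Lib.Char.Burnside

/-!
# The abstract frame: dimension six
-/

set_option autoImplicit false
set_option linter.unusedSectionVars false

namespace Cfsg.Agent.Lib.RankOneOdd.AA3

open Cfsg Cfsg.Agent.Lib.RankOneOdd.Frame1 Cfsg.Agent.Lib.RankOneOdd.AA0 Module

universe u

variable {X : Type u} [Group X] [Finite X]
variable {ρ : X →* MM 6} {τ : X ≃* X} {z₀ : VV 6}

theorem card_dvd_six (h : LF ρ τ z₀) : Nat.card X ∣ 615195 := by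
  haveI : Fact (Nat.Prime 2) := ⟨Nat.prime_two⟩
  let f : X →* GL (Fin 6) (ZMod 2) := MonoidHom.toHomUnits ρ
  have hf : Function.Injective f := fun a b hab => h.inj (congrArg Units.val hab)
  have h1 := Subgroup.card_dvd_of_injective f hf
  rw [Matrix.card_GL_field] at h1
  have h2 : (∏ i : Fin 6, ((Fintype.card (ZMod 2)) ^ 6 - (Fintype.card (ZMod 2)) ^ (i : ℕ))) = 2 ^ 15 * 615195 := by
    simp [Fin.prod_univ_six, ZMod.card]
  rw [h2] at h1
  exact (Nat.Coprime.pow_right 15 (Nat.coprime_two_right.2 h.odd)).dvd_of_dvd_mul_left h1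

/-- The fixed space of an element of order `31`. -/
theorem fix_of_order_31 (h : LF ρ τ z₀) {v : X} (hvo : orderOf v = 31) {z : VV 6} (hz : (ρ v).mulVec z = z)
    (hvz : (ρ v).mulVec z₀ = z₀) : z = 0 ∨ z = z₀ := by
  classical
  haveI : Fact (Nat.Prime 31) := ⟨by norm_num⟩
  set M : MM 6 := ρ v with hM
  have hMp : M ^ 31 = 1 := by
    rw [hM, ← map_pow, ← hvo, pow_orderOf_eq_one, map_one]
  have h1 := pow_finrank_modEq M hMp ⊤ (fun _ _ => Submodule.mem_top)
  rw [finrank_top, finrank_top', top_inf_eq] at h1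
  set F := LinearMap.ker (M.mulVecLin - 1) with hF
  have hmem : ∀ w : VV 6, w ∈ F ↔ M.mulVec w = w := by
    intro w
    simp only [hF, LinearMap.mem_ker, LinearMap.sub_apply, Matrix.mulVecLin_apply, Module.End.one_apply, sub_eq_zero]
  have h4 : finrank (ZMod 2) F ≤ 6 := by
    have := Submodule.finrank_le F
    rwa [finrank_top'] at this
  by_contra hcon
  push Not at hcon
  letI : Fintype F := Fintype.ofFinite _
  have hcard : Fintype.card F = 2 ^ finrank (ZMod 2) F := by
    rw [Module.card_eq_pow_finrank (K := ZMod 2), ZMod.card]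
  have h3 : 3 ≤ Fintype.card F := by
    have h5 : ({⟨0, F.zero_mem⟩, ⟨z₀, (hmem _).2 hvz⟩, ⟨z, (hmem _).2 hz⟩} : Finset F).card = 3 := by
      rw [Finset.card_eq_three]
      refine ⟨_, _, _, ?_, ?_, ?_, rfl⟩
      · exact fun e => h.ne (congrArg Subtype.val e).symm
      · exact fun e => hcon.1 (congrArg Subtype.val e).symm
      · exact fun e => hcon.2 (congrArg Subtype.val e).symm
    rw [← h5]
    exact Finset.card_le_univ _
  rw [hcard] at h3
  have hd : 2 ≤ finrank (ZMod 2) F := by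
    by_contra h6
    have h7 : finrank (ZMod 2) F ≤ 1 := by omega
    have h8 : 2 ^ finrank (ZMod 2) F ≤ 2 ^ 1 := Nat.pow_le_pow_right (by norm_num) h7
    omega
  have hd6 : finrank (ZMod 2) F = 6 := by
    generalize finrank (ZMod 2) F = d at h1 h4 hd
    interval_cases d <;> first | rfl | (exfalso; revert h1; decide)
  have hF' : F = ⊤ := Submodule.eq_top_of_finrank_eq (by rw [hd6, finrank_top'])
  have hM1 : M = 1 := by
    ext i j
    have h8 : M.mulVec (Pi.single j 1) = Pi.single j 1 := (hmem _).1 (by rw [hF']; exact Submodule.mem_top)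
    have h9 := congrFun h8 i
    rw [Matrix.mulVec_single_one] at h9
    simpa [Matrix.one_apply, Pi.single_apply] using h9
  have hv1 : v = 1 := h.inj (by rw [map_one]; exact hM1)
  rw [hv1, orderOf_one] at hvo
  norm_num at hvo

/-- There is no element of order `31`. -/
theorem not_dvd_31 (h : LF ρ τ z₀) : ¬ 31 ∣ Nat.card X := by
  classical
  intro hd
  haveI hf31 : Fact (Nat.Prime 31) := ⟨by norm_num⟩
  have hc := card_eq h
  rw [card_KS h] at hc
  have hV : 31 ∣ Nat.card (VS τ) := by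
    rw [hc] at hd
    rcases (hf31.out.dvd_mul).1 hd with h1 | h1
    · norm_num at h1
    · exact h1
  obtain ⟨v', hv'⟩ := exists_prime_orderOf_dvd_card' 31 hV
  set v : X := (v' : X) with hv
  have hvo : orderOf v = 31 := by
    rw [hv, Subgroup.orderOf_coe, hv']
  have hvτ : τ v = v := v'.2
  have hvz : (ρ v).mulVec z₀ = z₀ := (h.fix v).1 hvτ
  -- powers of `v` commuting with an inverted element
  have hnofix : ∀ k ∈ KS τ, k ≠ 1 → v * k ≠ k * v := by
    intro k hk hk1 hcomm
    have h2 : (ρ v).mulVec ((ρ k).mulVec z₀) = (ρ k).mulVec z₀ := by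
      rw [← mulVec_mul, hcomm, mulVec_mul, hvz]
    rcases fix_of_order_31 h hvo h2 hvz with h3 | h3
    · exact mulVec_ne_zero k h.ne h3
    · apply hk1
      refine KS_unique h hk one_mem_KS ?_
      rw [h3, mulVec_one']
  have hnofix' : ∀ m : ℕ, ¬ 31 ∣ m → ∀ k ∈ KS τ, k ≠ 1 → v ^ m * k ≠ k * v ^ m := by
    intro m hm k hk hk1 hcomm
    have hcop : Nat.Coprime m (orderOf v) := by
      rw [hvo, Nat.coprime_comm]
      exact (Nat.Prime.coprime_iff_not_dvd hf31.out).2 hm
    obtain ⟨l, hl⟩ := exists_pow_eq_self_of_coprime hcop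
    apply hnofix k hk hk1
    have h3 : Commute (v ^ m) k := hcomm
    have h4 := (h3.pow_left l).eq
    rwa [hl] at h4
  obtain ⟨k₃, hk₃, hk₃o⟩ := exists_KS_of_dvd h (r := 3) (by norm_num) (by norm_num)
  obtain ⟨k₇, hk₇, hk₇o⟩ := exists_KS_of_dvd h (r := 7) (by norm_num) (by norm_num)
  have hk₃1 : k₃ ≠ 1 := by
    rintro rfl
    rw [orderOf_one] at hk₃o
    norm_num at hk₃o
  have hk₇1 : k₇ ≠ 1 := by
    rintro rfl
    rw [orderOf_one] at hk₇o
    norm_num at hk₇o
  let cj : ℕ → X := fun i => v ^ i * k₃ * (v ^ i)⁻¹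
  have hcK : ∀ i, cj i ∈ KS τ := by
    intro i
    rw [mem_KS]
    simp only [cj, map_mul, map_inv, map_pow, hvτ, mem_KS.1 hk₃, mul_inv_rev, inv_inv, mul_assoc]
  have hcord : ∀ i, orderOf (cj i) = 3 := by
    intro i
    have h5 := orderOf_injective (MulAut.conj (v ^ i)).toMonoidHom (MulAut.conj (v ^ i)).injective k₃
    rw [← hk₃o, ← h5]
    rfl
  have hc1 : ∀ i, cj i ≠ 1 := by
    intro i h0
    have := hcord i
    rw [h0, orderOf_one] at this
    norm_num at this
  have hlt : ∀ i j, i < j → j < 31 → cj i ≠ cj j := by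
    intro i j hij hj e
    obtain ⟨m, rfl⟩ := Nat.exists_eq_add_of_lt hij
    have hm : ¬ 31 ∣ m + 1 := by
      intro h3
      have := Nat.le_of_dvd (by omega) h3
      omega
    apply hnofix' (m + 1) hm k₃ hk₃ hk₃1
    simp only [cj] at e
    have e2 : i + m + 1 = i + (m + 1) := by ring
    rw [e2, pow_add] at e
    have e3 : v ^ i * k₃ * (v ^ i)⁻¹ = v ^ i * (v ^ (m + 1) * k₃ * (v ^ (m + 1))⁻¹) * (v ^ i)⁻¹ := by
      rw [e]
      group
    have e4 : k₃ = v ^ (m + 1) * k₃ * (v ^ (m + 1))⁻¹ := by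
      simpa using e3
    calc v ^ (m + 1) * k₃ = v ^ (m + 1) * k₃ * (v ^ (m + 1))⁻¹ * v ^ (m + 1) := by group
      _ = k₃ * v ^ (m + 1) := by rw [← e4]
  have hinj : Set.InjOn cj (Finset.range 31 : Set ℕ) := by
    intro i hi j hj e
    have hi' : i < 31 := by simpa using hi
    have hj' : j < 31 := by simpa using hj
    rcases lt_trichotomy i j with h3 | h3 | h3
    · exact absurd e (hlt i j h3 hj')
    · exact h3
    · exact absurd e.symm (hlt j i h3 hi')
  have hdisj : ∀ i j, cj i ≠ (cj j)⁻¹ := by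
    intro i j e
    set w := (v ^ j)⁻¹ * v ^ i with hw
    have e1 : w * k₃ * w⁻¹ = k₃⁻¹ := by
      simp only [cj, mul_inv_rev, inv_inv] at e
      have e2 : (v ^ j)⁻¹ * (v ^ i * k₃ * (v ^ i)⁻¹) * v ^ j = k₃⁻¹ := by
        rw [e]
        group
      rw [hw]
      calc (v ^ j)⁻¹ * v ^ i * k₃ * ((v ^ j)⁻¹ * v ^ i)⁻¹
          = (v ^ j)⁻¹ * (v ^ i * k₃ * (v ^ i)⁻¹) * v ^ j := by group
        _ = _ := e2
    have e2 : w ^ 2 * k₃ = k₃ * w ^ 2 := by
      have e3 : w * k₃⁻¹ * w⁻¹ = k₃ := by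
        have e4 := congrArg (·⁻¹) e1
        simpa [mul_assoc] using e4
      rw [pow_two]
      calc w * w * k₃ = w * (w * k₃ * w⁻¹) * w⁻¹ * (w * w) := by group
        _ = w * k₃⁻¹ * w⁻¹ * (w * w) := by rw [e1]
        _ = k₃ * (w * w) := by rw [e3]
    obtain ⟨m, hm⟩ := exists_pow_sq h w
    have e3 : w * k₃ = k₃ * w := by
      have e4 : Commute (w ^ 2) k₃ := e2
      have e5 := (e4.pow_left m).eq
      rwa [hm] at e5
    have e4 : k₃ = k₃⁻¹ := by
      rw [← e1, e3]
      group
    exact hk₃1 (sq_eq_one h (by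
      nth_rewrite 1 [e4]
      group))
  -- counting
  let O : Finset X := (Finset.range 31).image cj
  let O' : Finset X := O.image (·⁻¹)
  have hOc : O.card = 31 := by
    rw [Finset.card_image_of_injOn hinj, Finset.card_range]
  have hO'c : O'.card = 31 := by
    rw [Finset.card_image_of_injective _ inv_injective, hOc]
  have hdis : Disjoint O O' := by
    rw [Finset.disjoint_left]
    intro x hx hx'
    obtain ⟨i, _, rfl⟩ := Finset.mem_image.1 hx
    obtain ⟨y, hy, e⟩ := Finset.mem_image.1 hx'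
    obtain ⟨j, _, rfl⟩ := Finset.mem_image.1 hy
    exact hdisj i j e.symm
  let S : Finset X := (Set.toFinite (KS τ)).toFinset
  have hSc : S.card = 63 := by
    rw [← Set.ncard_eq_toFinset_card, ← Nat.card_coe_set_eq, card_KS h]
    norm_num
  have h1S : (1 : X) ∈ S := by
    simp only [S, Set.Finite.mem_toFinset]
    exact one_mem_KS
  have hWc : (S.erase 1).card = 62 := by
    rw [Finset.card_erase_of_mem h1S, hSc]
  have hsub : O ∪ O' ⊆ S.erase 1 := by
    intro x hx
    rw [Finset.mem_union] at hx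
    rw [Finset.mem_erase]
    simp only [S, Set.Finite.mem_toFinset]
    rcases hx with hx | hx
    · obtain ⟨i, _, rfl⟩ := Finset.mem_image.1 hx
      exact ⟨hc1 i, hcK i⟩
    · obtain ⟨y, hy, rfl⟩ := Finset.mem_image.1 hx
      obtain ⟨j, _, rfl⟩ := Finset.mem_image.1 hy
      exact ⟨fun h0 => hc1 j (inv_eq_one.1 h0), inv_mem_KS (hcK j)⟩
  have hEq : O ∪ O' = S.erase 1 := Finset.eq_of_subset_of_card_le hsub (by
    rw [hWc, Finset.card_union_of_disjoint hdis, hOc, hO'c])
  have hk₇W : k₇ ∈ S.erase 1 := by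
    rw [Finset.mem_erase]
    simp only [S, Set.Finite.mem_toFinset]
    exact ⟨hk₇1, hk₇⟩
  rw [← hEq, Finset.mem_union] at hk₇W
  rcases hk₇W with hx | hx
  · obtain ⟨i, _, e⟩ := Finset.mem_image.1 hx
    have := hcord i
    rw [e, hk₇o] at this
    norm_num at this
  · obtain ⟨y, hy, e⟩ := Finset.mem_image.1 hx
    obtain ⟨j, _, rfl⟩ := Finset.mem_image.1 hy
    have := hcord j
    rw [← orderOf_inv, e, hk₇o] at this
    norm_num at this

/-- A group of order dividing `3⁴ 7²` is solvable. -/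
theorem solvable_of_dvd {Y : Type*} [Group Y] [Finite Y] (hY : Nat.card Y ∣ 3 ^ 4 * 7 ^ 2) : Group.IsSolvable Y := by
  obtain ⟨d₁, d₂, h1, h2, h3⟩ := (Nat.dvd_mul).1 hY
  obtain ⟨a, _, rfl⟩ := (Nat.dvd_prime_pow (by norm_num)).1 h1
  obtain ⟨b, _, rfl⟩ := (Nat.dvd_prime_pow (by norm_num)).1 h2
  exact Cfsg.Agent.Lib.Char.Burnside.isSolvable_of_card_eq 3 7 a b (by norm_num) (by norm_num) h3.symm

/-- **In dimension six the group is solvable.** -/
theorem solvable_six (h : LF ρ τ z₀) : Group.IsSolvable X := by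
  classical
  have h1 := card_dvd_six h
  have hc31 : Nat.Coprime (Nat.card X) 31 := by
    rw [Nat.coprime_comm]
    exact (Nat.Prime.coprime_iff_not_dvd (by norm_num)).2 (not_dvd_31 h)
  have h2 : Nat.card X ∣ 3 ^ 4 * 7 ^ 2 * 5 := by
    have h3 : 615195 = 31 * (3 ^ 4 * 7 ^ 2 * 5) := by norm_num
    rw [h3] at h1
    exact hc31.dvd_of_dvd_mul_left h1
  by_cases h5 : 5 ∣ Nat.card X
  · haveI hf5 : Fact (Nat.Prime 5) := ⟨by norm_num⟩
    obtain ⟨P⟩ : Nonempty (Sylow 5 X) := inferInstance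
    have hfac : (Nat.card X).factorization 5 = 1 := by
      have h3 : (Nat.card X).factorization 5 ≠ 0 := by
        rw [Ne, Nat.factorization_eq_zero_iff]
        push Not
        exact ⟨by norm_num, h5, Nat.card_pos.ne'⟩
      have h4 : (Nat.card X).factorization 5 ≤ 1 := by
        by_contra h6
        push Not at h6
        have h7 : 5 ^ 2 ∣ Nat.card X := (Nat.Prime.pow_dvd_iff_le_factorization hf5.out Nat.card_pos.ne').2 h6
        have h8 := h7.trans h2
        norm_num at h8
      omega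
    have hPc : Nat.card P = 5 := by
      rw [P.card_eq_multiplicity, hfac, pow_one]
    haveI hPcyc : IsCyclic (P : Subgroup X) := isCyclic_of_prime_card hPc
    have hNC : Subgroup.normalizer (P : Set X) ≤ Subgroup.centralizer (P : Set X) := by
      have key := Subgroup.card_dvd_of_injective _ (QuotientGroup.kerLift_injective (P : Subgroup X).normalizerMonoidHom)
      rw [Subgroup.normalizerMonoidHom_ker, ← Subgroup.index, ← Subgroup.relIndex] at key
      refine Subgroup.relIndex_eq_one.mp (Nat.eq_one_of_dvd_coprimes ?_ dvd_rfl key)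
      rw [hPcyc.card_mulAut, hPc]
      have h3 : Nat.totient 5 = 4 := by decide
      rw [h3]
      have h4 : Odd ((Subgroup.centralizer (P : Set X)).relIndex (Subgroup.normalizer (P : Set X))) :=
        Odd.of_dvd_nat (Odd.of_dvd_nat h.odd (Subgroup.card_subgroup_dvd_card (Subgroup.normalizer (P : Set X))))
          (Subgroup.relIndex_dvd_card _ _)
      have h5' : Nat.Coprime ((Subgroup.centralizer (P : Set X)).relIndex (Subgroup.normalizer (P : Set X))) (2 ^ 2) :=
        Nat.Coprime.pow_right 2 (Nat.coprime_two_right.2 h4)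
      simpa using h5'
    have hcomp := MonoidHom.ker_transferSylow_isComplement' P hNC
    have hLc := hcomp.card_mul_card
    rw [hPc] at hLc
    have hL : Nat.card (MonoidHom.transferSylow P hNC).ker ∣ 3 ^ 4 * 7 ^ 2 := by
      rw [← hLc] at h2
      exact Nat.dvd_of_mul_dvd_mul_right (by norm_num) h2
    haveI := solvable_of_dvd hL
    haveI : Group.IsSolvable (P : Subgroup X) := by
      haveI := P.2.isNilpotent
      infer_instance
    exact Group.isSolvable_of_ker_le_range (MonoidHom.transferSylow P hNC).ker.subtype (MonoidHom.transferSylow P hNC)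
      (by rw [Subgroup.range_subtype])
  · have h3 : Nat.Coprime (Nat.card X) 5 := by
      rw [Nat.coprime_comm]
      exact (Nat.Prime.coprime_iff_not_dvd (by norm_num)).2 h5
    exact solvable_of_dvd (h3.dvd_of_dvd_mul_right h2)


end Cfsg.Agent.Lib.RankOneOdd.AA3
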