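import Mathlib
import Cfsg.Agent.Lib.RankOneOdd.AA3
import Cfsg.Agent.Lib.Zsig.Basic

/-!
# Theorem A
-/

set_option autoImplicit false
set_option linter.unusedSectionVars false

namespace Cfsg.Agent.Lib.RankOneOdd.AA4

open Cfsg Cfsg.Agent.Lib.RankOneOdd.Frame1 Cfsg.Agent.Lib.RankOneOdd.AA0

universe u

variable {X : Type u} [Group X] [Finite X] {n : ℕ}
variable {ρ : X →* MM n} {τ : X ≃* X} {z₀ : VV n}

/-- **Theorem A.** -/
theorem theoremA (h : LF ρ τ z₀) (hn : 2 ≤ n) :
    ∃ C : Subgroup X, (C : Set X) = KS τ ∧ IsCyclic C ∧ C.Normal := by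
  by_cases h6 : n = 6
  · subst h6
    haveI := Cfsg.Agent.Lib.RankOneOdd.AA3.solvable_six h
    exact Cfsg.Agent.Lib.RankOneOdd.AA2.caseS h
  · obtain ⟨r, hr, hd, hprim⟩ := Cfsg.Agent.Lib.Zsig.Basic.zsigmondy 2 n (by norm_num) (by omega)
      (by simp [h6]) (by
        rintro ⟨-, m, hm⟩
        rcases m with _ | m
        · norm_num at hm
        · rw [pow_succ] at hm
          omega)
    haveI : Fact r.Prime := ⟨hr⟩
    have h1 : (2 : ZMod r) ^ n = 1 := by
      have := Cfsg.Agent.Lib.Zsig.Basic.pow_eq_one_of_dvd (r := r) (a := 2) (k := n) (by norm_num) hd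
      simpa using this
    have hord : orderOf (2 : ZMod r) = n := by
      rw [orderOf_eq_iff (by omega)]
      refine ⟨h1, fun m hm hm0 e => hprim m hm0 hm ?_⟩
      rw [← ZMod.natCast_eq_zero_iff, Nat.cast_sub Nat.one_le_two_pow]
      push_cast
      rw [e, sub_self]
    exact Cfsg.Agent.Lib.RankOneOdd.AA1.caseP h hr hord (by omega)

end Cfsg.Agent.Lib.RankOneOdd.AA4
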