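import Mathlib
import Cfsg.Agent.Lib.RankOneOdd.Frame1

/-!
# Matrix form of an action on an elementary abelian `2`-group
-/

set_option autoImplicit false
set_option linter.unusedSectionVars false

namespace Cfsg.Agent.Lib.RankOneOdd.MatRep

open Module Cfsg.Agent.Lib.RankOneOdd.Frame1

universe u v

theorem exists_matrix_rep {A : Type u} {Y : Type v} [Group A] [Finite A] [Group Y] (hA : ∀ x : A, x * x = 1)
    (φ : Y →* MulAut A) :
    ∃ (n : ℕ) (e : A ≃ VV n) (ρ : Y →* MM n),
      (∀ a b, e (a * b) = e a + e b) ∧ ∀ y a, (ρ y).mulVec (e a) = e (φ y a) := by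
  classical
  have hcomm : ∀ a b : A, a * b = b * a := by
    intro a b
    have h1 : (a * b) * (a * b) = 1 := hA _
    calc a * b = a * b * (b * a * (b * a)) := by rw [hA (b * a), mul_one]
      _ = (a * (b * b) * a) * (b * a) := by group
      _ = b * a := by rw [hA b, mul_one, hA a, one_mul]
  letI : CommGroup A := { (inferInstance : Group A) with mul_comm := hcomm }
  let V := Additive A
  have h2 : ∀ v : V, 2 • v = 0 := by
    intro v
    have : (2 : ℕ) • v = Additive.ofMul ((Additive.toMul v) * (Additive.toMul v)) := by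
      rw [two_nsmul]
      rfl
    rw [this, hA]
    rfl
  letI : Module (ZMod 2) V := AddCommGroup.zmodModule h2
  haveI : Finite V := (inferInstance : Finite A)
  let n := finrank (ZMod 2) V
  let b : Basis (Fin n) (ZMod 2) V := Module.finBasis (ZMod 2) V
  let eL : V ≃ₗ[ZMod 2] (Fin n → ZMod 2) := b.equivFun
  let e : A ≃ VV n := Additive.ofMul.trans eL.toEquiv
  have he : ∀ a : A, e a = eL (Additive.ofMul a) := fun _ => rfl
  let f : Y → (V →ₗ[ZMod 2] V) := fun y =>
    AddMonoidHom.toZModLinearMap 2 (MonoidHom.toAdditive (φ y).toMonoidHom)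
  have hf : ∀ (y : Y) (a : A), f y (Additive.ofMul a) = Additive.ofMul (φ y a) := fun _ _ => rfl
  let g : Y → ((Fin n → ZMod 2) →ₗ[ZMod 2] (Fin n → ZMod 2)) := fun y =>
    eL.toLinearMap ∘ₗ f y ∘ₗ eL.symm.toLinearMap
  have hf1 : ∀ w : V, f 1 w = w := by
    intro w
    have h3 := hf 1 (Additive.toMul w)
    rw [map_one] at h3
    exact h3
  have hfm : ∀ (y y' : Y) (w : V), f (y * y') w = f y (f y' w) := by
    intro y y' w
    have h3 := hf (y * y') (Additive.toMul w)
    rw [map_mul] at h3
    exact h3
  have hg1 : g 1 = LinearMap.id := by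
    apply LinearMap.ext
    intro v
    change eL (f 1 (eL.symm v)) = v
    rw [hf1, LinearEquiv.apply_symm_apply]
  have hgm : ∀ y y' : Y, g (y * y') = g y ∘ₗ g y' := by
    intro y y'
    apply LinearMap.ext
    intro v
    change eL (f (y * y') (eL.symm v)) = eL (f y (eL.symm (eL (f y' (eL.symm v)))))
    rw [hfm, LinearEquiv.symm_apply_apply]
  let ρ : Y →* MM n :=
    { toFun := fun y => LinearMap.toMatrix' (g y)
      map_one' := by
        change LinearMap.toMatrix' (g 1) = 1
        rw [hg1, LinearMap.toMatrix'_id]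
      map_mul' := fun y y' => by
        change LinearMap.toMatrix' (g (y * y')) = LinearMap.toMatrix' (g y) * LinearMap.toMatrix' (g y')
        rw [hgm, LinearMap.toMatrix'_comp] }
  refine ⟨n, e, ρ, ?_, ?_⟩
  · intro a b
    rw [he, he, he, ofMul_mul, map_add]
  · intro y a
    change (LinearMap.toMatrix' (g y)).mulVec (e a) = e (φ y a)
    rw [LinearMap.toMatrix'_mulVec, he, he]
    change eL (f y (eL.symm (eL (Additive.ofMul a)))) = _
    rw [LinearEquiv.symm_apply_apply, hf]

end Cfsg.Agent.Lib.RankOneOdd.MatRep
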