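import Mathlib
import Cfsg.Agent.Lib.RankOneOdd.AA4

/-!
# The fixed points form a cyclic group
-/

set_option autoImplicit false
set_option linter.unusedSectionVars false

namespace Cfsg.Agent.Lib.RankOneOdd.VCyc

open Cfsg Cfsg.Agent.Lib.RankOneOdd.Frame1 Cfsg.Agent.Lib.RankOneOdd.AA0

universe u v

/-- A group of ring automorphisms of a finite field of characteristic two is cyclic. -/
theorem cyclic_of_ringAut {E : Type v} [Field E] [Finite E] (h2 : (2 : E) = 0) {Y : Type u} [Group Y]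
    (f : Y →* RingAut E) (hf : Function.Injective f) : IsCyclic Y := by
  haveI : CharP E 2 := CharTwo.of_one_ne_zero_of_two_eq_zero one_ne_zero h2
  letI : Algebra (ZMod 2) E := ZMod.algebra E 2
  have hz : ∀ (σ : RingAut E) (r : ZMod 2), σ (algebraMap (ZMod 2) E r) = algebraMap (ZMod 2) E r := by
    intro σ r
    have h3 : (σ : E →+* E).comp (algebraMap (ZMod 2) E) = algebraMap (ZMod 2) E := RingHom.ext_zmod _ _
    exact congrArg (fun g : ZMod 2 →+* E => g r) h3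
  let g : Y →* Gal(E/ZMod 2) :=
    { toFun := fun y => AlgEquiv.ofRingEquiv (f := f y) (hz (f y))
      map_one' := by
        ext x
        simp
      map_mul' := fun a b => by
        ext x
        simp }
  refine isCyclic_of_injective g ?_
  intro a b hab
  apply hf
  ext x
  have h3 := congrArg (fun σ : Gal(E/ZMod 2) => σ x) hab
  exact h3

/-- The group fixed by the involution is cyclic. -/
theorem VS_cyclic {X : Type u} [Group X] [Finite X] {n : ℕ} {ρ : X →* MM n} {τ : X ≃* X} {z₀ : VV n}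
    (h : LF ρ τ z₀) (hn : 0 < n) (C : Subgroup X) (hC : (C : Set X) = KS τ) (hcyc : IsCyclic C)
    (hnorm : C.Normal) : IsCyclic (VS τ) := by
  classical
  haveI : Nonempty (Fin n) := ⟨⟨0, hn⟩⟩
  obtain ⟨⟨c₀, hc₀⟩, hgen⟩ := hcyc.exists_generator
  have hpow : ∀ c ∈ C, ∃ m : ℕ, ρ c = ρ c₀ ^ m := by
    intro c hc
    have h1 := hgen ⟨c, hc⟩
    rw [← mem_powers_iff_mem_zpowers] at h1
    obtain ⟨m, hm⟩ := h1
    refine ⟨m, ?_⟩
    have h2 : c₀ ^ m = c := congrArg Subtype.val hm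
    rw [← h2, map_pow]
  have hcomm : ∀ a : MM n, a * ρ c₀ = ρ c₀ * a → ∀ c ∈ C, a * ρ c = ρ c * a := by
    intro a ha c hc
    obtain ⟨m, hm⟩ := hpow c hc
    rw [hm]
    exact (Commute.pow_right (show Commute a (ρ c₀) from ha) m)
  have hmemC : ∀ k, k ∈ C ↔ τ k = k⁻¹ := by
    intro k
    rw [← SetLike.mem_coe, hC]
    exact mem_KS
  have htrans : ∀ w : VV n, w ≠ 0 → ∃ k ∈ C, (ρ k).mulVec z₀ = w := by
    intro w hw
    obtain ⟨k, hk, e⟩ := h.trans w hw
    exact ⟨k, (hmemC k).2 hk, e⟩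
  have htr2 : ∀ v w : VV n, v ≠ 0 → w ≠ 0 → ∃ k ∈ C, (ρ k).mulVec v = w := by
    intro v w hv hw
    obtain ⟨k, hk, e⟩ := htrans v hv
    obtain ⟨k', hk', e'⟩ := htrans w hw
    refine ⟨k' * k⁻¹, mul_mem hk' (inv_mem hk), ?_⟩
    rw [mulVec_mul, ← e, mulVec_inv, e']
  have hsingle : ∀ j : Fin n, (Pi.single j 1 : VV n) ≠ 0 := by
    intro j h0
    have := congrFun h0 j
    simp at this
  have hinj : ∀ a : MM n, a * ρ c₀ = ρ c₀ * a → a ≠ 0 → ∀ v : VV n, a.mulVec v = 0 → v = 0 := by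
    intro a ha h0 v hv
    by_contra hv0
    apply h0
    ext i j
    obtain ⟨k, hk, e⟩ := htr2 v _ hv0 (hsingle j)
    have h1 : a.mulVec (Pi.single j 1) = 0 := by
      rw [← e, Matrix.mulVec_mulVec, hcomm a ha k hk, ← Matrix.mulVec_mulVec, hv, Matrix.mulVec_zero]
    rw [Matrix.mulVec_single_one] at h1
    exact congrFun h1 i
  haveI hnz : NoZeroDivisors (EE (ρ c₀)) := by
    refine ⟨fun {a b} hab => ?_⟩
    by_cases h0 : a = 0
    · exact Or.inl h0
    · right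
      have ha : (a : MM n) ≠ 0 := fun h => h0 (Subtype.ext h)
      have h2 : (a : MM n) * (b : MM n) = 0 := congrArg Subtype.val hab
      apply Subtype.ext
      ext i j
      have h3 : (a : MM n).mulVec ((b : MM n).mulVec (Pi.single j 1)) = 0 := by
        rw [Matrix.mulVec_mulVec, h2, Matrix.zero_mulVec]
      have h4 := hinj (a : MM n) (mem_EE.1 a.2) ha _ h3
      rw [Matrix.mulVec_single_one] at h4
      exact congrFun h4 i
  haveI hdom : IsDomain (EE (ρ c₀)) := NoZeroDivisors.to_isDomain _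
  have hfield := Finite.isDomain_to_isField (EE (ρ c₀))
  have hconj : ∀ (v : X), τ v = v → ∀ a : MM n, a * ρ c₀ = ρ c₀ * a →
      (ρ v * a * ρ v⁻¹) * ρ c₀ = ρ c₀ * (ρ v * a * ρ v⁻¹) := by
    intro v hv a ha
    have hc' : v⁻¹ * c₀ * v ∈ C := by
      rw [hmemC]
      have h1 : τ c₀ = c₀⁻¹ := (hmemC c₀).1 hc₀
      rw [map_mul, map_mul, map_inv, hv, h1]
      group
    have h2 := hcomm a ha _ hc'
    rw [map_mul, map_mul] at h2
    have e2 : ρ v * ρ v⁻¹ = 1 := by rw [← map_mul, mul_inv_cancel, map_one]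
    calc ρ v * a * ρ v⁻¹ * ρ c₀ = ρ v * (a * (ρ v⁻¹ * ρ c₀ * ρ v)) * ρ v⁻¹ := by
          have e3 : ρ v * (a * (ρ v⁻¹ * ρ c₀ * ρ v)) * ρ v⁻¹ = ρ v * a * ρ v⁻¹ * ρ c₀ * (ρ v * ρ v⁻¹) := by
            simp only [mul_assoc]
          rw [e3, e2, mul_one]
      _ = ρ v * (ρ v⁻¹ * ρ c₀ * ρ v * a) * ρ v⁻¹ := by rw [h2]
      _ = (ρ v * ρ v⁻¹) * ρ c₀ * (ρ v * a * ρ v⁻¹) := by simp only [mul_assoc]
      _ = ρ c₀ * (ρ v * a * ρ v⁻¹) := by rw [e2, one_mul]
  have hinv : ∀ v : X, ρ v * ρ v⁻¹ = 1 := fun v => by rw [← map_mul, mul_inv_cancel, map_one]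
  have hinv' : ∀ v : X, ρ v⁻¹ * ρ v = 1 := fun v => by rw [← map_mul, inv_mul_cancel, map_one]
  have hτinv : ∀ v : X, τ v = v → τ v⁻¹ = v⁻¹ := fun v hv => by rw [map_inv, hv]
  let f0 : VS τ → RingAut (EE (ρ c₀)) := fun v =>
    { toFun := fun x => ⟨ρ (v : X) * (x : MM n) * ρ (v : X)⁻¹, mem_EE.2 (hconj v v.2 x (mem_EE.1 x.2))⟩
      invFun := fun x => ⟨ρ (v : X)⁻¹ * (x : MM n) * ρ (v : X), mem_EE.2 (by
        have h1 := hconj (v : X)⁻¹ (hτinv _ v.2) x (mem_EE.1 x.2)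
        rwa [inv_inv] at h1)⟩
      left_inv := fun x => by
        apply Subtype.ext
        change ρ (v : X)⁻¹ * (ρ (v : X) * (x : MM n) * ρ (v : X)⁻¹) * ρ (v : X) = x
        have e3 : ρ (v : X)⁻¹ * (ρ (v : X) * (x : MM n) * ρ (v : X)⁻¹) * ρ (v : X)
            = (ρ (v : X)⁻¹ * ρ (v : X)) * (x : MM n) * (ρ (v : X)⁻¹ * ρ (v : X)) := by simp only [mul_assoc]
        rw [e3, hinv', one_mul, mul_one]
      right_inv := fun x => by
        apply Subtype.ext
        change ρ (v : X) * (ρ (v : X)⁻¹ * (x : MM n) * ρ (v : X)) * ρ (v : X)⁻¹ = x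
        have e3 : ρ (v : X) * (ρ (v : X)⁻¹ * (x : MM n) * ρ (v : X)) * ρ (v : X)⁻¹
            = (ρ (v : X) * ρ (v : X)⁻¹) * (x : MM n) * (ρ (v : X) * ρ (v : X)⁻¹) := by simp only [mul_assoc]
        rw [e3, hinv, one_mul, mul_one]
      map_mul' := fun x y => by
        apply Subtype.ext
        change ρ (v : X) * ((x : MM n) * (y : MM n)) * ρ (v : X)⁻¹
          = ρ (v : X) * (x : MM n) * ρ (v : X)⁻¹ * (ρ (v : X) * (y : MM n) * ρ (v : X)⁻¹)
        have e3 : ρ (v : X) * (x : MM n) * ρ (v : X)⁻¹ * (ρ (v : X) * (y : MM n) * ρ (v : X)⁻¹)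
            = ρ (v : X) * (x : MM n) * (ρ (v : X)⁻¹ * ρ (v : X)) * (y : MM n) * ρ (v : X)⁻¹ := by
          simp only [mul_assoc]
        rw [e3, hinv', mul_one]
        simp only [mul_assoc]
      map_add' := fun x y => by
        apply Subtype.ext
        change ρ (v : X) * ((x : MM n) + (y : MM n)) * ρ (v : X)⁻¹
          = ρ (v : X) * (x : MM n) * ρ (v : X)⁻¹ + ρ (v : X) * (y : MM n) * ρ (v : X)⁻¹
        rw [mul_add, add_mul] }
  have hf0 : ∀ (v : VS τ) (x : EE (ρ c₀)), ((f0 v x : EE (ρ c₀)) : MM n) = ρ (v : X) * (x : MM n) * ρ (v : X)⁻¹ :=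
    fun _ _ => rfl
  let f : VS τ →* RingAut (EE (ρ c₀)) :=
    { toFun := f0
      map_one' := by
        ext x
        have h1 := hf0 1 x
        simp only [OneMemClass.coe_one, map_one, inv_one, one_mul, mul_one] at h1
        rw [h1]
        rfl
      map_mul' := fun a b => by
        ext x
        have h1 := hf0 (a * b) x
        have h2 : ((f0 a (f0 b x) : EE (ρ c₀)) : MM n) = ρ (a : X) * (ρ (b : X) * (x : MM n) * ρ (b : X)⁻¹) * ρ (a : X)⁻¹ :=
          rfl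
        have h3 : ((f0 (a * b) x : EE (ρ c₀)) : MM n) = ((f0 a (f0 b x) : EE (ρ c₀)) : MM n) := by
          rw [h1, h2]
          simp only [Subgroup.coe_mul, mul_inv_rev, map_mul, mul_assoc]
        exact congrFun (congrFun h3 _) _ }
  have hinjf : Function.Injective f := by
    intro a b hab
    have hE : ∀ k ∈ C, (ρ k) ∈ EE (ρ c₀) := by
      intro k hk
      obtain ⟨m, hm⟩ := hpow k hk
      rw [hm, mem_EE]
      exact (Commute.pow_left (Commute.refl (ρ c₀)) m)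
    have h1 : ∀ k ∈ C, ρ (a : X) * ρ k * ρ (a : X)⁻¹ = ρ (b : X) * ρ k * ρ (b : X)⁻¹ := by
      intro k hk
      have h2 : f0 a ⟨ρ k, hE k hk⟩ = f0 b ⟨ρ k, hE k hk⟩ := by
        have h3 : f a = f b := hab
        exact congrArg (fun σ : RingAut (EE (ρ c₀)) => σ ⟨ρ k, hE k hk⟩) h3
      exact congrArg Subtype.val h2
    set u : X := (b : X)⁻¹ * a with hu
    have hufix : (ρ u).mulVec z₀ = z₀ := by
      rw [← h.fix, hu, map_mul, map_inv, show τ (a : X) = a from a.2, show τ (b : X) = b from b.2]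
    have h2 : ∀ k ∈ C, ρ u * ρ k = ρ k * ρ u := by
      intro k hk
      have h3 := h1 k hk
      have h4 : ρ u = ρ (b : X)⁻¹ * ρ (a : X) := by rw [hu, map_mul]
      rw [h4]
      have h5 : ρ (b : X)⁻¹ * ρ (a : X) * ρ k = ρ (b : X)⁻¹ * (ρ (a : X) * ρ k * ρ (a : X)⁻¹) * ρ (a : X) := by
        have e3 : ρ (b : X)⁻¹ * (ρ (a : X) * ρ k * ρ (a : X)⁻¹) * ρ (a : X)
            = ρ (b : X)⁻¹ * ρ (a : X) * ρ k * (ρ (a : X)⁻¹ * ρ (a : X)) := by simp only [mul_assoc]
        rw [e3, hinv', mul_one]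
      rw [h5, h3]
      have e3 : ρ (b : X)⁻¹ * (ρ (b : X) * ρ k * ρ (b : X)⁻¹) * ρ (a : X)
          = (ρ (b : X)⁻¹ * ρ (b : X)) * ρ k * (ρ (b : X)⁻¹ * ρ (a : X)) := by simp only [mul_assoc]
      rw [e3, hinv', one_mul]
    have h3 : ∀ w : VV n, (ρ u).mulVec w = w := by
      intro w
      by_cases hw : w = 0
      · rw [hw, Matrix.mulVec_zero]
      · obtain ⟨k, hk, e⟩ := htrans w hw
        rw [← e, Matrix.mulVec_mulVec, h2 k hk, ← Matrix.mulVec_mulVec, hufix]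
    have h4 : ρ u = 1 := by
      ext i j
      have h5 := congrFun (h3 (Pi.single j 1)) i
      rw [Matrix.mulVec_single_one] at h5
      simpa [Matrix.one_apply, Pi.single_apply] using h5
    have h5 : u = 1 := h.inj (by rw [h4, map_one])
    apply Subtype.ext
    rw [hu, inv_mul_eq_one] at h5
    exact h5.symm
  letI hF : Field (EE (ρ c₀)) := hfield.toField
  refine cyclic_of_ringAut (E := EE (ρ c₀)) ?_ f hinjf
  apply Subtype.ext
  change (2 : MM n) = 0
  ext i j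
  have h5 : (2 : MM n) = 1 + 1 := by norm_num [one_add_one_eq_two]
  rw [h5, Matrix.add_apply]
  exact CharTwo.add_self_eq_zero _

end Cfsg.Agent.Lib.RankOneOdd.VCyc
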