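import Mathlib
import Cfsg.Agent.Lib.RankOneOdd.VCyc
import Cfsg.Agent.Lib.RankOneOdd.MatRep
import Cfsg.Agent.Lib.RankOneOdd.AA4

/-!
# Passing to the quotient by the kernel of the linear action
-/

set_option autoImplicit false
set_option linter.unusedSectionVars false

namespace Cfsg.Agent.Lib.RankOneOdd.Descend

open Cfsg Cfsg.Agent.Lib.RankOneOdd.Frame1 Cfsg.Agent.Lib.RankOneOdd.AA0

universe u

/-- Squares are injective in a group of odd order. -/
theorem sq_inj_odd {D : Type u} [Group D] [Finite D] (hodd : Odd (Nat.card D)) {x y : D} (e : x ^ 2 = y ^ 2) :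
    x = y :=
  (powCoprime (Nat.coprime_two_right.2 hodd)).injective e

/-- The abstract descent. -/
theorem descend {D : Type u} [Group D] [Finite D] {n : ℕ} (ρD : D →* MM n) (τD : D ≃* D) (z₀ : VV n)
    (hodd : Odd (Nat.card D)) (hinv : ∀ x, τD (τD x) = x) (hne : z₀ ≠ 0)
    (hfix : ∀ d, τD d = d ↔ (ρD d).mulVec z₀ = z₀)
    (htrans : ∀ z, z ≠ 0 → ∃ k, τD k = k⁻¹ ∧ (ρD k).mulVec z₀ = z) (hn : 2 ≤ n) :
    (∃ k₀, τD k₀ = k₀⁻¹ ∧ ∀ k, τD k = k⁻¹ → ∃ m : ℤ, k = k₀ ^ m) ∧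
      (∃ v, τD v = v ∧ ∀ x, τD x = x → ∃ m : ℤ, ρD x = ρD (v ^ m)) := by
  classical
  set W : Subgroup D := ρD.ker with hW
  have hmemW : ∀ d, d ∈ W ↔ ρD d = 1 := fun d => MonoidHom.mem_ker
  have hWfix : ∀ d ∈ W, τD d = d := by
    intro d hd
    rw [hfix, (hmemW d).1 hd, Matrix.one_mulVec]
  have hWmap : W.map (τD : D →* D) = W := by
    ext d
    constructor
    · rintro ⟨d', hd', rfl⟩
      have h1 : (τD : D →* D) d' = τD d' := rfl
      rw [h1, hWfix d' hd']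
      exact hd'
    · intro hd
      exact ⟨d, hd, hWfix d hd⟩
  let ρ : D ⧸ W →* MM n := QuotientGroup.lift W ρD (fun x hx => hx)
  let τ : D ⧸ W ≃* D ⧸ W := QuotientGroup.congr W W τD hWmap
  have hρ : ∀ d : D, ρ (d : D ⧸ W) = ρD d := fun d => rfl
  have hτ : ∀ d : D, τ (d : D ⧸ W) = ((τD d : D) : D ⧸ W) := fun d => rfl
  have hmk : ∀ d d' : D, ((d : D) : D ⧸ W) = (d' : D ⧸ W) ↔ ρD d = ρD d' := by
    intro d d'
    rw [QuotientGroup.eq, hmemW]
    constructor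
    · intro h
      have h1 : ρD d' = ρD d * ρD (d⁻¹ * d') := by
        rw [← map_mul, mul_inv_cancel_left]
      rw [h1, h, mul_one]
    · intro h
      rw [map_mul, ← h, ← map_mul, inv_mul_cancel, map_one]
  have hoddX : Odd (Nat.card (D ⧸ W)) := Odd.of_dvd_nat hodd (Subgroup.card_quotient_dvd_card W)
  have hne' : ∀ (d : D) {z : VV n}, z ≠ 0 → (ρD d).mulVec z ≠ 0 := by
    intro d z hz h0
    apply hz
    have h1 : (ρD d⁻¹).mulVec ((ρD d).mulVec z) = z := by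
      rw [Matrix.mulVec_mulVec, ← map_mul, inv_mul_cancel, map_one, Matrix.one_mulVec]
    rw [← h1, h0, Matrix.mulVec_zero]
  -- factorisation
  have hfac : ∀ d : D, ∃ k y, τD k = k⁻¹ ∧ τD y = y ∧ d = k * y := by
    intro d
    obtain ⟨k, hk, e⟩ := htrans _ (hne' d hne)
    refine ⟨k, k⁻¹ * d, hk, ?_, by group⟩
    rw [hfix, map_mul, ← Matrix.mulVec_mulVec, ← e, Matrix.mulVec_mulVec, ← map_mul, inv_mul_cancel, map_one,
      Matrix.one_mulVec]
  -- a fixed class is the class of a fixed element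
  have hfc : ∀ d : D, τ (d : D ⧸ W) = (d : D ⧸ W) → ∃ y, τD y = y ∧ ((y : D) : D ⧸ W) = (d : D ⧸ W) := by
    intro d hd
    obtain ⟨k, y, hk, hy, rfl⟩ := hfac d
    refine ⟨y, hy, ?_⟩
    rw [hτ, map_mul, hk, hy] at hd
    have h1 : ((k⁻¹ : D) : D ⧸ W) = (k : D ⧸ W) := by
      have h2 : ((k⁻¹ * y : D) : D ⧸ W) = ((k⁻¹ : D) : D ⧸ W) * (y : D ⧸ W) := rfl
      have h3 : ((k * y : D) : D ⧸ W) = ((k : D) : D ⧸ W) * (y : D ⧸ W) := rfl
      rw [h2, h3] at hd
      exact mul_right_cancel hd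
    have h4 : ((k : D) : D ⧸ W) ^ 2 = 1 := by
      rw [pow_two]
      nth_rewrite 1 [← h1]
      have h5 : ((k⁻¹ : D) : D ⧸ W) * (k : D ⧸ W) = ((k⁻¹ * k : D) : D ⧸ W) := rfl
      rw [h5, inv_mul_cancel]
      rfl
    have h5 : ((k : D) : D ⧸ W) = 1 := by
      apply sq_inj_odd hoddX
      rw [h4, one_pow]
    have h6 : ((k * y : D) : D ⧸ W) = ((k : D) : D ⧸ W) * (y : D ⧸ W) := rfl
    rw [h6, h5, one_mul]
  have hLF : LF ρ τ z₀ := by
    refine ⟨?_, hoddX, ?_, hne, ?_, ?_⟩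
    · intro x y
      induction x using QuotientGroup.induction_on with
      | H x =>
        induction y using QuotientGroup.induction_on with
        | H y =>
          intro e
          exact (hmk x y).2 e
    · intro x
      induction x using QuotientGroup.induction_on with
      | H x =>
        rw [hτ, hτ, hinv]
    · intro x
      induction x using QuotientGroup.induction_on with
      | H d =>
        constructor
        · intro hd
          obtain ⟨y, hy, e⟩ := hfc d hd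
          rw [← e, hρ]
          exact (hfix y).1 hy
        · intro hd
          rw [hρ] at hd
          rw [hτ, (hfix d).2 hd]
    · intro z hz
      obtain ⟨k, hk, e⟩ := htrans z hz
      refine ⟨(k : D ⧸ W), ?_, e⟩
      rw [hτ, hk]
      rfl
  obtain ⟨C, hC, hcyc, hnorm⟩ := Cfsg.Agent.Lib.RankOneOdd.AA4.theoremA hLF hn
  have hVcyc := Cfsg.Agent.Lib.RankOneOdd.VCyc.VS_cyclic hLF (by omega) C hC hcyc hnorm
  have hmemC : ∀ x, x ∈ C ↔ τ x = x⁻¹ := by
    intro x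
    rw [← SetLike.mem_coe, hC]
    exact mem_KS
  have hDuniq : ∀ k k' : D, τD k = k⁻¹ → τD k' = k'⁻¹ → (ρD k).mulVec z₀ = (ρD k').mulVec z₀ → k = k' := by
    intro k k' hk hk' e
    have h1 : τD (k⁻¹ * k') = k⁻¹ * k' := by
      rw [hfix, map_mul, ← Matrix.mulVec_mulVec, ← e, Matrix.mulVec_mulVec, ← map_mul, inv_mul_cancel, map_one,
        Matrix.one_mulVec]
    rw [map_mul, map_inv, hk, hk', inv_inv] at h1
    apply sq_inj_odd hodd
    have h2 : k * k'⁻¹ * k' = k⁻¹ * k' * k' := by rw [h1]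
    rw [inv_mul_cancel_right] at h2
    have h3 : k * k = k * (k⁻¹ * k' * k') := by rw [← h2]
    rw [mul_assoc k⁻¹, mul_inv_cancel_left] at h3
    rw [pow_two, pow_two]
    exact h3
  refine ⟨?_, ?_⟩
  · obtain ⟨⟨g, hg⟩, hgen⟩ := hcyc.exists_generator
    obtain ⟨k₀, hk₀, ek₀⟩ := htrans _ (mulVec_ne_zero (ρ := ρ) g hne)
    have h1 : ((k₀ : D) : D ⧸ W) = g := by
      apply KS_unique hLF
      · rw [mem_KS, hτ, hk₀]
        rfl
      · exact (hmemC g).1 hg
      · exact ek₀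
    refine ⟨k₀, hk₀, fun k hk => ?_⟩
    have h2 : ((k : D) : D ⧸ W) ∈ C := by
      rw [hmemC, hτ, hk]
      rfl
    obtain ⟨m, hm⟩ := Subgroup.mem_zpowers_iff.1 (hgen ⟨_, h2⟩)
    refine ⟨m, ?_⟩
    have h3 : g ^ m = ((k : D) : D ⧸ W) := congrArg Subtype.val hm
    have hk₀m : τD (k₀ ^ m) = (k₀ ^ m)⁻¹ := by
      rw [map_zpow, hk₀, inv_zpow]
    apply hDuniq k (k₀ ^ m) hk hk₀m
    have h4 : ((k₀ ^ m : D) : D ⧸ W) = ((k : D) : D ⧸ W) := by
      rw [← h3, ← h1]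
      rfl
    rw [← (hmk _ _).1 h4]
  · obtain ⟨⟨g, hg⟩, hgen⟩ := hVcyc.exists_generator
    induction g using QuotientGroup.induction_on with
    | H d =>
      obtain ⟨y, hy, ey⟩ := hfc d hg
      refine ⟨y, hy, fun x hx => ?_⟩
      have h2 : ((x : D) : D ⧸ W) ∈ VS τ := by
        rw [mem_VS, hτ, hx]
      obtain ⟨m, hm⟩ := Subgroup.mem_zpowers_iff.1 (hgen ⟨_, h2⟩)
      refine ⟨m, ?_⟩
      have h3 : ((d : D) : D ⧸ W) ^ m = ((x : D) : D ⧸ W) := congrArg Subtype.val hm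
      rw [← ey] at h3
      apply ((hmk _ _).1 _)
      rw [← h3]
      rfl

end Cfsg.Agent.Lib.RankOneOdd.Descend
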